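import Cfsg.Agent.Lib.BG.Hall

/-! Groups of class two whose involutions are the three central ones. -/

set_option autoImplicit false

namespace Cfsg.Lib.CharDeg.Aniso

open Subgroup Cfsg.Lib Cfsg.Lib.BG

variable {P : Type*} [Group P] [Finite P]

theorem card_sup_le {B : Subgroup P} {y : P} (hn : y ∈ 𝐍(B)) (hy : y * y ∈ B) :
    Nat.card ↥(B ⊔ zpowers y) ≤ 2 * Nat.card B := by
  by_cases h : y ∈ B
  · rw [sup_eq_left.2 (zpowers_le.2 h)]; omega
  have h2 : B.relIndex (B ⊔ zpowers y) = 2 := by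
    refine relIndex_eq_two_iff_exists_notMem_and.2 ⟨y, mem_sup_right (mem_zpowers y), h, fun b hb => ?_⟩
    obtain ⟨c, hc, _, ⟨k, rfl⟩, rfl⟩ := (mem_sup_left_norm (zpowers_le.2 hn)).1 hb
    have h3 : ∀ j : ℤ, y ^ (2 * j) ∈ B := fun j => by
      rw [zpow_mul]; exact zpow_mem (by rw [zpow_two]; exact hy) j
    rcases Int.even_or_odd' k with ⟨j, rfl | rfl⟩
    · exact Or.inr (mul_mem hc (h3 j))
    · left
      change c * y ^ (2 * j + 1) * y ∈ B
      rw [mul_assoc, ← zpow_add_one, show 2 * j + 1 + 1 = 2 * (j + 1) by ring]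
      exact mul_mem hc (h3 _)
  rw [← card_mul_relIndex (le_sup_left : B ≤ B ⊔ zpowers y), h2, mul_comm]

theorem index_cent_le (hc : ∀ x y : P, x * y * x⁻¹ * y⁻¹ ∈ center P) (x : P) :
    (𝐂[x] : Subgroup P).index ≤ Nat.card (center P) := by
  let f : P →* P := MonoidHom.mk' (fun y => x * y * x⁻¹ * y⁻¹) fun y z => by
    have := mem_center_iff.1 (hc x z) y
    calc x * (y * z) * x⁻¹ * (y * z)⁻¹ = x * y * x⁻¹ * y⁻¹ * (y * (x * z * x⁻¹ * z⁻¹) * y⁻¹) := by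
          group
      _ = _ := by rw [this, mul_inv_cancel_right]
  have hk : f.ker = 𝐂[x] := by
    ext y
    rw [MonoidHom.mem_ker, mem_cent1]
    change x * y * x⁻¹ * y⁻¹ = 1 ↔ _
    rw [mul_inv_eq_one, mul_inv_eq_iff_eq_mul, eq_comm]
  rw [← hk, index_ker]
  exact card_le_of_le (by rintro _ ⟨y, rfl⟩; exact hc x y)

theorem card_le (hsq : ∀ x : P, x * x ∈ center P) (hc : ∀ x y : P, x * y * x⁻¹ * y⁻¹ ∈ center P)
    (h4 : Nat.card (center P) = 4) (hinv : ∀ x : P, x * x = 1 ↔ x ∈ center P) :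
    Nat.card P ≤ 128 := by
  by_cases hZ : ∀ x : P, x ∈ center P
  · rw [← card_top, ← eq_top_iff.2 (fun x _ => hZ x : ⊤ ≤ center P), h4]; omega
  push Not at hZ
  obtain ⟨x, hx⟩ := hZ
  have h1 := index_cent_le hc x
  have h2 := (𝐂[x] : Subgroup P).card_mul_index
  suffices Nat.card (𝐂[x] : Subgroup P) ≤ 32 by
    rw [← h2]; exact (Nat.mul_le_mul this (h1.trans h4.le)).trans (by norm_num)
  by_contra hlt
  have hn : ∀ B : Subgroup P, center P ≤ B → ∀ y, y ∈ 𝐍(B) := fun B hB y =>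
    zpowers_le.1 (norm_of_comm_le ((comm_le_iff.2 fun a _ b _ => hc a b).trans hB))
  have step : ∀ B : Subgroup P, center P ≤ B → ∀ y,
      Nat.card ↥(B ⊔ zpowers y) ≤ 2 * Nat.card B := fun B hB y =>
    card_sup_le (hn B hB y) (hB (hsq y))
  have pick : ∀ B : Subgroup P, Nat.card B ≤ 32 → ∃ y ∈ (𝐂[x] : Subgroup P), y ∉ B := fun B hB =>
    SetLike.not_le_iff_exists.1 fun h => hlt ((card_le_of_le h).trans hB)
  set B0 := center P ⊔ zpowers x with hB0
  have c0 : Nat.card B0 ≤ 8 := (step _ le_rfl x).trans (by omega)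
  obtain ⟨y1, m1, n1⟩ := pick B0 (by omega)
  have c1 := step B0 le_sup_left y1
  obtain ⟨y2, m2, n2⟩ := pick (B0 ⊔ zpowers y1) (by omega)
  have c2 := step (B0 ⊔ zpowers y1) (le_sup_left.trans le_sup_left) y2
  obtain ⟨y3, m3, n3⟩ := pick (B0 ⊔ zpowers y1 ⊔ zpowers y2) (by omega)
  -- the subgroup `N = ⟨x²⟩` of index two in the centre
  have hx1 : x * x ≠ 1 := fun e => hx ((hinv x).1 e)
  have hx2 : x * x * (x * x) = 1 := (hinv _).2 (hsq x)
  set N := zpowers (x * x) with hN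
  have hNc : Nat.card N = 2 := by
    rw [Nat.card_zpowers]; exact orderOf_eq_prime (by rwa [sq]) hx1
  have hNi : N.relIndex (center P) = 2 := by
    have h0 : Nat.card N * N.relIndex (center P) = Nat.card (center P) :=
      card_mul_relIndex (zpowers_le.2 (hsq x))
    rw [hNc, h4] at h0
    omega
  have hmul : ∀ z ∈ center P, ∀ w ∈ center P, (z * w ∈ N ↔ (z ∈ N ↔ w ∈ N)) := fun z hz w hw => by
    simpa [mem_subgroupOf] using
      mul_mem_iff_of_index_two (H := N.subgroupOf (center P)) hNi (a := ⟨z, hz⟩) (b := ⟨w, hw⟩)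
  have hout : ∀ y ∈ (𝐂[x] : Subgroup P), y ∉ B0 → y * y ∉ N := fun y hy hyB h => by
    have h3 : y * y = 1 ∨ y * y = x * x := by
      obtain ⟨k, hk⟩ := h
      rcases Int.even_or_odd' k with ⟨j, rfl | rfl⟩
      · left; rw [← hk]; change (x * x) ^ (2 * j) = 1; rw [zpow_mul, zpow_two, hx2, one_zpow]
      · right; rw [← hk]; change (x * x) ^ (2 * j + 1) = _
        rw [zpow_add_one, zpow_mul, zpow_two, hx2, one_zpow, one_mul]
    rcases h3 with h3 | h3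
    · exact hyB (mem_sup_left ((hinv y).1 h3))
    · have h5 : x * y ∈ center P := (hinv _).1 (by
        calc x * y * (x * y) = x * (y * x) * y := by group
          _ = x * x * (y * y) := by rw [mem_cent1.1 hy]; group
          _ = 1 := by rw [h3, hx2])
      have := mul_mem (inv_mem (mem_sup_right (mem_zpowers x) : x ∈ B0)) (mem_sup_left h5)
      exact hyB (by rwa [inv_mul_cancel_left] at this)
  have hsqm : ∀ u v : P, u * v * (u * v) = u * u * (v * v) * (v⁻¹ * u⁻¹ * v * u) := fun u v => by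
    have h5 := mem_center_iff.1 (hc v⁻¹ u⁻¹) v
    rw [inv_inv, inv_inv] at h5
    calc u * v * (u * v) = u * u * v * ((v⁻¹ * u⁻¹ * v * u) * v) := by group
      _ = _ := by rw [← h5]; group
  have hcz : ∀ u v : P, v⁻¹ * u⁻¹ * v * u ∈ center P := fun u v => by simpa using hc v⁻¹ u⁻¹
  have hcomm : ∀ u ∈ (𝐂[x] : Subgroup P), ∀ v ∈ (𝐂[x] : Subgroup P), u ∉ B0 → v ∉ B0 →
      u * v ∉ B0 → v⁻¹ * u⁻¹ * v * u ∉ N := fun u hu v hv h5 h6 h7 h8 => by
    refine hout _ (mul_mem hu hv) h7 ?_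
    rw [hsqm, hmul _ (mul_mem (hsq u) (hsq v)) _ (hcz u v), hmul _ (hsq u) _ (hsq v)]
    simp [hout u hu h5, hout v hv h6, h8]
  have hy1 : y1 ∈ B0 ⊔ zpowers y1 := mem_sup_right (mem_zpowers _)
  have hy2 : y2 ∈ B0 ⊔ zpowers y1 ⊔ zpowers y2 := mem_sup_right (mem_zpowers _)
  have k12 : y1 * y2 ∉ B0 := fun h => n2 ((mul_mem_cancel_left hy1).1 (mem_sup_left h))
  have k3 : ∀ u ∈ B0 ⊔ zpowers y1 ⊔ zpowers y2, u * y3 ∉ B0 := fun u hu h =>
    n3 ((mul_mem_cancel_left hu).1 (mem_sup_left (mem_sup_left h)))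
  have n2' : y2 ∉ B0 := fun h => n2 (mem_sup_left h)
  have n3' : y3 ∉ B0 := fun h => n3 (mem_sup_left (mem_sup_left h))
  have e13 := hcomm y1 m1 y3 m3 n1 n3' (k3 _ (mem_sup_left hy1))
  have e23 := hcomm y2 m2 y3 m3 n2' n3' (k3 _ hy2)
  have e123 := hcomm _ (mul_mem m1 m2) y3 m3 k12 n3' (k3 _ (mul_mem (mem_sup_left hy1) hy2))
  refine e123 ?_
  have h5 := mem_center_iff.1 (hcz y1 y3) y2
  have h6 : y3⁻¹ * (y1 * y2)⁻¹ * y3 * (y1 * y2) =
      (y3⁻¹ * y2⁻¹ * y3 * y2) * (y3⁻¹ * y1⁻¹ * y3 * y1) := by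
    calc y3⁻¹ * (y1 * y2)⁻¹ * y3 * (y1 * y2) =
        y3⁻¹ * y2⁻¹ * y3 * ((y3⁻¹ * y1⁻¹ * y3 * y1) * y2) := by group
      _ = _ := by rw [← h5]; group
  rw [h6, hmul _ (hcz _ _) _ (hcz _ _)]
  simp [e13, e23]

end Cfsg.Lib.CharDeg.Aniso
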