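import Cfsg.Agent.Lib.BS.IdA
import Cfsg.Agent.Lib.ZD.Basic
import Cfsg.Agent.Lib.PSL2.SmallIso
import Cfsg.Agent.Lib.PSL2.Maximal
import Cfsg.Agent.Lib.Small.Basic

/-!
A finite doubly transitive group generated by elementary abelian root groups of even order is
`SL(2, 2 ^ n)`.
-/

set_option autoImplicit false

namespace Cfsg.Lib.CharDeg.Elation

open Subgroup Cfsg.Lib.Inv Cfsg.Lib.Transfer

variable {G : Type*} [Group G]

structure El (H A : Subgroup G) (t : G) : Prop where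
  tt : t * t = 1
  tH : t ∉ H
  AH : A ≤ H
  norm : H ≤ normalizer (A : Set G)
  canon : ∀ g, g ∉ H → ∃ h ∈ H, ∃ q ∈ A, g = h * t * q
  disj : ∀ q ∈ A, t * q * t⁻¹ ∈ H → q = 1
  sq : ∀ a ∈ A, a * a = 1
  el : ∃ c, c * t * c⁻¹ ∈ A
  gen : A ⊔ zpowers t = ⊤

namespace El

variable {H A : Subgroup G} {t : G} (h : El H A t)
include h

theorem t_inv : t⁻¹ = t := inv_eq_of_mul_self h.tt

theorem mem_of_conj {q g : G} (hq : q ∈ A) (h1 : q ≠ 1) (e : g * q * g⁻¹ ∈ H) : g ∈ H := by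
  by_contra hg
  obtain ⟨a, ha, q', hq', rfl⟩ := h.canon g hg
  have := h.disj _ (mul_mem (mul_mem hq' hq) (inv_mem hq')) (by
    convert mul_mem (mul_mem (inv_mem ha) e) ha using 1; group)
  apply h1
  calc q = q'⁻¹ * (q' * q * q'⁻¹) * q' := by group
    _ = 1 := by rw [this]; group

theorem cA {g q : G} (hg : g ∈ H) (hq : q ∈ A) : g * q * g⁻¹ ∈ A :=
  (mem_normalizer_iff.1 (h.norm hg) q).1 hq

theorem iso {s : G} (hs : ∃ c, c * s * c⁻¹ ∈ A) (h1 : s * t ∈ H) (hc : s * t = t * s) : s = t := by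
  obtain ⟨c, ha⟩ := h.el
  obtain ⟨e, hb⟩ := hs
  have t1 : t ≠ 1 := fun e => h.tH (e ▸ H.one_mem)
  have s1 : s ≠ 1 := fun e => h.tH (by simpa [e] using h1)
  have a1 : c * t * c⁻¹ ≠ 1 := fun e => t1 (by
    calc t = c⁻¹ * (c * t * c⁻¹) * c := by group
      _ = 1 := by rw [e]; group)
  have b1 : e * s * e⁻¹ ≠ 1 := fun e' => s1 (by
    calc s = e⁻¹ * (e * s * e⁻¹) * e := by group
      _ = 1 := by rw [e']; group)
  have h2 : c * s * c⁻¹ ∈ H := h.mem_of_conj ha a1 (by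
    have : c * s * c⁻¹ * (c * t * c⁻¹) * (c * s * c⁻¹)⁻¹ = c * (s * t * s⁻¹) * c⁻¹ := by group
    rw [this, hc, mul_inv_cancel_right]; exact h.AH ha)
  have h3 : c * e⁻¹ ∈ H := h.mem_of_conj hb b1 (by convert h2 using 1; group)
  have h4 : c * s * c⁻¹ ∈ A := by convert h.cA h3 hb using 1; group
  have h5 := mul_mem h4 ha
  by_cases h6 : c * s * c⁻¹ * (c * t * c⁻¹) = 1
  · have : s * t = 1 := by
      calc s * t = c⁻¹ * (c * s * c⁻¹ * (c * t * c⁻¹)) * c := by group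
        _ = 1 := by rw [h6]; group
    rw [eq_inv_of_mul_eq_one_left this, h.t_inv]
  · exfalso
    have h7 : c⁻¹ ∈ H := h.mem_of_conj h5 h6 (by convert h1 using 1; group)
    exact h.tH (by convert mul_mem (mul_mem h7 (h.AH ha)) (inv_mem h7) using 1; group)

theorem closure_le {O : Subgroup G} (hO : O ≤ H)
    (hs : ∀ s, s * s = 1 → (∃ c, c * s * c⁻¹ ∈ A) → s * t ∈ H → s * t ∈ O)
    {d : G} (hd : d ∈ H) (hd' : t * d * t⁻¹ ∈ H) (hOt : ∀ o ∈ O, t * o * t⁻¹ ∈ H) : d ∈ O := by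
  let P : G → Prop := fun g => (∃ a ∈ A, ∃ o ∈ O, g = a * o) ∨
    ∃ a ∈ A, ∃ o ∈ O, ∃ a' ∈ A, g = a * o * t * a'
  have PA : ∀ g, ∀ b ∈ A, P g → P (g * b) := by
    rintro g b hb (⟨a, ha, o, ho, rfl⟩ | ⟨a, ha, o, ho, a', ha', rfl⟩)
    · exact .inl ⟨_, mul_mem ha (h.cA (hO ho) hb), o, ho, by group⟩
    · exact .inr ⟨a, ha, o, ho, _, mul_mem ha' hb, by group⟩
  have Pt : ∀ g, P g → P (g * t) := by
    rintro g (⟨a, ha, o, ho, rfl⟩ | ⟨a, ha, o, ho, a', ha', rfl⟩)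
    · exact .inr ⟨a, ha, o, ho, 1, A.one_mem, by group⟩
    by_cases h1 : a' = 1
    · exact .inl ⟨a, ha, o, ho, by rw [h1, mul_one, mul_assoc, h.tt, mul_one]⟩
    obtain ⟨k, hk, q, hq, e⟩ := h.canon (t * a' * t⁻¹) (fun e => h1 (h.disj _ ha' e))
    have e1 : q * (t * a' * t⁻¹) * q⁻¹ * t = q * k := by
      rw [e]
      calc q * (k * t * q) * q⁻¹ * t = q * k * (t * t) := by group
        _ = _ := by rw [h.tt, mul_one]
    have h2 := hs (q * (t * a' * t⁻¹) * q⁻¹) (by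
      rw [conj_mul, conj_mul, h.sq _ ha']; group) ⟨t⁻¹ * q⁻¹, by convert ha' using 1; group⟩
      (e1 ▸ mul_mem (h.AH hq) hk)
    rw [e1] at h2
    refine .inr ⟨_, mul_mem ha (h.cA (hO ho) (inv_mem hq)), _, mul_mem ho h2, q, hq, ?_⟩
    calc a * o * t * a' * t = a * o * (t * a' * t⁻¹) := by rw [h.t_inv]; group
      _ = _ := by rw [e]; group
  let S : Subgroup G :=
    { carrier := {x | ∀ g, P g ↔ P (g * x)}
      one_mem' := fun g => by rw [mul_one]
      mul_mem' := fun {x y} hx hy g => by rw [← mul_assoc]; exact (hx g).trans (hy _)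
      inv_mem' := fun {x} hx g => by
        have := hx (g * x⁻¹)
        rw [inv_mul_cancel_right] at this
        exact this.symm }
  have hS : (⊤ : Subgroup G) ≤ S := by
    rw [← h.gen]
    refine sup_le (fun b hb g => ⟨PA g b hb, fun e => ?_⟩) (zpowers_le.2 fun g => ⟨Pt g, fun e => ?_⟩)
    · simpa using PA _ _ (inv_mem hb) e
    · have := Pt _ e
      rwa [mul_assoc, h.tt, mul_one] at this
  have := (hS (mem_top d) 1).1 (.inl ⟨1, A.one_mem, 1, O.one_mem, by group⟩)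
  rw [one_mul] at this
  rcases this with ⟨a, ha, o, ho, rfl⟩ | ⟨a, ha, o, ho, a', ha', rfl⟩
  · have := h.disj a ha (by
      convert mul_mem hd' (inv_mem (hOt o ho)) using 1; group)
    rw [this, one_mul]; exact ho
  · exact (h.tH (by
      convert mul_mem (mul_mem (inv_mem (mul_mem (h.AH ha) (hO ho))) hd) (inv_mem (h.AH ha'))
        using 1; group)).elim

theorem inv_st {s : G} (hs : s * s = 1) : t * (s * t) * t⁻¹ = (s * t)⁻¹ := by
  rw [mul_inv_rev, inv_eq_of_mul_self hs, h.t_inv, ← mul_assoc, mul_assoc, h.tt, mul_one]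

variable [Finite G]

theorem odd_st {s : G} (h2 : s * s = 1) (hs : ∃ c, c * s * c⁻¹ ∈ A) (h1 : s * t ∈ H) :
    Odd (orderOf (t * s)) := by
  by_contra ho
  obtain ⟨z1, z2, -⟩ := half_pow_of_even h.tt h2 (Nat.not_odd_iff_even.1 ho)
  have hts : t * s ∈ H := by
    have := inv_mem h1
    rwa [mul_inv_rev, h.t_inv, inv_eq_of_mul_self h2] at this
  generalize orderOf (t * s) / 2 = k at z1 z2
  obtain ⟨c, -, hc⟩ := ZD.refl_conj h.tt h2 (k : ℤ)
  rw [zpow_natCast] at hc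
  have := h.iso (s := (t * s) ^ k * t) (by
    obtain ⟨e, he⟩ := h.el
    obtain ⟨e', he'⟩ := hs
    rcases hc with hc | hc
    · exact ⟨e * c⁻¹, by rw [hc]; convert he using 1; group⟩
    · exact ⟨e' * c⁻¹, by rw [hc]; convert he' using 1; group⟩)
    (by rw [mul_assoc, h.tt, mul_one]; exact pow_mem hts k)
    (by rw [← mul_assoc, ← z2.eq])
  exact ne_one_of_orderOf z1 (mul_eq_right.1 this)

theorem ro : RO H A (H ⊓ H.comap (MulAut.conj t).toMonoidHom) t := by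
  set D := H ⊓ H.comap (MulAut.conj t).toMonoidHom with hD
  have memD : ∀ d, d ∈ D ↔ d ∈ H ∧ t * d * t⁻¹ ∈ H := fun d => Iff.rfl
  have tt' : ∀ x, t * (t * x * t⁻¹) * t⁻¹ = x := fun x => by
    calc t * (t * x * t⁻¹) * t⁻¹ = (t * t) * x * (t * t)⁻¹ := by group
      _ = x := by rw [h.tt]; group
  have tD : ∀ d ∈ D, t * d * t⁻¹ ∈ D := fun d hd => ⟨hd.2, by
    change t * (t * d * t⁻¹) * t⁻¹ ∈ H
    rw [tt']; exact hd.1⟩
  have t1 : t ≠ 1 := fun e => h.tH (e ▸ H.one_mem)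
  have tn : zpowers t ≤ normalizer (D : Set G) := zpowers_le.2 (mem_normalizer_fintype tD)
  have tN : t ∈ D ⊔ zpowers t := mem_sup_right (mem_zpowers t)
  have key : ∀ n ∈ D ⊔ zpowers t, n * t * n⁻¹ * t ∈ H := fun n hn => by
    obtain ⟨d, hd, y, ⟨k, rfl⟩, rfl⟩ := exists_mul_of_mem_sup tn hn
    have : d * t ^ k * t * (d * t ^ k)⁻¹ * t = d * (t * d⁻¹ * t⁻¹) := by
      rw [h.t_inv]; group
    exact this ▸ mul_mem hd.1 (tD _ (inv_mem hd)).1
  have hz : ∀ g ∈ D ⊔ zpowers t, t * g * t⁻¹ * g⁻¹ ∈ GW.Od (D ⊔ zpowers t) := fun g hg =>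
    ZD.zstar_sub (orderOf_eq_two_iff.2 ⟨t1, h.tt⟩) tN (fun n hn e => h.iso (by
      obtain ⟨c, hc⟩ := h.el
      exact ⟨c * n⁻¹, by convert hc using 1; group⟩) (key n hn) e.symm) hg
  have hle : D ≤ GW.Od (D ⊔ zpowers t) := fun d hd =>
    (h.closure_le (O := GW.Od (D ⊔ zpowers t) ⊓ D) (inf_le_right.trans inf_le_left)
      (fun s h2 hs h1 => by
        have h3 : s * t ∈ D := ⟨h1, by
          change t * (s * t) * t⁻¹ ∈ H
          rw [h.inv_st h2]; exact inv_mem h1⟩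
        refine ⟨?_, h3⟩
        obtain ⟨k, hk⟩ := exists_pow_conj_of_odd h.tt h2 (h.odd_st h2 hs h1)
        have h4 : t * s ∈ D := by
          have := inv_mem h3
          rwa [mul_inv_rev, h.t_inv, inv_eq_of_mul_self h2] at this
        have h5 := inv_mem (hz _ (mem_sup_left (pow_mem h4 k)))
        generalize (t * s) ^ k = c at hk h5
        rw [← hk]
        have e : c * t * c⁻¹ * t = (t * c * t⁻¹ * c⁻¹)⁻¹ := by
          simp only [mul_inv_rev, inv_inv, h.t_inv, mul_assoc]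
        rw [e]; exact h5)
      hd.1 hd.2 (fun o ho => ho.2.2)).1
  refine ⟨h.tt, h.tH, h.AH, h.norm, h.canon, h.disj, memD, ?_,
    (GW.odd_Od _).of_dvd_nat (card_dvd_of_le hle)⟩
  obtain ⟨c, hc⟩ := h.el
  exact even_card_of_involution_mem (by rw [orderOf_conj']; exact Inv.orderOf_eq_two_iff.2 ⟨t1, h.tt⟩) hc

theorem main : ∃ (F : Type) (_ : Field F) (_ : Fintype F), Fintype.card F = Nat.card A ∧
    Nonempty (G ≃* Matrix.SpecialLinearGroup (Fin 2) F) := by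
  have hr := h.ro
  set D := H ⊓ H.comap (MulAut.conj t).toMonoidHom with hD
  obtain ⟨a, ha, a2⟩ := hr.exists_inv
  have a1 := ne_one_of_orderOf a2
  have fin : ∀ (F : Type) [Field F] [Fintype F], Nat.card F = Nat.card A →
      Nonempty (G ≃* Matrix.ProjGenLinGroup (Fin 2) F) →
      ∃ (F : Type) (_ : Field F) (_ : Fintype F), Fintype.card F = Nat.card A ∧
        Nonempty (G ≃* Matrix.SpecialLinearGroup (Fin 2) F) := fun F _ _ e ⟨i⟩ => by
    have hev : ¬ Odd (Nat.card F) := by rw [e, Nat.not_odd_iff_even]; exact hr.even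
    obtain ⟨j⟩ := PSL2.equiv_psl_pgl_of_even hev
    obtain ⟨k⟩ := PSL2.equiv_sl_psl_of_even hev
    exact ⟨F, _, _, by rw [← e, Nat.card_eq_fintype_card], ⟨i.trans (j.symm.trans k.symm)⟩⟩
  by_cases h2 : Rk2 G
  · obtain ⟨Q₀, K, s, r, hs⟩ := hr.exists_RS h2
    have e : A = Q₀ := Subgroup.ext fun x => ⟨fun hx => (hs.memQ0 x).2 ⟨h.AH hx, h.sq x hx⟩,
      fun hx => hr.inv_mem_Q ((hs.memQ0 x).1 hx).1 ((hs.memQ0 x).1 hx).2⟩
    have hK : D ≤ K := fun d hd => h.closure_le (O := K) (fun k hk => (hs.K_le hk).1)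
      (fun s h2 _ h1 => (hs.memK _).2 ⟨hr.mem_D_of_inverted h1 (h.inv_st h2), h.inv_st h2⟩)
      hd.1 hd.2 (fun o ho => (hs.K_le ho).2)
    have hc : H.normalCore = ⊥ := by
      rw [hr.normalCore_eq, eq_bot_iff]
      intro d hd
      by_contra h1
      exact a1 (hs.fpf (hK hd.1) h1 ha (hd.2 a ha).symm)
    obtain ⟨F, _, _, e1, i⟩ := BS.nonempty_equiv_PGL hs e hc h.gen
    exact fin F (e ▸ e1) i
  · have huniq : ∀ b ∈ A, b ≠ 1 → b = a := fun b hb b1 => by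
      by_contra hne
      refine h2 ⟨b, a, b1, a1, hne, h.sq b hb, h.sq a ha, ?_⟩
      have := inv_eq_of_mul_self (h.sq _ (mul_mem hb ha))
      rw [mul_inv_rev, inv_eq_of_mul_self (h.sq b hb), inv_eq_of_mul_self (h.sq a ha)] at this
      exact this.symm
    have hA : Nat.card A = 2 := by
      have : A = zpowers a := le_antisymm (fun b hb => by
        by_cases b1 : b = 1
        · exact b1 ▸ one_mem _
        · exact huniq b hb b1 ▸ mem_zpowers _) (zpowers_le.2 ha)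
      rw [this, Nat.card_zpowers, a2]
    have hD0 : D = ⊥ := eq_bot_iff.2 fun d hd => h.closure_le (O := ⊥) bot_le
      (fun s h2 _ h1 => by
        by_contra h3
        refine a1 (hr.K_fpf (hr.mem_D_of_inverted h1 (h.inv_st h2)) (h.inv_st h2) h3 ha ?_)
        have := huniq _ (h.cA h1 ha) (fun e => a1 (by
          calc a = (s * t)⁻¹ * (s * t * a * (s * t)⁻¹) * (s * t) := by group
            _ = 1 := by rw [e]; group))
        exact mul_inv_eq_iff_eq_mul.1 this)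
      hd.1 hd.2 (fun o ho => by rw [mem_bot.1 ho]; simp)
    obtain ⟨f, hf⟩ := Small.exists_perm_hom H (n := 3) (by rw [hr.index_H, hA])
    have hc : H.normalCore = ⊥ := by rw [hr.normalCore_eq, hD0, bot_inf_eq]
    obtain ⟨i⟩ := Small.nonempty_equiv_perm f ((MonoidHom.ker_eq_bot_iff f).1 (hf.trans hc))
      (by rw [hr.card_G, hA, hD0, card_bot]; rfl)
    haveI : Fact (Nat.Prime 2) := ⟨Nat.prime_two⟩
    obtain ⟨j⟩ := PSL2.equiv_pgl_perm_three (F := ZMod 2) (Nat.card_zmod 2)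
    exact fin (ZMod 2) (by rw [hA, Nat.card_zmod]) ⟨i.trans j.symm⟩

end El

end Cfsg.Lib.CharDeg.Elation
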