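import Cfsg.Agent.Lib.CharDeg.CosetMult

/-!
# Characters lying homogeneously over an extendible character
-/

set_option autoImplicit false

namespace Cfsg.Lib.CharDeg

open Cfsg.Lib.Char
open scoped ComplexConjugate

variable {S : Type*} [Group S]

/-- A character whose restriction to `N` is a multiple of the extendible `θ` is the product of the
extension with a character of the quotient. -/
theorem exists_inflate_mul_eq_of_res_eq_smul [Finite S] (N : Subgroup S) [N.Normal] {θ Ψ : S → ℂ}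
    (hθ : IsCharacter S θ) (hθN : IsIrrCharacter N (fun n : N => θ n)) (hΨ : IsCharacter S Ψ)
    {e : ℂ} (h : ∀ n : N, Ψ n = e * θ n) :
    ∃ μ : S ⧸ N → ℂ, IsCharacter (S ⧸ N) μ ∧ ∀ s, Ψ s = μ s * θ s := by
  classical
  have := Fintype.ofFinite S
  have := Fintype.ofFinite N
  have key : ∀ ψ : IrrCharacter S, ∃ β : S ⧸ N → ℂ, IsCharacter (S ⧸ N) β ∧
      (classInner Ψ ψ ≠ 0 → (ψ : S → ℂ) = (fun g : S => β g) * θ) := by
    intro ψ
    by_cases h0 : classInner Ψ ψ = 0
    · exact ⟨0, isCharacter_zero, fun h => absurd h0 h⟩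
    obtain ⟨φ, hφ, h1⟩ := Induce.exists_irr_below N ψ.2
    have h2 := Induce.inner_comp_ne_zero_of_constituent N.subtype hΨ ψ.2 h0 hφ.isCharacter h1
    have h3 : (fun n : N => Ψ (N.subtype n)) = e • fun n : N => θ n := funext h
    rw [h3, classInner_smul_left] at h2
    rw [← hθN.eq_of_inner_ne_zero hφ (right_ne_zero_of_mul h2)] at h1
    obtain ⟨β, hβ, h4⟩ := Clifford.exists_inflate_mul_eq_of_over N hθ hθN ψ.2 h1
    exact ⟨β, hβ.isCharacter, fun _ => h4⟩
  choose β hβ hβ' using key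
  obtain ⟨a, ha⟩ := hΨ.exists_eq_sum_nat
  refine ⟨∑ ψ, (a ψ : ℂ) • β ψ, isCharacter_sum _ _ fun ψ _ => (hβ ψ).natCast_smul _, fun s => ?_⟩
  have h1 : ∀ ψ : IrrCharacter S, classInner Ψ ψ = a ψ := fun ψ => by
    rw [ha, classInner_sum_smul_irr]
  conv_lhs => rw [ha]
  simp only [Finset.sum_apply, Pi.smul_apply, smul_eq_mul, Finset.sum_mul]
  refine Finset.sum_congr rfl fun ψ _ => ?_
  by_cases h0 : (a ψ : ℂ) = 0
  · simp [h0]
  · rw [hβ' ψ (h1 ψ ▸ h0), Pi.mul_apply, mul_assoc]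

end Cfsg.Lib.CharDeg
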