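import Cfsg.Agent.Lib.CharDeg.FlagChar
import Cfsg.Agent.Lib.Clifford.Degree
import Cfsg.Agent.Lib.Char.DefectZero
import Cfsg.Agent.Lib.Linear.Unip

/-! The Steinberg character of `GL_n`, `SL_n`. -/

namespace Cfsg.Lib.GLFlag

open Finset Matrix Cfsg.Lib.Char Cfsg.Lib.Induce

variable {n : ℕ} {F : Type*} [Field F] [Fintype F]

theorem prod_qi_sub (q j : ℕ) : ∏ i ∈ range j, ((qi q (1 + j) : ℂ) - qi q (1 + i)) =
    qf q j * q ^ ∑ i ∈ range (j + 1), i := by
  have h := qf_mul_prod q (le_refl (j + 1))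
  rw [prod_pow_eq_pow_sum, Nat.sub_self, prod_range_succ', qf, prod_range_succ, ← qf] at h
  simp only [add_comm 1]
  refine mul_right_cancel₀ (b := (qi q (j + 1) : ℂ)) (Nat.cast_ne_zero.2 (qi_pos q j).ne') ?_
  simp only [qf, qi, range_zero, prod_empty, sum_empty, Nat.cast_mul, Nat.cast_one,
    Nat.cast_zero] at h ⊢
  linear_combination -h

theorem steinberg_apply_one :
    unipotentCharacterGL n F (fun _ => 1) 1 = (Fintype.card F ^ (n * (n - 1) / 2) : ℕ) := by
  have h := unipotent_apply_one (F := F) (ν := fun _ : Fin n => 1) (by simp)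
  set q := Fintype.card F
  have h1 : ∀ j : Fin n, ∏ i ∈ Iio j, ((qi q (1 + j) : ℂ) - qi q (1 + i)) =
      qf q j * q ^ ∑ i ∈ range (j + 1), i := fun j => by
    rw [← prod_qi_sub, ← Nat.Iio_eq_range, ← Fin.map_valEmbedding_Iio, prod_map]
    rfl
  have h2 : ∏ i : Fin n, (qf q (1 + i) : ℂ) = qf q n * ∏ i : Fin n, (qf q i : ℂ) := by
    rw [Fin.prod_univ_eq_prod_range fun i => (qf q (1 + i) : ℂ),
      Fin.prod_univ_eq_prod_range fun i => (qf q i : ℂ), mul_comm, ← prod_range_succ,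
      prod_range_succ']
    simp [qf, add_comm]
  have h3 : ∑ j : Fin n, ∑ i ∈ range (j + 1), i = n * (n - 1) / 2 + n * (n - 1) * (n - 2) / 6 := by
    rw [Fin.sum_univ_eq_sum_range fun j => ∑ i ∈ range (j + 1), i, ← sum_sum_range,
      ← sum_range_id, ← sum_add_distrib]
    exact sum_congr rfl fun j _ => by rw [sum_range_succ, add_comm]
  rw [prod_comm' (t' := univ) (s' := fun j => Iio j) (by simp), prod_congr rfl fun j _ => h1 j,
    prod_mul_distrib, prod_pow_eq_pow_sum, h2, h3, pow_add] at h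
  have h4 : (q : ℂ) ^ (n * (n - 1) * (n - 2) / 6) * (qf q n * ∏ i : Fin n, (qf q i : ℂ)) ≠ 0 :=
    mul_ne_zero (pow_ne_zero _ (Nat.cast_ne_zero.2 Fintype.card_ne_zero)) (mul_ne_zero
      (Nat.cast_ne_zero.2 (qf_pos _ _).ne')
      (prod_ne_zero_iff.2 fun i _ => Nat.cast_ne_zero.2 (qf_pos _ _).ne'))
  refine mul_right_cancel₀ h4 ?_
  push_cast
  linear_combination h

theorem unipotent_apply_of_central (ν : Fin n → ℕ) {z : GL (Fin n) F}
    (hz : ∀ i j, i ≠ j → z i j = 0) (hc : z ∈ Subgroup.center (GL (Fin n) F)) :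
    unipotentCharacterGL n F ν z = unipotentCharacterGL n F ν 1 := by
  rw [unipotent_def, unipotent_def]
  refine sum_congr rfl fun κ _ => ?_
  rw [fix_apply_of_central (mem_parabolicGL.2 fun i j h => hz i j fun e => by simp [e] at h) hc]

theorem isIrr_res_SL {χ : GL (Fin n) F → ℂ} (hχ : IsIrrCharacter _ χ)
    (h : (charDegree χ).Coprime (Fintype.card F - 1)) :
    IsIrrCharacter (SpecialLinearGroup (Fin n) F) fun g => χ (SpecialLinearGroup.toGL g) := by
  haveI := Fintype.ofFinite (GeneralLinearGroup.det (n := Fin n) (R := F)).ker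
  let e : SpecialLinearGroup (Fin n) F ≃* (GeneralLinearGroup.det (n := Fin n) (R := F)).ker :=
    { toFun := fun g => ⟨SpecialLinearGroup.toGL g, Units.ext g.2⟩
      invFun := fun g => ⟨g.1, congrArg Units.val g.2⟩
      left_inv := fun _ => rfl
      right_inv := fun _ => Subtype.ext (Units.ext rfl)
      map_mul' := fun _ _ => Subtype.ext (Units.ext rfl) }
  refine (Cfsg.Lib.Clifford.isIrrCharacter_res_of_coprime _ hχ (h.coprime_dvd_right ?_)).comp_equiv e
  rw [Subgroup.index_ker, ← Nat.card_eq_fintype_card, ← Nat.card_units]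
  exact Subgroup.card_subgroup_dvd_card _

end Cfsg.Lib.GLFlag
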