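import Cfsg.Agent.Lib.BG.Hall
import Cfsg.Agent.Lib.BG.Fcore
import Cfsg.Agent.Lib.BG.Quo
import Cfsg.Agent.Lib.BG.T01_Cyclic
import Cfsg.Agent.Lib.BG.T01_PLength
import Cfsg.Agent.Lib.BG.T01_Coprime
import Cfsg.Agent.Lib.Inv.Basic
import Cfsg.Agent.Lib.Comp.Quasisimple
import Cfsg.Agent.Lib.PGroup.RankOne
import Cfsg.Agent.Lib.PGroup.Metacyclic
import Cfsg.Agent.Lib.PGroup.Critical
import Cfsg.Agent.Lib.Coprime.Generation

/-!
Solvable groups with one class of involutions (Thompson).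
-/

set_option autoImplicit false

namespace Cfsg.Lib.CharDeg.InvTrans

open Subgroup Cfsg.Lib.Inv Cfsg.Lib.Transfer Cfsg.Lib.BG

variable {G : Type*} [Group G]

theorem cj_ne_one {x : G} (g : G) (h : x ≠ 1) : g * x * g⁻¹ ≠ 1 := fun e => h (by
  calc x = g⁻¹ * (g * x * g⁻¹) * g := by group
    _ = 1 := by rw [e]; group)

theorem tourn [Finite G] {V H : Subgroup G} (hodd : Odd (Nat.card H)) (sq : ∀ v ∈ V, v * v = 1)
    (hn : ∀ h ∈ H, ∀ v ∈ V, h * v * h⁻¹ ∈ V)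
    (tr : ∀ x ∈ V, x ≠ 1 → ∀ y ∈ V, y ≠ 1 → ∃ h ∈ H, h * x * h⁻¹ = y)
    (e : G → G → Prop) (rf : ∀ x ∈ V, x ≠ 1 → e x x) (sy : ∀ x y, e x y → e y x)
    (ts : ∀ x y z, e x y → e y z → e x z)
    (eqv : ∀ h ∈ H, ∀ x y, e x y → e (h * x * h⁻¹) (h * y * h⁻¹))
    (K : ∀ x ∈ V, x ≠ 1 → ∀ y ∈ V, y ≠ 1 → ∀ z ∈ V, z ≠ 1 → ¬ e x y → ¬ e y z → ¬ e x z →
      x * y * z ≠ 1) {x y : G} (hx : x ∈ V) (x1 : x ≠ 1) (hy : y ∈ V) (y1 : y ≠ 1) : e x y := by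
  have iv : ∀ v ∈ V, v⁻¹ = v := fun v hv => inv_eq_of_mul_self (sq v hv)
  have cm : ∀ v ∈ V, ∀ w ∈ V, v * w = w * v := fun v hv w hw => by
    rw [← iv _ (mul_mem hv hw), mul_inv_rev, iv v hv, iv w hw]
  have n1 : ∀ x ∈ V, x ≠ 1 → ∀ y ∈ V, ¬ e x y → x * y ≠ 1 := fun x hx x1 y hy h e1 => h (by
    rw [eq_inv_of_mul_eq_one_right e1, iv x hx]; exact rf x hx x1)
  let r : G → G → Prop := fun x y => ¬ e x y ∧ e (x * y) x
  have tot : ∀ x ∈ V, x ≠ 1 → ∀ y ∈ V, y ≠ 1 → ¬ e x y → r x y ∨ r y x := fun x hx x1 y hy y1 h => by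
    by_contra hc
    rw [not_or] at hc
    refine K x hx x1 y hy y1 _ (mul_mem hx hy) (n1 x hx x1 y hy h) h
      (fun e1 => hc.2 ⟨fun e2 => h (sy _ _ e2), cm x hx y hy ▸ sy _ _ e1⟩)
      (fun e1 => hc.1 ⟨h, sy _ _ e1⟩) (sq _ (mul_mem hx hy))
  have asym : ∀ x ∈ V, ∀ y ∈ V, r x y → r y x → False := fun x hx y hy h1 h2 =>
    h1.1 (ts _ _ _ (sy _ _ h1.2) (cm x hx y hy ▸ h2.2))
  have rtr : ∀ x ∈ V, x ≠ 1 → ∀ y ∈ V, y ≠ 1 → ∀ z ∈ V, z ≠ 1 → r x y → r y z → ¬ e x z → r x z :=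
    fun x hx x1 y hy y1 z hz z1 h1 h2 h3 => (tot x hx x1 z hz z1 h3).resolve_right fun h4 => by
      refine K _ (mul_mem hx hy) (n1 x hx x1 y hy h1.1) _ (mul_mem hy hz) (n1 y hy y1 z hz h2.1) _
        (mul_mem hz hx) (n1 z hz z1 x hx h4.1)
        (fun e1 => h1.1 (ts _ _ _ (sy _ _ h1.2) (ts _ _ _ e1 h2.2)))
        (fun e1 => h2.1 (ts _ _ _ (sy _ _ h2.2) (ts _ _ _ e1 h4.2)))
        (fun e1 => h3 (ts _ _ _ (sy _ _ h1.2) (ts _ _ _ e1 h4.2))) ?_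
      calc x * y * (y * z) * (z * x) = x * (y * y) * (z * z) * x := by group
        _ = 1 := by rw [sq y hy, sq z hz, mul_one, mul_one, sq x hx]
  have eqv' : ∀ h ∈ H, ∀ x y, e (h * x * h⁻¹) (h * y * h⁻¹) → e x y := fun h hh x y e1 => by
    have := eqv _ (inv_mem hh) _ _ e1
    simpa [mul_assoc] using this
  have main : ∀ x ∈ V, x ≠ 1 → ∀ y ∈ V, y ≠ 1 → r x y → False := fun x hx x1 y hy y1 hr => by
    obtain ⟨h, hh, rfl⟩ := tr y hy y1 x hx x1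
    let f : ℕ → G := fun i => h ^ i * y * (h ^ i)⁻¹
    have fV : ∀ i, f i ∈ V := fun i => hn _ (pow_mem hh i) y hy
    have f1 : ∀ i, f i ≠ 1 := fun i => cj_ne_one _ y1
    have fs : ∀ i k, f (i + k) = h ^ i * f k * (h ^ i)⁻¹ := fun i k => by
      simp only [f, pow_add]; group
    have eN : ∀ i k l, e (f (i + k)) (f (i + l)) ↔ e (f k) (f l) := fun i k l => by
      rw [fs, fs]; exact ⟨eqv' _ (pow_mem hh i) _ _, eqv _ (pow_mem hh i) _ _⟩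
    have rN : ∀ i k, r (f k) (f 0) → r (f (i + k)) (f i) := fun i k h1 => by
      refine ⟨fun e1 => h1.1 ((eN i k 0).1 e1), ?_⟩
      have := eqv _ (pow_mem hh i) _ _ h1.2
      rw [← conj_mul, ← fs, ← fs] at this
      exact this
    have r1 : r (f 1) (f 0) := by simpa [f] using hr
    have fn : f (orderOf h) = f 0 := by simp [f]
    obtain ⟨m, hm⟩ := odd_orderOf_of_mem hodd hh
    have N2 : ¬ e (f 2) (f 0) := fun e2 => by
      have : ∀ j, e (f (2 * j)) (f 0) := fun j => by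
        induction j with
        | zero => exact rf _ (fV 0) (f1 0)
        | succ j ih => exact ts _ _ _ ((eN (2 * j) 2 0).2 e2) ih
      have h3 := this (m + 1)
      rw [show 2 * (m + 1) = 1 + orderOf h by omega, fs, fn, ← fs] at h3
      exact r1.1 h3
    have r2 : r (f 2) (f 0) :=
      rtr _ (fV 2) (f1 2) _ (fV 1) (f1 1) _ (fV 0) (f1 0) (rN 1 1 r1) r1 N2
    have cl : ∀ k, ¬ e (f k) (f 0) → r (f k) (f 0) := fun k => by
      induction k using Nat.strong_induction_on with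
      | _ k ih =>
      intro hk
      rcases k with _ | _ | k
      · exact (hk (rf _ (fV 0) (f1 0))).elim
      · exact r1
      by_cases h1 : e (f (k + 1)) (f 0)
      · exact rtr _ (fV _) (f1 _) _ (fV k) (f1 k) _ (fV 0) (f1 0) (rN k 2 r2)
          (ih k (by omega) fun e1 => r1.1 ((eN k 1 0).1 (ts _ _ _ h1 (sy _ _ e1)))) hk
      · exact rtr _ (fV _) (f1 _) _ (fV (k + 1)) (f1 _) _ (fV 0) (f1 0) (rN (k + 1) 1 r1)
          (ih (k + 1) (by omega) h1) hk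
    have h4 := rN 1 (2 * m) (cl (2 * m) fun e1 => r1.1 (by
      have := (eN 1 (2 * m) 0).2 e1
      rw [show 1 + 2 * m = orderOf h by omega, fn] at this
      exact sy _ _ this))
    rw [show 1 + 2 * m = orderOf h by omega, fn] at h4
    exact asym _ (fV 0) _ (fV 1) h4 r1
  by_contra h
  exact (tot x hx x1 y hy y1 h).elim (main x hx x1 y hy y1) (main y hy y1 x hx x1)

structure Cx (V Q H : Subgroup G) : Prop where
  memV : ∀ x, x ∈ V ↔ x * x = 1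
  VC : V ≤ 𝐂(Q)
  pQ : IsPGroup 2 Q
  nQ : Q.Normal
  cQ : 𝐂(Q) ≤ Q
  odd : Odd (Nat.card H)
  tr : ∀ x ∈ V, x ≠ 1 → ∀ y ∈ V, y ≠ 1 → ∃ h ∈ H, h * x * h⁻¹ = y

theorem cop [Finite G] {X P : Subgroup G} (hX : Odd (Nat.card X)) (hP : IsPGroup 2 P) :
    (Nat.card X).Coprime (Nat.card P) :=
  haveI : Fact (Nat.Prime 2) := ⟨Nat.prime_two⟩
  Coprime.coprime_card_of_isPGroup hP (Nat.coprime_two_right.2 hX)

theorem sol2 [Finite G] {P : Subgroup G} (hP : IsPGroup 2 P) : Group.IsSolvable P :=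
  haveI : Fact (Nat.Prime 2) := ⟨Nat.prime_two⟩
  pgroup_sol hP

namespace Cx

variable {V Q H : Subgroup G} (h : Cx V Q H)
include h

theorem cjV (g : G) {v : G} (hv : v ∈ V) : g * v * g⁻¹ ∈ V :=
  (h.memV _).2 (by rw [conj_mul, (h.memV v).1 hv]; group)

theorem VQ : V ≤ Q := h.VC.trans h.cQ
theorem pV : IsPGroup 2 V := h.pQ.to_le h.VQ
theorem vq {v q : G} (hv : v ∈ V) (hq : q ∈ Q) : q * v = v * q := mem_cent.1 (h.VC hv) q hq

theorem pair {d e : G} (h1 : d * d ∈ V) (h2 : d * d = e * e) (h3 : d * e = e * d) : d * e ∈ V :=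
  (h.memV _).2 (by
    calc d * e * (d * e) = d * (e * d) * e := by group
      _ = d * d * (e * e) := by rw [← h3]; group
      _ = 1 := by rw [← h2]; exact (h.memV _).1 h1)

variable [Finite G]

theorem oddfix {y d : G} (ho : Odd (orderOf y)) (hy : y ∈ 𝐂(V)) (e : y * d * y⁻¹ * d⁻¹ ∈ V) :
    y * d = d * y :=
  Coprime.commutator_eq_one_of_commute (mem_cent.1 hy _ e).symm
    ((Nat.coprime_two_right.2 ho).coprime_dvd_right
      (orderOf_dvd_of_pow_eq_one (by rw [pow_two]; exact (h.memV _).1 e)))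

theorem spec {P X : Subgroup G} (hP : P ≤ Q) (hX : X ≤ 𝐍(P)) (ho : Odd (Nat.card X))
    (hC : X ≤ 𝐂(V)) (e : ⁅P, X⁆ = P) :
    (∀ d ∈ P, d * d ∈ V) ∧ ⁅P, P⁆ ≤ V ∧ P ⊓ 𝐂(X) ≤ V := by
  haveI : Fact (Nat.Prime 2) := ⟨Nat.prime_two⟩
  have pP := h.pQ.to_le hP
  obtain ⟨⟨-, h1, h2⟩, h3⟩ := PGroup.isSpecial_of_centralizes_char_abelian pP hX
    (Nat.coprime_two_right.2 ho) e fun B hB hBa =>
      Coprime.le_centralizer_of_prime_order_fixed (abelian_map _ hBa)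
        (hX.trans (Coprime.normalizer_le_normalizer_map_subtype B))
        (cop ho (pP.to_le (map_subtype_le B))) fun v hv hp => cent_symm hC ((h.memV v).2 (by
          obtain ⟨k, hk⟩ := (IsPGroup.iff_orderOf.1 pP) ⟨v, map_subtype_le B hv⟩
          rw [orderOf_mk] at hk
          rw [hk] at hp
          rw [hp.eq_one_of_pow, pow_one] at hk
          exact mul_self_of_orderOf hk))
  have h4 : ⁅P, P⁆ = 𝐙(P) := by rw [← map_subtype_commutator, h2, Comp.map_center_subtype]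
  have h5 : ∀ d ∈ P, d * d ∈ 𝐙(P) := fun d hd => by
    rw [← pow_two]
    exact ((PGroup.map_subtype_frattini_le_iff pP).1 (by rw [h1, Comp.map_center_subtype])).2 d hd
  have h6 : ⁅P, P⁆ ≤ V := comm_le_iff.2 fun d hd e he => (h.memV _).2 (by
    have c1 := mem_cent.1 (h4.le (comm_mem_comm hd he)).2 d hd
    have c2 := mem_cent.1 (h5 d hd).2 e he
    have c3 : d * e = d * e * d⁻¹ * e⁻¹ * e * d := by group
    generalize d * e * d⁻¹ * e⁻¹ = c at c1 c3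
    apply mul_right_cancel (b := e * (d * d))
    calc c * c * (e * (d * d)) = c * (c * e * d) * d := by group
      _ = (c * d) * e * d := by rw [← c3]; group
      _ = d * (c * e * d) := by rw [← c1]; group
      _ = _ := by rw [← c3, c2]; group)
  exact ⟨fun d hd => h6 (h4.ge (h5 d hd)), h6, h3.le.trans (h4.ge.trans h6)⟩

end Cx

structure Dx (V Q H R D : Subgroup G) : Prop extends Cx V Q H where
  RH : R ≤ H
  HR : H ≤ 𝐍(R)
  RC : R ≤ 𝐂(V)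
  DQ : D ≤ Q
  HD : H ≤ 𝐍(D)
  QR : ⁅Q, R⁆ ≤ D
  sq : ∀ d ∈ D, d * d ∈ V
  cm : ⁅D, D⁆ ≤ V

namespace Dx

variable {V Q H R D : Subgroup G} (h : Dx V Q H R D)
include h

theorem oddR {X : Subgroup G} (hX : X ≤ R) : Odd (Nat.card X) := odd_of_le h.odd (hX.trans h.RH)
theorem pD {E : Subgroup G} (hE : E ≤ D) : IsPGroup 2 E := h.pQ.to_le (hE.trans h.DQ)

theorem cf {E Y : Subgroup G} (hE : E ≤ D) (hY : Y ≤ R) {d : G} (hd : d ∈ D) (hc : Y ≤ 𝐂[d]) :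
    ⁅E, Y⁆ ≤ 𝐂[d] := by
  rw [Subgroup.commutator_comm]
  refine comm_le_iff.2 fun y hy u hu => mem_cent1.2 ?_
  have c0 := h.cm (comm_mem_comm hd (hE hu))
  have c1 := mem_cent.1 (h.RC (hY hy)) _ c0
  have c2 := mem_cent1.1 (hc hy)
  have c3 : y * u * y⁻¹ * u⁻¹ ∈ Q :=
    mul_mem (h.nQ.conj_mem _ (h.DQ (hE hu)) y) (inv_mem (h.DQ (hE hu)))
  have c4 := h.vq c0 c3
  have c5 : d * u * d⁻¹ = d * u * d⁻¹ * u⁻¹ * u := by group
  generalize d * u * d⁻¹ * u⁻¹ = c at c1 c4 c5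
  symm
  calc d * (y * u * y⁻¹ * u⁻¹) = (d * y) * d⁻¹ * (d * u * d⁻¹) * ((d * y) * d⁻¹)⁻¹ *
        (d * u * d⁻¹)⁻¹ * d := by group
    _ = (y * c) * u * y⁻¹ * u⁻¹ * c⁻¹ * d := by rw [← c2, c5]; group
    _ = c * (y * u * y⁻¹ * u⁻¹) * c⁻¹ * d := by rw [← c1]; group
    _ = _ := by rw [← c4]; group

variable [Finite G]

theorem cc {E Y : Subgroup G} (hE : E ≤ D) (hY : Y ≤ R) (hn : Y ≤ 𝐍(E)) (hV : E ⊓ 𝐂(Y) ≤ V)
    {d : G} (hd : d ∈ D) (hc : Y ≤ 𝐂[d]) : E ≤ 𝐂[d] := by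
  rw [← Coprime.commutator_sup_centralizer hn (cop (h.oddR hY) (h.pD hE)) (.inr (sol2 (h.pD hE)))]
  exact sup_le (h.cf hE hY hd hc) fun v hv => mem_cent1.2 (h.vq (hV hv) (h.DQ hd)).symm

theorem faith {X : Subgroup G} (hX : X ≤ R) (e : ⁅D, X⁆ ≤ V) : X = ⊥ := by
  have h1 := Coprime.le_centralizer_of_commutator_le e (hX.trans h.RC) (cop (h.oddR hX) h.pV)
  have h2 := Coprime.le_centralizer_of_commutator_le ((commutator_mono le_rfl hX).trans h.QR) h1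
    (cop (h.oddR hX) (h.pD le_rfl))
  exact eq_bot_mono (disjoint_of_coprime (cop (h.oddR hX) h.pQ)) (le_inf le_rfl (h2.trans h.cQ))

theorem sq_ne {d : G} (hd : d ∉ V) : d * d ≠ 1 := fun e => hd ((h.memV d).2 e)

theorem g1 {X : Subgroup G} (hX : X ≤ R) (h1 : X ≠ ⊥) (hn : H ≤ 𝐍(X)) : D ⊓ 𝐂(X) ≤ V := by
  intro d hd
  by_contra hdV
  have nD : X ≤ 𝐍(D) := (hX.trans h.RH).trans h.HD
  have hE : ⁅D, X⁆ ≤ D := comm_le_left nD
  have h2 := (h.spec (hE.trans h.DQ) (right_norm_comm D X) (h.oddR hX) (hX.trans h.RC)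
    (Coprime.commutator_commutator_eq nD (cop (h.oddR hX) (h.pD le_rfl))
      (.inr (sol2 (h.pD le_rfl))))).2.2
  obtain ⟨e, he, heV⟩ := SetLike.not_le_iff_exists.1 fun e => h1 (h.faith hX e)
  obtain ⟨g, hg, e1⟩ := h.tr _ (h.sq e (hE he)) (h.sq_ne heV) _ (h.sq d hd.1) (h.sq_ne hdV)
  have h3 := conj_mem_of_norm (norm_comm h.HD hn hg) he
  have h4 := h.pair (h.sq d hd.1) (e := g * e * g⁻¹) (by rw [conj_mul, e1])
    (mem_cent1.1 (h.cf le_rfl hX hd.1 (le_cent1_iff.2 hd.2) h3)).symm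
  have h5 : g * e * g⁻¹ ∈ 𝐂(X) := by
    have := mul_mem (inv_mem (show d ∈ 𝐂(X) from hd.2)) (cent_symm (hX.trans h.RC) h4)
    rwa [inv_mul_cancel_left] at this
  exact heV (by simpa [mul_assoc] using h.cjV g⁻¹ (h2 ⟨h3, h5⟩))

theorem g2 {A : Subgroup G} (hA : A ≤ R) (hAa : IsMulCommutative A) (hn : H ≤ 𝐍(A)) {a : G}
    (ha : a ∈ A) (a1 : a ≠ 1) : D ⊓ 𝐂[a] ≤ V := by
  intro d0 hd0
  by_contra hd0V
  obtain ⟨X, hX0, ⟨d1, hd1, hd1V, rfl⟩, hmax⟩ := Set.Finite.exists_le_maximal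
    (Set.toFinite {X : Subgroup G | ∃ d ∈ D, d ∉ V ∧ X = A ⊓ 𝐂[d]}) ⟨d0, hd0.1, hd0V, rfl⟩
  set X := A ⊓ 𝐂[d1] with hX
  have XA : ∀ g ∈ H, g ⋆ X ≤ A := fun g hg => conj_le_of_norm inf_le_left (hn hg)
  have good : ∀ g ∈ H, ∀ d ∈ D, g ⋆ X ≤ 𝐂[d] → ∀ y ∈ A, y ∉ g ⋆ X → y * d * y⁻¹ * d⁻¹ ∈ V →
      d ∈ V := fun g hg d hd hc y hy hy' e => by
    by_contra hdV
    have e1 := h.oddfix (odd_orderOf_of_mem (h.oddR hA) hy) (h.RC (hA hy)) e
    have := hmax (y := A ⊓ 𝐂[g⁻¹ * d * g]) ⟨_, conj_mem_of_norm' (h.HD hg) hd, fun e =>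
      hdV (by simpa [mul_assoc] using h.cjV g e), rfl⟩ (le_inf inf_le_left (by
        have := conj_mono g⁻¹ hc
        rwa [inv_conj_conj, conj_cent1, inv_inv] at this))
    refine hy' (mem_conj.2 (this ⟨conj_mem_of_norm' (hn hg) hy, mem_cent1.2 ?_⟩))
    calc g⁻¹ * y * g * (g⁻¹ * d * g) = g⁻¹ * (y * d) * g := by group
      _ = _ := by rw [e1]; group
  have exy : ∀ g g' : G, g ⋆ X ≠ g' ⋆ X → ∃ y ∈ g ⋆ X, y ∉ g' ⋆ X := fun g g' hne =>
    SetLike.not_le_iff_exists.1 fun e => hne (eq_of_le_of_card_le e (by rw [card_conj, card_conj]))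
  have nC : ∀ g ∈ H, A ≤ 𝐍(D ⊓ 𝐂(g ⋆ X)) := fun g hg =>
    norm_inf ((hA.trans h.RH).trans h.HD) (norm_cent (abelian_norm hAa (XA g hg)))
  have k2 : ∀ g ∈ H, ∀ g' ∈ H, g ⋆ X ≠ g' ⋆ X → ∀ d ∈ D, g ⋆ X ≤ 𝐂[d] → ∀ d' ∈ D,
      g' ⋆ X ≤ 𝐂[d'] → d * d' = d' * d := fun g hg g' hg' hne d hd hc d' hd' hc' => by
    obtain ⟨y, hy, hy'⟩ := exy g g' hne
    refine (mem_cent1.1 (h.cc (E := D ⊓ 𝐂(g' ⋆ X)) inf_le_left ((XA g hg).trans hA)
      ((XA g hg).trans (nC g' hg')) (fun u hu => good g' hg' u hu.1.1 (le_cent1_iff.2 hu.1.2) y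
        (XA g hg hy) hy' ?_) hd hc ⟨hd', le_cent1_iff.1 hc'⟩)).symm
    rw [mem_cent.1 hu.2 y hy]; simp
  let lab : G → Subgroup G → Prop := fun t Y => (∃ g ∈ H, Y = g ⋆ X) ∧ ∃ d ∈ D, d ∉ V ∧ Y ≤ 𝐂[d] ∧
    t = d * d
  have lcj : ∀ g ∈ H, ∀ t Y, lab t Y → lab (g * t * g⁻¹) (g ⋆ Y) := by
    rintro g hg _ _ ⟨⟨g', hg', rfl⟩, d, hd, hdV, hc, rfl⟩
    exact ⟨⟨_, mul_mem hg hg', conj_conj _ _ _⟩, _, conj_mem_of_norm (h.HD hg) hd,
      fun e => hdV (by simpa [mul_assoc] using h.cjV g⁻¹ e), conj_cent1 g d ▸ conj_mono g hc,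
      conj_mul.symm⟩
  have l0 : lab (d1 * d1) X := ⟨⟨1, H.one_mem, (conj_one X).symm⟩, d1, hd1, hd1V, inf_le_right, rfl⟩
  have lex : ∀ t ∈ V, t ≠ 1 → ∃ Y, lab t Y := fun t ht t1 => by
    obtain ⟨g, hg, rfl⟩ := h.tr _ (h.sq d1 hd1) (h.sq_ne hd1V) t ht t1
    exact ⟨_, lcj g hg _ _ l0⟩
  have lun : ∀ t Y Y', lab t Y → lab t Y' → Y = Y' := by
    rintro _ _ _ ⟨⟨g, hg, rfl⟩, d, hd, hdV, hc, rfl⟩ ⟨⟨g', hg', rfl⟩, d', hd', hdV', hc', e⟩
    by_contra hne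
    obtain ⟨y, hy, hy'⟩ := exy g g' hne
    have h1 := h.pair (h.sq d hd) e (k2 g hg g' hg' hne d hd hc d' hd' hc')
    refine hdV' (good g' hg' d' hd' hc' y (XA g hg hy) hy' ?_)
    have h2 := mem_cent.1 (h.RC (hA (XA g hg hy))) _ h1
    have h3 := mem_cent1.1 (hc hy)
    have : y * d' * y⁻¹ * d'⁻¹ = 1 := by
      calc y * d' * y⁻¹ * d'⁻¹ = d⁻¹ * ((d * y) * d⁻¹) * (d * d') * y⁻¹ * d'⁻¹ := by group
        _ = d⁻¹ * (y * (d * d')) * y⁻¹ * d'⁻¹ := by rw [← h3]; group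
        _ = 1 := by rw [← h2]; group
    exact this ▸ V.one_mem
  have all := fun {x y : G} => tourn h.odd (fun v hv => (h.memV v).1 hv) (fun g _ v hv => h.cjV g hv)
    h.tr (fun t t' => ∃ Y, lab t Y ∧ lab t' Y) (fun x hx x1 => (lex x hx x1).imp fun Y e => ⟨e, e⟩)
    (fun x y ⟨Y, e, e'⟩ => ⟨Y, e', e⟩)
    (fun x y z ⟨Y, e, e'⟩ ⟨Y', e1, e2⟩ => ⟨Y, e, lun y Y' Y e1 e' ▸ e2⟩)
    (fun g hg x y ⟨Y, e, e'⟩ => ⟨_, lcj g hg _ _ e, lcj g hg _ _ e'⟩) (by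
      intro x hx x1 y hy y1 z hz z1 n1 n2 n3 e
      obtain ⟨Y, l1⟩ := lex x hx x1
      obtain ⟨Y', l2⟩ := lex y hy y1
      obtain ⟨Y'', l3⟩ := lex z hz z1
      have m1 : Y ≠ Y' := fun e => n1 ⟨Y, l1, e ▸ l2⟩
      have m2 : Y' ≠ Y'' := fun e => n2 ⟨Y', l2, e ▸ l3⟩
      have m3 : Y ≠ Y'' := fun e => n3 ⟨Y, l1, e ▸ l3⟩
      obtain ⟨⟨g, hg, rfl⟩, d, hd, hdV, hc, rfl⟩ := l1
      obtain ⟨⟨g', hg', rfl⟩, d', hd', hdV', hc', rfl⟩ := l2
      obtain ⟨⟨g'', hg'', rfl⟩, d'', hd'', hdV'', hc'', rfl⟩ := l3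
      have c1 := k2 g hg g' hg' m1 d hd hc d' hd' hc'
      have c2 := k2 g' hg' g'' hg'' m2 d' hd' hc' d'' hd'' hc''
      have c3 := k2 g hg g'' hg'' m3 d hd hc d'' hd'' hc''
      have h1 : d * d' * d'' ∈ V := (h.memV _).2 (by
        calc d * d' * d'' * (d * d' * d'') = d * d' * (d'' * d) * d' * d'' := by group
          _ = d * (d' * d) * (d'' * d') * d'' := by rw [← c3]; simp only [mul_assoc]
          _ = 1 := by rw [← c1, ← c2, ← e]; simp only [mul_assoc])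
      obtain ⟨u, hu, hu'⟩ := exy g g' m1
      obtain ⟨w, hw, hw'⟩ := exy g'' g' m2.symm
      have uA := XA g hg hu
      have h2 := mem_cent.1 (h.RC (hA uA)) _ h1
      have h3 := mem_cent1.1 (hc hu)
      have h4 : d'⁻¹ * (u * d' * u⁻¹) = d'' * (u * d'' * u⁻¹)⁻¹ := by
        calc d'⁻¹ * (u * d' * u⁻¹) = d'⁻¹ * d⁻¹ * ((d * u) * d⁻¹ * (d * d' * d'')) * u⁻¹ *
              (u * d'' * u⁻¹)⁻¹ := by group
          _ = d'⁻¹ * d⁻¹ * (u * (d * d' * d'')) * u⁻¹ * (u * d'' * u⁻¹)⁻¹ := by rw [← h3]; group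
          _ = _ := by rw [← h2]; group
      have m' : d' ∈ D ⊓ 𝐂(g' ⋆ X) := ⟨hd', le_cent1_iff.1 hc'⟩
      have m'' : d'' ∈ D ⊓ 𝐂(g'' ⋆ X) := ⟨hd'', le_cent1_iff.1 hc''⟩
      have h5 := mul_mem (inv_mem m') (conj_mem_of_norm (nC g' hg' uA) m')
      have h6 := mul_mem m'' (inv_mem (conj_mem_of_norm (nC g'' hg'' uA) m''))
      rw [← h4] at h6
      have h7 := good g' hg' _ h5.1 (le_cent1_iff.2 h5.2) w (XA g'' hg'' hw) hw' (by
        rw [mem_cent.1 h6.2 w hw, mul_inv_cancel_right, mul_inv_cancel]; exact V.one_mem)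
      refine hdV' (good g' hg' d' hd' hc' u uA hu' ?_)
      convert h.cjV d' h7 using 1; group) (x := x) (y := y)
  have hn' : H ≤ 𝐍(X) := fun g hg => by
    obtain ⟨Y, e1, e2⟩ := all (h.sq d1 hd1) (h.sq_ne hd1V) (h.cjV g (h.sq d1 hd1))
      (cj_ne_one g (h.sq_ne hd1V))
    exact norm_of_conj_eq ((lun _ _ _ (lcj g hg _ _ l0) e2).trans (lun _ _ _ e1 l0))
  exact hd1V (h.g1 (inf_le_left.trans hA) (ne_bot_of_mem (hX0 ⟨ha, mem_cent1_symm hd0.2⟩) a1) hn'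
    ⟨hd1, le_cent1_iff.1 inf_le_right⟩)

theorem g3 {r : ℕ} [hr : Fact r.Prime] (hr2 : r ≠ 2) (hR : IsPGroup r R) : IsCyclic R := by
  by_contra hnc
  haveI := pgroup_nil hR
  obtain ⟨B, hB, hn, hBe, hc⟩ := PGroup.exists_invariant_elemAb_sq_of_odd hr2 hR le_rfl
    (le_norm R) hnc
  have RD : R ≤ 𝐍(D) := h.RH.trans h.HD
  have hBn : ¬ IsCyclic B := fun e => by
    obtain ⟨x, hx, e⟩ := cyclic_iff.1 e
    have := orderOf_dvd_of_pow_eq_one (hBe.2 x hx)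
    rw [← Nat.card_zpowers, e, hc] at this
    have h1 := Nat.le_of_dvd hr.out.pos this
    have h2 := hr.out.one_lt
    nlinarith
  have hB1 : B ≠ ⊥ := fun e => hBn (e ▸ inferInstance)
  have hZ : ∀ z ∈ 𝐙(R), z ≠ 1 → D ⊓ 𝐂[z] ≤ V := fun z hz z1 =>
    h.g2 inf_le_left (abelian_center R) (norm_center h.HR) hz z1
  have hBR : ⁅B, R⁆ ≤ 𝐂(R) := by
    by_cases h0 : ⁅B, R⁆ = ⊥
    · exact h0 ▸ bot_le
    have h1 := PGroup.commutator_lt_of_nilpotent hB hn hB1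
    obtain ⟨k, hk, e⟩ := (Nat.dvd_prime_pow hr.out).1 (hc ▸ card_dvd h1.le)
    have h2 := card_lt_of_lt h1
    have h3 := card_ne_one h0
    have : k = 1 := by
      rcases k with _ | _ | k
      · simp [e] at h3
      · rfl
      · rw [e, hc] at h2
        exact absurd ((Nat.pow_lt_pow_iff_right hr.out.one_lt).1 h2) (by omega)
    rw [this, pow_one] at e
    exact le_of_prime_of_inf_ne_bot (e ▸ hr.out)
      (nil_meet_center inferInstance (h1.le.trans hB) (right_norm_comm B R) h0)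
  have : ∃ a ∈ B, a ≠ 1 ∧ ¬ D ⊓ 𝐂[a] ≤ V := by
    by_contra! hc'
    exact hB1 (h.faith hB ((comm_le_left (hB.trans RD)).trans (Coprime.le_of_forall_centralizer_le
      hBe.1 hBn (hB.trans RD) (cop (h.oddR hB) (h.pD le_rfl)) hc')))
  obtain ⟨a, ha, a1, hna⟩ := this
  obtain ⟨d, hd, hdV⟩ := SetLike.not_le_iff_exists.1 hna
  have h1 : a ∉ 𝐂(R) := fun e => hna (hZ a ⟨hB ha, e⟩ a1)
  rw [mem_cent] at h1
  push Not at h1
  obtain ⟨ρ, hρ, h1⟩ := h1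
  have ha' := conj_mem_of_norm (hn hρ) ha
  have key : D ⊓ 𝐂[ρ * a * ρ⁻¹] ⊓ 𝐂(zpowers a) ≤ V := fun u hu => by
    refine hZ (ρ * a * ρ⁻¹ * a⁻¹) ⟨hB (mul_mem ha' (inv_mem ha)), hBR ?_⟩ (fun e => h1 (by
      rwa [mul_inv_eq_one, mul_inv_eq_iff_eq_mul] at e)) ⟨hu.1.1, mem_cent1_symm (mul_mem
        (mem_cent1_symm hu.1.2) (inv_mem (mem_cent1_symm (cent_zpowers a ▸ hu.2))))⟩
    rw [Subgroup.commutator_comm]; exact comm_mem_comm hρ ha
  have hd' : ρ * d * ρ⁻¹ ∈ D ⊓ 𝐂[ρ * a * ρ⁻¹] :=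
    ⟨conj_mem_of_norm (RD hρ) hd.1, conj_cent1 ρ a ▸ conj_mem_conj.2 hd.2⟩
  have h2 := h.cc (E := D ⊓ 𝐂[ρ * a * ρ⁻¹]) (Y := zpowers a) inf_le_left (zpowers_le.2 (hB ha))
    (norm_inf (zpowers_le.2 (RD (hB ha))) (norm_cent1 (zpowers_le.2
      (cent_le_cent1 ha' (abelian_cent hBe.1 ha))))) key hd.1
    (zpowers_le.2 (mem_cent1_symm hd.2)) hd'
  have h3 := h.pair (h.sq d hd.1) (e := ρ * d * ρ⁻¹) (by
    rw [conj_mul, ← mem_cent.1 (h.RC hρ) _ (h.sq d hd.1), mul_inv_cancel_right])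
    (mem_cent1.1 h2).symm
  have h4 : ρ * d * ρ⁻¹ ∈ 𝐂(zpowers a) := by
    rw [cent_zpowers]
    have := mul_mem (inv_mem (show d ∈ 𝐂[a] from hd.2))
      (show d * (ρ * d * ρ⁻¹) ∈ 𝐂[a] from mem_cent1.2 (mem_cent.1 (h.RC (hB ha)) _ h3))
    rwa [inv_mul_cancel_left] at this
  exact hdV (by simpa [mul_assoc] using h.cjV ρ⁻¹ (key ⟨hd', h4⟩))

end Dx

variable [Finite G]

theorem Cx.cyc {V Q H R : Subgroup G} (h : Cx V Q H) (h1 : R ≤ H) (h2 : H ≤ 𝐍(R)) (h3 : R ≤ 𝐂(V))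
    {r : ℕ} [Fact r.Prime] (hr2 : r ≠ 2) (hR : IsPGroup r R) : IsCyclic R := by
  haveI := h.nQ
  have ho := odd_of_le h.odd h1
  have hE : ⁅Q, R⁆ ≤ Q := comm_le_left le_normalizer_of_normal
  obtain ⟨s1, s2, -⟩ := h.spec hE (right_norm_comm Q R) ho h3
    (Coprime.commutator_commutator_eq le_normalizer_of_normal (cop ho h.pQ) (.inr (sol2 h.pQ)))
  exact Dx.g3 ⟨h, h1, h2, h3, hE, norm_comm le_normalizer_of_normal h2, le_rfl, s1, s2⟩ hr2 hR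

theorem Cx.inv {V Q H Y : Subgroup G} (h : Cx V Q H) (hi : 2 ∣ Q.index) (ho : Odd (Nat.card Y))
    (e : Q ⊔ 𝐍(Y) = ⊤) : ∃ u ∈ V, u ≠ 1 ∧ u ∈ 𝐂(Y) := by
  haveI := h.nQ
  rw [← relIndex_top_right, ← e, Coprime.relIndex_sup_of_le_normalizer le_normalizer_of_normal] at hi
  obtain ⟨u, hu, u2⟩ := exists_involution_mem_of_even
    (even_iff_two_dvd.2 (hi.trans (Subgroup.relIndex_dvd_card _ _)))
  have uV := (h.memV u).2 (mul_self_of_orderOf u2)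
  refine ⟨u, uV, ne_one_of_orderOf u2, mem_cent.2 fun y hy => ?_⟩
  have : y * u * y⁻¹ * u⁻¹ ∈ Y ⊓ V := mem_inf.2 ⟨by
    simpa only [mul_assoc] using mul_mem hy (conj_mem_of_norm hu (inv_mem hy)),
    mul_mem (h.cjV y uV) (inv_mem uV)⟩
  rwa [disjoint_of_coprime (cop ho h.pV), mem_bot, mul_inv_eq_one, mul_inv_eq_iff_eq_mul] at this

theorem sylow_le_pCore (hs : Group.IsSolvable G) (hO : pPrimeCore 2 G = ⊥) (S : Sylow 2 G)
    {x y : G} (hxy : x ≠ y) (x1 : x ≠ 1) (x2 : x * x = 1) (y1 : y ≠ 1) (y2 : y * y = 1)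
    (hc : ∀ x y : G, x ≠ 1 → x * x = 1 → y ≠ 1 → y * y = 1 → IsConj x y) :
    (S : Subgroup G) ≤ pCore 2 G := by
  haveI : Fact (Nat.Prime 2) := ⟨Nat.prime_two⟩
  set Q := pCore 2 G with hQ
  have pQ : IsPGroup 2 Q := Core.pCore_isPGroup 2 G
  have cQ : 𝐂(Q) ≤ Q := Core.centralizer_pCore_le_of_isSolvable hO
  have Q1 : Q ≠ ⊥ := fun e => x1 (by
    have : x ∈ 𝐂(Q) := by rw [e, cent_bot]; trivial
    have := cQ this
    rwa [e, mem_bot] at this)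
  obtain ⟨z, hz, z2⟩ := exists_involution_mem_of_even (even_iff_two_dvd.2
    (pgroup_dvd_card (pQ.to_le inf_le_left) (center_ne_bot_of_nil (pgroup_nil pQ) Q1)))
  have hZ : ∀ u, u * u = 1 → u ∈ 𝐂(Q) := fun u u2 => by
    by_cases u1 : u = 1
    · exact u1 ▸ one_mem _
    obtain ⟨c, rfl⟩ := isConj_iff.1 (hc z u (ne_one_of_orderOf z2) (mul_self_of_orderOf z2) u1 u2)
    exact conj_mem_of_norm (norm_cent le_normalizer_of_normal (mem_top c)) hz.2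
  let V : Subgroup G :=
    { carrier := {u | u * u = 1}
      one_mem' := mul_one 1
      mul_mem' := fun {a b} ha hb => by
        have := mem_cent.1 (hZ a ha) b (cQ (hZ b hb))
        calc a * b * (a * b) = a * (b * a) * b := by group
          _ = a * a * (b * b) := by rw [this]; group
          _ = 1 := by rw [ha, hb, mul_one]
      inv_mem' := fun {a} ha => by rwa [inv_eq_of_mul_self ha] }
  have nV : ∀ g, ∀ v ∈ V, g * v * g⁻¹ ∈ V := fun g v hv => by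
    change _ = _
    rw [conj_mul, show v * v = 1 from hv]; group
  have hs' : Group.IsSolvable (⊤ : Subgroup G) := inferInstance
  obtain ⟨H, hH⟩ := Hall.exists (π := {2}ᶜ) hs'
  have ho : ∀ {X : Subgroup G}, PiGrp {2}ᶜ X → Odd (Nat.card X) := fun h =>
    Nat.coprime_two_right.1 h.coprime_p
  obtain ⟨v, ⟨hv, hvS⟩, v1⟩ := exists_ne_one (PGroup.inf_centralizer_ne_bot
    (pQ.to_le fun u hu => cQ (hZ u hu) : IsPGroup 2 V) S.isPGroup' (le_norm_iff.2 fun g _ => nV g)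
    (ne_bot_of_mem (show x ∈ V from x2) x1))
  have hv' : ∀ u ∈ V, u ≠ 1 → ∃ h ∈ H, h * v * h⁻¹ = u := fun u hu u1 => by
    obtain ⟨g, rfl⟩ := isConj_iff.1 (hc v u v1 hv u1 hu)
    obtain ⟨a, ha, c, hc, rfl⟩ := Coprime.exists_mul_of_coprime_index (H := H) (K := 𝐂[v]) (by
      have h1 := hH.idx
      rw [relIndex_top_right, compl_compl] at h1
      exact h1.coprime (PiNat.p'_iff.2 (not_dvd_index_of_sylow_le S (le_cent1_iff.2 hvS)))) g
    refine ⟨a, ha, ?_⟩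
    calc a * v * a⁻¹ = a * (v * c) * c⁻¹ * a⁻¹ := by group
      _ = _ := by rw [← mem_cent1.1 hc]; group
  have h : Cx V Q H := ⟨fun _ => Iff.rfl, hZ, pQ, inferInstance, cQ, ho hH.pi,
    fun a ha a1 b hb b1 => by
      obtain ⟨g, hg, rfl⟩ := hv' a ha a1
      obtain ⟨g', hg', rfl⟩ := hv' b hb b1
      exact ⟨g' * g⁻¹, mul_mem hg' (inv_mem hg), by group⟩⟩
  by_contra hS
  have hi : 2 ∣ Q.index := by
    by_contra hi
    obtain ⟨g, hg⟩ := exists_conj_le_of_not_dvd_index hi S.isPGroup'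
    rw [conj_le_iff_le_inv_conj, conj_eq_self_of_normal] at hg
    exact hS hg
  let π := QuotientGroup.mk' Q
  have πs : Function.Surjective π := QuotientGroup.mk'_surjective Q
  have fr : ∀ Y : Subgroup G, (Q ⊔ Y).Normal → Hall {2}ᶜ Y (Q ⊔ Y) → ∃ u ∈ V, u ≠ 1 ∧ u ∈ 𝐂(Y) :=
    fun Y hN hY => h.inv hi (ho hY.pi) (by
      have := hY.frattini (M := ⊤) inferInstance ⟨le_top, le_normalizer_of_normal⟩
      rwa [top_inf_eq, sup_assoc, sup_eq_right.2 (le_norm Y)] at this)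
  have h1 : ∀ r : Nat.Primes, pCore r (G ⧸ Q) ≤ 𝐂(⁅(⊤ : Subgroup (G ⧸ Q)), ⊤⁆) := fun r => by
    haveI : Fact (r : ℕ).Prime := ⟨r.2⟩
    by_cases r2 : (r : ℕ) = 2
    · rw [r2]; exact (Core.pCore_quotient_pCore 2 G).le.trans bot_le
    set N := (pCore r (G ⧸ Q)).comap π with hN
    have QN : Q ≤ N := fun q hq => by
      rw [hN, mem_comap, show π q = 1 from (QuotientGroup.eq_one_iff q).2 hq]; exact one_mem _
    have hR := hH.inf_nml (N := N) ⟨le_top, le_normalizer_of_normal⟩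
    have hNm : N.map π = pCore r (G ⧸ Q) := map_comap_eq_self_of_surjective πs _
    have e : Q ⊔ (H ⊓ N) = N := hR.sup_eq QN (by
      rw [← Core.card_map_mk'_eq_relIndex, hNm]
      exact p'_of_pgroup (Core.pCore_isPGroup r _) r2)
    have HR : H ≤ 𝐍(H ⊓ N) := norm_inf (le_norm H) le_normalizer_of_normal
    obtain ⟨u, hu, u1, huC⟩ := fr (H ⊓ N) (by rw [e]; infer_instance) (by rw [e]; exact hR)
    have hcyc := h.cyc (R := H ⊓ N) inf_le_left HR (cent_symm fun w hw => by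
      by_cases w1 : w = 1
      · exact w1 ▸ one_mem _
      obtain ⟨g, hg, rfl⟩ := h.tr u hu u1 w hw w1
      exact conj_mem_of_norm (norm_cent HR hg) huC) r2 (fun a => by
        obtain ⟨k, hk⟩ := Core.pCore_isPGroup r (G ⧸ Q) ⟨π a, a.2.2⟩
        refine ⟨k, Subtype.ext ?_⟩
        have h2 : (a : G) ^ (r : ℕ) ^ k ∈ H ⊓ Q := ⟨pow_mem a.2.1 _,
          (QuotientGroup.eq_one_iff _).1 (congrArg Subtype.val hk)⟩
        rwa [disjoint_of_coprime (cop h.odd pQ), mem_bot] at h2)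
    have h3 := cyclic_map π hcyc
    have h4 : (H ⊓ N).map π = pCore r (G ⧸ Q) := by
      rw [← hNm]
      conv_rhs => rw [← e, Subgroup.map_sup, QuotientGroup.map_mk'_self, bot_sup_eq]
    rw [h4] at h3
    exact cent_symm (PGroup.commutator_le_centralizer_of_isCyclic h3 le_normalizer_of_normal
      le_normalizer_of_normal)
  have h2 : _root_.commutator (G ⧸ Q) ≤ H.map π := by
    have h3 := hH.map π
    rw [map_top_of_surjective π πs] at h3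
    refine le_trans (le_trans (cent_symm ?_) Core.centralizer_fittingSubgroup_le)
      ((Core.fittingSubgroup_le_pPrimeCore (Core.pCore_quotient_pCore 2 G)).trans
        (h3.ge_of_nml ⟨le_top, le_normalizer_of_normal⟩
          (PiGrp.p'_iff_coprime.2 (Core.pPrimeCore_coprime 2 _))))
    rw [Core.fittingSubgroup_eq_iSup_pCore]
    exact iSup_le h1
  obtain ⟨u, hu, u1, huC⟩ := fr H (by
    have := (Subgroup.Normal.of_commutator_le _ h2).comap π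
    rwa [QuotientGroup.comap_map_mk'] at this) (hH.of_le le_sup_right le_top)
  have : ∀ w ∈ V, w ≠ 1 → w = u := fun w hw w1 => by
    obtain ⟨g, hg, rfl⟩ := h.tr u hu u1 w hw w1
    rw [mem_cent.1 huC g hg, mul_inv_cancel_right]
  exact hxy ((this x x2 x1).trans (this y y2 y1).symm)

open scoped IsMulCommutative in
theorem homocyclic {S : Type*} [Group S] [Finite S] (hS : IsPGroup 2 S) [IsMulCommutative S]
    (h : ∀ x y : S, x ≠ 1 → x ^ 2 = 1 → y ≠ 1 → y ^ 2 = 1 → ∃ a : MulAut S, a x = y) :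
    ∃ m r : ℕ, Nonempty (S ≃* (Fin r → Multiplicative (ZMod (2 ^ m)))) := by
  classical
  haveI : Fact (Nat.Prime 2) := ⟨Nat.prime_two⟩
  obtain ⟨ι, _, n, hn, ⟨e⟩⟩ := CommGroup.equiv_prod_multiplicative_zmod_of_finite S
  let g : ι → S := fun i => e.symm (Pi.mulSingle i (Multiplicative.ofAdd 1))
  have hg : ∀ i, orderOf (g i) = n i := fun i => by
    rw [MulEquiv.orderOf_eq]
    refine (orderOf_injective (MonoidHom.mulSingle (fun i => Multiplicative (ZMod (n i))) i)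
      (Pi.mulSingle_injective (M := fun i => Multiplicative (ZMod (n i))) i) _).trans ?_
    rw [orderOf_ofAdd_eq_addOrderOf, ZMod.addOrderOf_one]
  have h1 : ∀ i, ∃ a, n i = 2 ^ (a + 1) := fun i => by
    obtain ⟨k, hk⟩ := IsPGroup.iff_orderOf.1 hS (g i)
    rcases k with _ | k
    · have := hn i
      rw [← hg, hk] at this
      simp at this
    · exact ⟨k, by rw [← hg, hk]⟩
  choose a ha using h1
  have h2 : ∀ i, g i ^ 2 ^ a i ≠ 1 ∧ (g i ^ 2 ^ a i) ^ 2 = 1 := fun i =>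
    ⟨pow_ne_one_of_lt_orderOf (by positivity) (by
      rw [hg, ha]; exact Nat.pow_lt_pow_right one_lt_two (Nat.lt_succ_self _)), by
      rw [← pow_mul, ← pow_succ, ← ha, ← hg, pow_orderOf_eq_one]⟩
  have h3 : ∀ i j, a i ≤ a j := fun i j => by
    by_contra! hlt
    obtain ⟨φ, hφ⟩ := h _ _ (h2 i).1 (h2 i).2 (h2 j).1 (h2 j).2
    apply (h2 j).1
    apply e.injective
    have h4 := congrFun (congrArg e hφ) j
    obtain ⟨c, hc⟩ := Nat.exists_eq_add_of_le hlt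
    haveI : NeZero (n j) := ⟨by have := hn j; omega⟩
    have h5 : (e (φ (g i ^ 2 ^ a i))) j = 1 := by
      rw [map_pow, map_pow, Pi.pow_apply, hc, pow_add, pow_mul, ← ha]
      have : (e (φ (g i)) j) ^ n j = 1 := by
        have := pow_card_eq_one' (x := e (φ (g i)) j)
        rwa [Nat.card_congr Multiplicative.toAdd, Nat.card_zmod] at this
      rw [this, one_pow]
    rw [h5] at h4
    funext k
    by_cases hk : k = j
    · subst hk; rw [← h4, map_one]; rfl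
    · simp [g, Pi.mulSingle_eq_of_ne hk]
  by_cases hι : Nonempty ι
  · obtain ⟨i⟩ := hι
    have h4 : ∀ j, n j = 2 ^ (a i + 1) := fun j => by rw [ha, le_antisymm (h3 j i) (h3 i j)]
    refine ⟨a i + 1, Fintype.card ι, ⟨e.trans ((MulEquiv.piCongrRight fun j =>
      AddEquiv.toMultiplicative (ZMod.ringEquivCongr (h4 j)).toAddEquiv).trans
        (MulEquiv.arrowCongr (Fintype.equivFin ι) (MulEquiv.refl _)))⟩⟩
  · rw [not_nonempty_iff] at hι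
    exact ⟨0, 0, ⟨e.trans MulEquiv.ofUnique⟩⟩

end Cfsg.Lib.CharDeg.InvTrans
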