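import Mathlib

/-!
Jordan's theorem on finite linear groups in the form of Brauer and Feit, by Jordan's original
class equation argument.
-/

set_option autoImplicit false

namespace Cfsg.Lib.CharDeg.Jordan

open Module Polynomial

theorem dio_one (k : ℕ) (r : ℚ) : ∃ N : ℕ, ∀ (X : Multiset ℕ) (w : ℕ), 0 < w → X.card ≤ k →
    (∀ x ∈ X, 0 < x ∧ x < w) → (1 / w : ℚ) = r + (X.map fun x : ℕ => (1 / x : ℚ)).sum → w ≤ N := by
  have h0 : ∀ (r : ℚ) (w : ℕ), 0 < w → (1 / w : ℚ) = r → w ≤ ⌈1 / r⌉₊ := by
    rintro r w hw rfl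
    simp
  induction k generalizing r with
  | zero =>
    refine ⟨⌈1 / r⌉₊, fun X w hw hX _ h => h0 r w hw ?_⟩
    have : X = 0 := Multiset.card_eq_zero.1 (by omega)
    simpa [this] using h
  | succ k ih =>
    choose N hN using ih
    refine ⟨max ⌈1 / r⌉₊ ((Finset.range (⌈((k + 1 : ℕ) : ℚ) / (-r)⌉₊ + 1)).sup
      fun x : ℕ => N (r + 1 / x)), fun X w hw hX hx h => ?_⟩
    by_cases hX0 : X = 0
    · exact le_max_of_le_left (h0 r w hw (by simpa [hX0] using h))
    have hnn : ∀ Y : Multiset ℕ, 0 ≤ (Y.map fun x : ℕ => (1 / x : ℚ)).sum := fun Y =>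
      Multiset.sum_nonneg (by
        intro a ha
        obtain ⟨x, -, rfl⟩ := Multiset.mem_map.1 ha
        positivity)
    have hr : r < 0 := by
      obtain ⟨x, hxX⟩ := Multiset.exists_mem_of_ne_zero hX0
      obtain ⟨Y, rfl⟩ := Multiset.exists_cons_of_mem hxX
      obtain ⟨h1, h2⟩ := hx x hxX
      have h3 : (1 / w : ℚ) < 1 / x :=
        one_div_lt_one_div_of_lt (by exact_mod_cast h1) (by exact_mod_cast h2)
      have := hnn Y
      rw [Multiset.map_cons, Multiset.sum_cons] at h
      linarith
    have hex : ∃ x ∈ X, (x : ℚ) ≤ ((k + 1 : ℕ) : ℚ) / (-r) := by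
      by_contra hcon
      push Not at hcon
      have h1 : (X.map fun x : ℕ => (1 / x : ℚ)).sum ≤ X.card • ((-r) / ((k + 1 : ℕ) : ℚ)) := by
        have := Multiset.sum_le_card_nsmul (X.map fun x : ℕ => (1 / x : ℚ))
          ((-r) / ((k + 1 : ℕ) : ℚ)) (by
            intro a ha
            obtain ⟨x, hxX, rfl⟩ := Multiset.mem_map.1 ha
            have h2 := hcon x hxX
            have h3 : (0 : ℚ) < ((k + 1 : ℕ) : ℚ) / (-r) := div_pos (by positivity) (by linarith)
            have := one_div_le_one_div_of_le h3 h2.le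
            rwa [one_div_div] at this)
        simpa using this
      have h2 : (X.card : ℚ) ≤ ((k + 1 : ℕ) : ℚ) := by exact_mod_cast hX
      have h3 : (0 : ℚ) < 1 / w := by positivity
      have h4 : (X.card : ℚ) * ((-r) / ((k + 1 : ℕ) : ℚ)) ≤ -r := by
        calc _ ≤ ((k + 1 : ℕ) : ℚ) * ((-r) / ((k + 1 : ℕ) : ℚ)) :=
              mul_le_mul_of_nonneg_right h2 (div_nonneg (by linarith) (by positivity))
          _ = -r := by field_simp
      rw [nsmul_eq_mul] at h1
      linarith
    obtain ⟨x, hxX, hxle⟩ := hex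
    obtain ⟨Y, rfl⟩ := Multiset.exists_cons_of_mem hxX
    refine le_max_of_le_right (le_trans (hN (r + 1 / x) Y w hw (by simpa using hX)
      (fun y hy => hx y (Multiset.mem_cons_of_mem hy)) ?_)
      (Finset.le_sup (f := fun x : ℕ => N (r + 1 / x)) ?_))
    · rw [h, Multiset.map_cons, Multiset.sum_cons]; ring
    · rw [Finset.mem_range, Nat.lt_succ_iff]
      exact_mod_cast hxle.trans (Nat.le_ceil _)

theorem dio_two (l k C : ℕ) (r : ℚ) : ∃ N : ℕ, ∀ (B X : Multiset ℕ) (w : ℕ), 0 < w →
    B.card ≤ l → X.card ≤ k → (∀ b ∈ B, b ≤ C) → (∀ x ∈ X, 0 < x ∧ x < w) →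
    (1 / w : ℚ) = r - (B.map fun x : ℕ => (1 / x : ℚ)).sum
      + (X.map fun x : ℕ => (1 / x : ℚ)).sum → w ≤ N := by
  induction l generalizing r with
  | zero =>
    obtain ⟨N, hN⟩ := dio_one k r
    refine ⟨N, fun B X w hw hB hX _ hx h => hN X w hw hX hx ?_⟩
    have : B = 0 := Multiset.card_eq_zero.1 (by omega)
    simpa [this] using h
  | succ l ih =>
    choose N hN using ih
    refine ⟨max (N r) ((Finset.range (C + 1)).sup fun x : ℕ => N (r - 1 / x)),
      fun B X w hw hB hX hb hx h => ?_⟩
    by_cases hB0 : B = 0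
    · exact le_max_of_le_left (hN r B X w hw (by simp [hB0]) hX hb hx h)
    obtain ⟨b, hbB⟩ := Multiset.exists_mem_of_ne_zero hB0
    obtain ⟨Y, rfl⟩ := Multiset.exists_cons_of_mem hbB
    refine le_max_of_le_right (le_trans (hN (r - 1 / b) Y X w hw (by simpa using hB) hX
      (fun y hy => hb y (Multiset.mem_cons_of_mem hy)) hx ?_)
      (Finset.le_sup (f := fun x : ℕ => N (r - 1 / x)) ?_))
    · rw [h, Multiset.map_cons, Multiset.sum_cons]; ring
    · rw [Finset.mem_range, Nat.lt_succ_iff]
      exact hb b hbB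

section Count

variable {G F R : Type*} [Group G] [Finite G] [Field F] [Ring R] [Algebra F R]
  [FiniteDimensional F R]

open scoped IsMulCommutative in
theorem card_roots_le (p : ℕ) [Fact p.Prime] [CharP F p] (ρ : G →* R)
    (hρ : Function.Injective ρ) (U D : ℕ) (hU : ∀ P : Subgroup G, IsPGroup p P → Nat.card P ≤ U)
    (hD : finrank F R ≤ D) (K : Subgroup G) [IsMulCommutative K] (P : F[X]) (hP0 : P ≠ 0)
    (hP : P.natDegree ≤ D) :
    Nat.card {h : K // aeval (ρ h) P = 0} ≤ U * (D + 1) ^ D := by
  classical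
  have hU1 : 1 ≤ U := by simpa using hU ⊥ IsPGroup.of_bot
  rcases subsingleton_or_nontrivial R with hR | hR
  · haveI : Subsingleton G := hρ.subsingleton
    calc _ ≤ 1 := Finite.card_le_one_iff_subsingleton.2 inferInstance
      _ ≤ _ := Nat.mul_pos hU1 (by positivity)
  haveI : CharP R p := charP_of_injective_algebraMap (algebraMap F R).injective p
  let S := Algebra.adjoin F (ρ '' K)
  haveI : IsMulCommutative S := Algebra.isMulCommutative_adjoin F (by
    rintro _ ⟨a, ha, rfl⟩ _ ⟨b, hb, rfl⟩
    rw [← map_mul, ← map_mul, setLike_mul_comm ha hb])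
  letI : CommRing S := inferInstance
  haveI : IsArtinianRing S := IsArtinianRing.of_finite F S
  let L := AlgebraicClosure F
  let e : K → S := fun h => ⟨ρ h, Algebra.subset_adjoin ⟨h, h.2, rfl⟩⟩
  let φ : {h : K // aeval (ρ h) P = 0} → ((S →ₐ[F] L) → P.rootSet L) := fun h ψ =>
    ⟨ψ (e h), by
      rw [mem_rootSet]
      refine ⟨hP0, ?_⟩
      rw [aeval_algHom_apply]
      have : aeval (e h) P = 0 := by
        apply Subtype.ext
        exact (aeval_algHom_apply S.val (e h) P).symm.trans h.2
      rw [this, map_zero]⟩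
  haveI := Fintype.ofFinite {h : K // aeval (ρ h) P = 0}
  haveI := Fintype.ofFinite (S →ₐ[F] L)
  have hfib : ∀ y, (Finset.univ.filter fun h => φ h = y).card ≤ U := by
    intro y
    rcases (Finset.univ.filter fun h => φ h = y).eq_empty_or_nonempty with h | ⟨h₀, hh₀⟩
    · simp [h]
    let Q := (CommGroup.primaryComponent K p).map K.subtype
    have hQ : Nat.card Q ≤ U := hU Q ((CommGroup.primaryComponent.isPGroup).map _)
    refine le_trans ?_ hQ
    rw [← Fintype.card_coe, ← Nat.card_eq_fintype_card]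
    refine Nat.card_le_card_of_injective (fun h => ⟨(h₀.1 : G)⁻¹ * h.1.1, ?_⟩) ?_
    · have hh := (Finset.mem_filter.1 h.2).2.trans (Finset.mem_filter.1 hh₀).2.symm
      have hnil : IsNilpotent (e h.1.1 - e h₀.1) := by
        rw [nilpotent_iff_mem_prime]
        intro J hJ
        letI := Ideal.Quotient.field J
        let ψ : S →ₐ[F] L := (IsAlgClosed.lift (R := F) (S := S ⧸ J) (M := L)).comp
          (Ideal.Quotient.mkₐ F J)
        have h1 : ψ (e h.1.1) = ψ (e h₀.1) := congrArg Subtype.val (congrFun hh ψ)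
        rw [← Ideal.Quotient.eq]
        exact (IsAlgClosed.lift (R := F) (S := S ⧸ J) (M := L)).toRingHom.injective h1
      obtain ⟨n, hn⟩ := hnil
      have h2 : (ρ h.1.1 - ρ h₀.1) ^ p ^ n = 0 :=
        pow_eq_zero_of_le (Nat.lt_pow_self (Fact.out : p.Prime).one_lt).le
          (congrArg Subtype.val hn)
      have hc : Commute (h.1.1 : G) h₀.1 := setLike_mul_comm h.1.1.2 h₀.1.2
      rw [sub_pow_char_pow_of_commute _ _ (hc.map ρ), sub_eq_zero, ← map_pow, ← map_pow] at h2
      refine ⟨h₀.1⁻¹ * h.1.1, CommGroup.mem_primaryComponent.2 ⟨n, Subtype.ext ?_⟩, rfl⟩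
      have h3 := hρ h2
      change ((h₀.1 : G)⁻¹ * h.1.1) ^ p ^ n = 1
      rw [hc.symm.inv_left.mul_pow, h3, inv_pow, inv_mul_cancel]
    · intro a b hab
      exact Subtype.ext (Subtype.ext (Subtype.ext (mul_left_cancel (congrArg Subtype.val hab))))
  have h1 := Finset.card_le_mul_card_image (f := φ) Finset.univ U (fun y _ => hfib y)
  rw [Nat.card_eq_fintype_card, ← Finset.card_univ]
  refine h1.trans (Nat.mul_le_mul_left _ ((Finset.card_le_univ _).trans ?_))
  rw [Fintype.card_fun]
  have h2 : Fintype.card (P.rootSet L) ≤ D + 1 := by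
    have := ncard_rootSet_le P L
    rw [← Nat.card_eq_fintype_card, Nat.card_coe_set_eq]
    omega
  have h3 : Fintype.card (S →ₐ[F] L) ≤ D := by
    rw [← Nat.card_eq_fintype_card]
    exact (card_algHom_le_finrank F S L).trans ((Submodule.finrank_le S.toSubmodule).trans hD)
  exact (Nat.pow_le_pow_left h2 _).trans (Nat.pow_le_pow_right (by omega) h3)

end Count

section Thick

variable {G F R : Type*} [Group G] [Field F] [Ring R] [Algebra F R]

/-- The span of the image of a subgroup. -/
def sp (F : Type*) [Field F] [Algebra F R] (ρ : G →* R) (H : Subgroup G) : Submodule F R :=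
  Submodule.span F (ρ '' H)

variable {ρ : G →* R}

theorem mem_sp {H : Subgroup G} {g : G} (hg : g ∈ H) : ρ g ∈ sp F ρ H :=
  Submodule.subset_span ⟨g, hg, rfl⟩

theorem sp_mono {H K : Subgroup G} (h : H ≤ K) : sp F ρ H ≤ sp F ρ K :=
  Submodule.span_mono (Set.image_mono h)

theorem sp_mul {H : Subgroup G} {a b : R} (ha : a ∈ sp F ρ H) (hb : b ∈ sp F ρ H) :
    a * b ∈ sp F ρ H := by
  have h := Submodule.mul_mem_mul ha hb
  unfold sp at h
  rw [Submodule.span_mul_span] at h
  refine Submodule.span_le.2 ?_ h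
  rintro _ ⟨_, ⟨x, hx, rfl⟩, _, ⟨y, hy, rfl⟩, rfl⟩
  change ρ x * ρ y ∈ sp F ρ H
  rw [← map_mul]
  exact mem_sp (H.mul_mem hx hy)

theorem commute_of_mem_sp {H : Subgroup G} {a b : R} (hb : ∀ h ∈ H, Commute b (ρ h))
    (ha : a ∈ sp F ρ H) : Commute b a := by
  induction ha using Submodule.span_induction with
  | mem x hx => obtain ⟨h, hh, rfl⟩ := hx; exact hb h hh
  | zero => exact Commute.zero_right _
  | add x y _ _ hx hy => exact hx.add_right hy
  | smul c x _ hx => exact hx.smul_right c

/-- Subgroups spanned by all their subgroups of small index. -/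
def Thick (F : Type*) [Field F] [Algebra F R] (ρ : G →* R) (c : ℕ) (T : Subgroup G) : Prop :=
  ∀ T' : Subgroup G, T'.relIndex T ≤ c → ∀ t ∈ T, ρ t ∈ sp F ρ T'

/-- The largest thick subgroup. -/
def core (F : Type*) [Field F] [Algebra F R] (ρ : G →* R) (c : ℕ) (H : Subgroup G) :
    Subgroup G :=
  sSup {T | T ≤ H ∧ Thick F ρ c T}

variable {c : ℕ}

theorem core_le (H : Subgroup G) : core F ρ c H ≤ H := sSup_le fun _ h => h.1

theorem le_core {H T : Subgroup G} (h : T ≤ H) (hT : Thick F ρ c T) : T ≤ core F ρ c H :=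
  le_sSup (s := {T | T ≤ H ∧ Thick F ρ c T}) ⟨h, hT⟩

theorem thick_core [Finite G] (H : Subgroup G) : Thick F ρ c (core F ρ c H) := by
  intro T' hT' t ht
  have ht' := ht
  unfold core at ht'
  rw [sSup_eq_iSup'] at ht'
  refine Subgroup.iSup_induction (C := fun t => ρ t ∈ sp F ρ T') _ ht' ?_ (mem_sp T'.one_mem) ?_
  · rintro ⟨T, hT⟩ x hx
    exact hT.2 T' ((Subgroup.relIndex_le_of_le_right (le_core hT.1 hT.2)
      Subgroup.FiniteIndex.index_ne_zero).trans hT') x hx
  · intro x y hx hy
    rw [map_mul]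
    exact sp_mul hx hy

theorem Thick.commute [Finite G] (hρ : Function.Injective ρ) {H A T : Subgroup G}
    [IsMulCommutative A] (hA : A.relIndex H ≤ c) (hT : Thick F ρ c T) (hTH : T ≤ H) {x y : G}
    (hx : x ∈ T) (hy : y ∈ T) : x * y = y * x := by
  have h := hT A ((Subgroup.relIndex_le_of_le_right hTH
    Subgroup.FiniteIndex.index_ne_zero).trans hA)
  apply hρ
  rw [map_mul, map_mul]
  refine (commute_of_mem_sp (fun a ha => (commute_of_mem_sp (fun b hb => ?_) (h x hx)).symm)
    (h y hy)).eq
  exact Commute.map (setLike_mul_comm ha hb) ρ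

theorem exists_thick [Finite G] [FiniteDimensional F R] (n : ℕ) (A : Subgroup G)
    (hn : finrank F (sp F ρ A) ≤ n) :
    ∃ T ≤ A, Thick F ρ c T ∧ T.relIndex A ≤ (c + 1) ^ n := by
  induction n generalizing A with
  | zero =>
    refine ⟨A, le_rfl, fun T' _ t ht => ?_, by simp⟩
    have h : sp F ρ A = ⊥ := Submodule.finrank_eq_zero.1 (by omega)
    have : ρ t = 0 := (Submodule.mem_bot F).1 (h ▸ mem_sp ht)
    rw [this]; exact zero_mem _
  | succ n ih =>
    by_cases hA : Thick F ρ c A
    · exact ⟨A, le_rfl, hA, by simpa using Nat.one_le_pow _ _ (by omega)⟩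
    unfold Thick at hA
    push Not at hA
    obtain ⟨T', hT', t, ht, hnt⟩ := hA
    have hlt : sp F ρ (T' ⊓ A) < sp F ρ A :=
      lt_of_le_of_ne (sp_mono inf_le_right) fun h =>
        hnt (sp_mono inf_le_left (h ▸ mem_sp ht : ρ t ∈ sp F ρ (T' ⊓ A)))
    obtain ⟨T, hT, hTt, hTi⟩ := ih (T' ⊓ A) (by have := Submodule.finrank_lt_finrank_of_lt hlt; omega)
    refine ⟨T, hT.trans inf_le_right, hTt, ?_⟩
    rw [← Subgroup.relIndex_mul_relIndex T (T' ⊓ A) A hT inf_le_right, pow_succ,
      Subgroup.inf_relIndex_right]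
    exact Nat.mul_le_mul hTi (by omega)

theorem Thick.conj {T : Subgroup G} (hT : Thick F ρ c T) (x : G) :
    Thick F ρ c (T.map (MulAut.conj x).toMonoidHom) := by
  rintro T' hT' _ ⟨t, ht, rfl⟩
  have h := hT (T'.comap (MulAut.conj x).toMonoidHom) (by rwa [Subgroup.relIndex_comap]) t ht
  have key : ∀ a ∈ sp F ρ (T'.comap (MulAut.conj x).toMonoidHom),
      ρ x * a * ρ x⁻¹ ∈ sp F ρ T' := by
    intro a ha
    induction ha using Submodule.span_induction with
    | mem y hy =>
      obtain ⟨h, hh, rfl⟩ := hy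
      rw [← map_mul, ← map_mul]
      exact mem_sp hh
    | zero => simp
    | add y z _ _ hy hz => rw [mul_add, add_mul]; exact add_mem hy hz
    | smul c y _ hy => rw [mul_smul_comm, smul_mul_assoc]; exact Submodule.smul_mem _ _ hy
  have := key _ h
  rwa [← map_mul, ← map_mul] at this

theorem conj_mem_core [Finite G] {H K : Subgroup G} (x : G) (hx : ∀ h ∈ H, x * h * x⁻¹ ∈ K) {y : G}
    (hy : y ∈ core F ρ c H) : x * y * x⁻¹ ∈ core F ρ c K := by
  refine le_core (T := (core F ρ c H).map (MulAut.conj x).toMonoidHom) ?_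
    ((thick_core H).conj x) ⟨y, hy, rfl⟩
  rintro _ ⟨t, ht, rfl⟩
  exact hx t (core_le H ht)

end Thick

theorem sum_orbits {G Y : Type*} [Group G] [MulAction G Y] [Fintype Y]
    [Fintype (MulAction.orbitRel.Quotient G Y)] (w : Y → ℚ) (hw : ∀ (x : G) y, w (x • y) = w y) :
    ∑ y, w y = ∑ o : MulAction.orbitRel.Quotient G Y,
      (MulAction.stabilizer G o.out).index * w o.out := by
  classical
  rw [← Finset.sum_fiberwise Finset.univ
    (fun y => (Quotient.mk'' y : MulAction.orbitRel.Quotient G Y))]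
  refine Finset.sum_congr rfl fun o _ => ?_
  have h : ∀ y, (Quotient.mk'' y : MulAction.orbitRel.Quotient G Y) = o ↔
      y ∈ MulAction.orbit G o.out := by
    intro y
    rw [← MulAction.orbitRel_apply, ← Quotient.eq'', Quotient.out_eq']
  rw [Finset.sum_congr rfl (g := fun _ => w o.out), Finset.sum_const, nsmul_eq_mul,
    MulAction.index_stabilizer, ← Set.ncard_coe_finset]
  · congr 3
    ext y
    simp [h]
  · intro y hy
    obtain ⟨x, rfl⟩ := (h y).1 (Finset.mem_filter.1 hy).2
    exact hw x _

open Subgroup in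
theorem class_equation (C : ℕ) : ∃ N : ℕ, ∀ (G : Type*) [Group G] [Finite G]
    (Φ : G → Subgroup G), (∀ g, center G ≤ Φ g) →
    (∀ g ∉ center G, ∀ f ∈ Φ g, f * g = g * f) →
    (∀ g ∉ center G, ∀ f ∈ Φ g, g * f ∉ center G → Φ (g * f) = Φ g) →
    (∀ g x y, y ∈ Φ g → x * y * x⁻¹ ∈ Φ (x * g * x⁻¹)) →
    (∀ g ∉ center G, Nat.card {x : G // g⁻¹ * (x⁻¹ * g * x) ∈ Φ g} ≤ C * Nat.card (Φ g)) →
    (∃ g ∉ center G, (Φ g).index ≤ C) ∨ (center G).index ≤ N := by
  classical
  obtain ⟨N, hN⟩ := dio_two (2 * C) (2 * C) C 1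
  refine ⟨N, fun G _ _ Φ h1 h2 h3 h4 h5 => ?_⟩
  haveI := Fintype.ofFinite G
  by_contra hcon
  push Not at hcon
  obtain ⟨hΦ, hZ⟩ := hcon
  have hconj : ∀ x g : G, g ∉ center G → x * g * x⁻¹ ∉ center G := fun x g hg h =>
    hg (by simpa [mul_assoc] using (inferInstance : (center G).Normal).conj_mem _ h x⁻¹)
  let cs : G → Set G := fun g => {h | g⁻¹ * h ∈ Φ g}
  have hcs : ∀ x g : G, {h | x⁻¹ * h * x ∈ cs g} = cs (x * g * x⁻¹) := by
    intro x g
    ext h
    constructor
    · intro hh
      simpa [cs, mul_assoc] using h4 g x _ hh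
    · intro hh
      simpa [cs, mul_assoc] using h4 _ x⁻¹ _ hh
  have hcs2 : ∀ g ∉ center G, ∀ h ∉ center G, cs h = cs g ↔ h ∈ cs g := by
    intro g hg h hh
    refine ⟨fun e => e ▸ (by simp [cs]), fun e => ?_⟩
    have e1 : Φ h = Φ g := by simpa using h3 g hg _ e (by simpa using hh)
    ext z
    simp only [cs, Set.mem_setOf_eq, e1]
    have e2 : g⁻¹ * z = (g⁻¹ * h) * (h⁻¹ * z) := by group
    rw [e2, (Φ g).mul_mem_cancel_left e]
  let Y := {s : Set G // ∃ g ∉ center G, s = cs g}
  letI : MulAction G Y :=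
    { smul := fun x s => ⟨{h | x⁻¹ * h * x ∈ s.1}, by
        obtain ⟨g, hg, e⟩ := s.2
        exact ⟨_, hconj x g hg, by rw [e, hcs]⟩⟩
      one_smul := fun s => Subtype.ext (by change {h | _ * h * _ ∈ s.1} = _; simp)
      mul_smul := fun x y s => Subtype.ext (by
        change {h | _ * h * _ ∈ s.1} = {h | _ * (_ * h * _) * _ ∈ s.1}; simp [mul_assoc]) }
  have hsm : ∀ (x : G) (s : Y), (x • s).1 = {h | x⁻¹ * h * x ∈ s.1} := fun _ _ => rfl
  haveI : Fintype Y := Fintype.ofFinite Y
  haveI : Fintype (MulAction.orbitRel.Quotient G Y) := Fintype.ofFinite _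
  let w : Y → ℚ := fun s => (Finset.univ.filter fun h => h ∉ center G ∧ h ∈ s.1).card
  have hw : ∀ (x : G) s, w (x • s) = w s := by
    intro x s
    refine congrArg Nat.cast (Finset.card_bij' (fun h _ => x⁻¹ * h * x) (fun h _ => x * h * x⁻¹)
      ?_ ?_ ?_ ?_)
    · intro h hh
      simp only [Finset.mem_filter, Finset.mem_univ, true_and] at hh ⊢
      exact ⟨by simpa using hconj x⁻¹ h hh.1, hh.2⟩
    · intro h hh
      simp only [Finset.mem_filter, Finset.mem_univ, true_and] at hh ⊢
      exact ⟨hconj x h hh.1, by simpa [hsm, mul_assoc] using hh.2⟩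
    · intro h _; group
    · intro h _; group
  have hsum : ∑ s, w s = Nat.card G - Nat.card (center G) := by
    have e1 : (Finset.univ.filter fun h => h ∉ center G).card + Nat.card (center G)
        = Nat.card G := by
      rw [Nat.card_eq_fintype_card, Nat.card_eq_fintype_card, Fintype.card_subtype, add_comm,
        Finset.card_filter_add_card_filter_not, Finset.card_univ]
    have e2 := Finset.card_eq_sum_card_fiberwise (s := (Finset.univ.filter fun h => h ∉ center G).attach)
      (t := Finset.univ) (f := fun h => (⟨cs h.1, h.1, by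
        have := h.2; simp only [Finset.mem_filter] at this; exact this.2, rfl⟩ : Y))
      (fun _ _ => Finset.mem_univ _)
    rw [Finset.card_attach] at e2
    rw [← e1, e2]
    push_cast
    rw [add_sub_cancel_right]
    refine Finset.sum_congr rfl fun s _ => congrArg Nat.cast ?_
    obtain ⟨s, g, hg, rfl⟩ := s
    refine (Finset.card_bij (fun h _ => h.1) ?_ ?_ ?_).symm
    · intro h hh
      have h0 : h.1 ∉ center G := (Finset.mem_filter.1 h.2).2
      simp only [Finset.mem_filter, Finset.mem_univ, true_and, Finset.mem_attach] at hh ⊢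
      exact ⟨h0, (hcs2 g hg _ h0).1 (congrArg Subtype.val hh)⟩
    · intro a _ b _ h; exact Subtype.ext h
    · intro h hh
      simp only [Finset.mem_filter, Finset.mem_univ, true_and] at hh
      exact ⟨⟨h, by simpa using hh.1⟩, by
        simp only [Finset.mem_filter, Finset.mem_attach, true_and]
        exact Subtype.ext ((hcs2 g hg _ hh.1).2 hh.2), rfl⟩
  -- the term of one orbit
  have hterm : ∀ s : Y, ∃ (b X : ℕ) (ε : Prop), b ≤ C ∧ 0 < b ∧ 0 < X ∧
      (ε → 2 * b ≤ X ∧ X < (center G).index) ∧
      (MulAction.stabilizer G s).index * w s / Nat.card G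
        = 1 / b - if ε then (1 / X : ℚ) else 0 := by
    rintro ⟨s, g, hg, rfl⟩
    set S := MulAction.stabilizer G (⟨cs g, g, hg, rfl⟩ : Y) with hS
    have hmem : ∀ x, x ∈ S ↔ g⁻¹ * (x⁻¹ * g * x) ∈ Φ g := by
      intro x
      rw [← S.inv_mem_iff, MulAction.mem_stabilizer_iff, Subtype.ext_iff, hsm, hcs,
        hcs2 g hg _ (hconj _ g hg), inv_inv]
      rfl
    have hle : Φ g ≤ S := fun f hf => (hmem f).2 (by
      rw [mul_assoc f⁻¹, ← h2 g hg f hf]; simp)
    have hb : (Φ g).relIndex S * Nat.card (Φ g) = Nat.card S := by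
      rw [← Nat.card_congr (subgroupOfEquivOfLe hle).toEquiv]; exact index_mul_card _
    have hX : (center G).relIndex S * Nat.card (center G) = Nat.card S := by
      rw [← Nat.card_congr (subgroupOfEquivOfLe ((h1 g).trans hle)).toEquiv]
      exact index_mul_card _
    have hbC : (Φ g).relIndex S ≤ C := by
      refine Nat.le_of_mul_le_mul_right ?_ (Nat.card_pos (α := Φ g))
      rw [hb, Nat.card_congr (Equiv.subtypeEquivRight hmem)]
      exact h5 g hg
    have hb0 : 0 < (Φ g).relIndex S := Nat.pos_of_ne_zero FiniteIndex.index_ne_zero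
    have hX0 : 0 < (center G).relIndex S := Nat.pos_of_ne_zero FiniteIndex.index_ne_zero
    refine ⟨(Φ g).relIndex S, (center G).relIndex S, g ∈ Φ g, hbC, hb0, hX0, fun hgg => ⟨?_, ?_⟩, ?_⟩
    · rw [← relIndex_mul_relIndex _ _ _ (h1 g) hle]
      refine Nat.mul_le_mul_right _ ?_
      have e1 : (center G).relIndex (Φ g) ≠ 0 := FiniteIndex.index_ne_zero
      have e2 : (center G).relIndex (Φ g) ≠ 1 := fun h => hg (relIndex_eq_one.1 h hgg)
      omega
    · have e1 := relIndex_mul_index ((h1 g).trans hle)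
      have e2 : S.index ≠ 1 := fun h => by
        have := hΦ g hg
        rw [← relIndex_mul_index hle, h] at this
        omega
      have e3 : S.index ≠ 0 := FiniteIndex.index_ne_zero
      rw [← e1]
      exact (Nat.lt_mul_iff_one_lt_right hX0).2 (by omega)
    · have e1 : (Finset.univ.filter fun h => h ∉ center G ∧ h ∈ cs g).card
          + (if g ∈ Φ g then Nat.card (center G) else 0) = Nat.card (Φ g) := by
        have e2 : Nat.card (Φ g) = (Finset.univ.filter fun h => h ∈ cs g).card := by
          rw [← Fintype.card_subtype, ← Nat.card_eq_fintype_card]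
          exact Nat.card_congr ((Equiv.mulLeft g).subtypeEquiv (by simp [cs]))
        rw [e2, ← Finset.card_filter_add_card_filter_not (s := Finset.univ.filter fun h => h ∈ cs g)
          (fun h => h ∉ center G), Finset.filter_filter, Finset.filter_filter]
        congr 1
        · congr 1; ext; simp [and_comm]
        · split_ifs with hgg
          · rw [Nat.card_eq_fintype_card, Fintype.card_subtype]
            congr 1; ext z
            simp only [Finset.mem_filter, Finset.mem_univ, true_and, not_not, iff_and_self]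
            exact fun hz => (Φ g).mul_mem ((Φ g).inv_mem hgg) (h1 g hz)
          · symm
            rw [Finset.card_eq_zero, Finset.filter_eq_empty_iff]
            rintro z - ⟨hz1, hz2⟩
            rw [not_not] at hz2
            exact hgg (by simpa using (Φ g).mul_mem (h1 g hz2) ((Φ g).inv_mem hz1))
      have e3 : (w ⟨cs g, g, hg, rfl⟩ : ℚ) = Nat.card (Φ g)
          - (if g ∈ Φ g then (Nat.card (center G) : ℚ) else 0) := by
        rw [← e1]; push_cast; simp [w]
      have e4 : (Nat.card G : ℚ) = S.index * Nat.card S := by exact_mod_cast S.index_mul_card.symm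
      have e5 : (S.index : ℚ) ≠ 0 := by exact_mod_cast FiniteIndex.index_ne_zero
      have e6 : (Nat.card S : ℚ) ≠ 0 := by exact_mod_cast Nat.card_pos.ne'
      have e7 : ((Φ g).relIndex S : ℚ) ≠ 0 := by exact_mod_cast hb0.ne'
      have e8 : ((center G).relIndex S : ℚ) ≠ 0 := by exact_mod_cast hX0.ne'
      have hb' : (Nat.card (Φ g) : ℚ) = Nat.card S / (Φ g).relIndex S := by
        rw [← hb]; push_cast; field_simp
      have hX' : (Nat.card (center G) : ℚ) = Nat.card S / (center G).relIndex S := by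
        rw [← hX]; push_cast; field_simp
      rw [e3, e4, hb', hX']
      split_ifs <;> field_simp
      ring
  choose b X ε hbC hb0 hX0 hε hval using hterm
  have hG0 : (Nat.card G : ℚ) ≠ 0 := by exact_mod_cast Nat.card_pos.ne'
  have hI0 : 0 < (center G).index := Nat.pos_of_ne_zero FiniteIndex.index_ne_zero
  have heq : ∑ o : MulAction.orbitRel.Quotient G Y,
      ((1 / b o.out : ℚ) - if ε o.out then (1 / X o.out : ℚ) else 0) = 1 - 1 / (center G).index := by
    simp_rw [← hval]
    rw [← Finset.sum_div, ← sum_orbits w hw, hsum, ← (center G).index_mul_card]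
    have e6 : (Nat.card (center G) : ℚ) ≠ 0 := by exact_mod_cast Nat.card_pos.ne'
    have e7 : ((center G).index : ℚ) ≠ 0 := by exact_mod_cast hI0.ne'
    push_cast; field_simp
  have hcard : Fintype.card (MulAction.orbitRel.Quotient G Y) ≤ 2 * C := by
    rcases isEmpty_or_nonempty (MulAction.orbitRel.Quotient G Y) with h | ⟨⟨o₀⟩⟩
    · simp
    have hC : (0 : ℚ) < C := by exact_mod_cast (hb0 o₀.out).trans_le (hbC _)
    have e1 : ∑ _o : MulAction.orbitRel.Quotient G Y, (1 / (2 * C) : ℚ) ≤ 1 - 1 / (center G).index := by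
      rw [← heq]
      refine Finset.sum_le_sum fun o _ => ?_
      have f1 : (0 : ℚ) < b o.out := by exact_mod_cast hb0 _
      have f2 : (1 / (2 * C) : ℚ) ≤ 1 / (2 * b o.out) :=
        one_div_le_one_div_of_le (by positivity) (by exact_mod_cast Nat.mul_le_mul_left 2 (hbC _))
      have f3 : (1 / b o.out : ℚ) = 2 * (1 / (2 * b o.out)) := by field_simp
      have f4 : (0 : ℚ) < 1 / (2 * b o.out) := by positivity
      split_ifs with h
      · have f5 : (1 / X o.out : ℚ) ≤ 1 / (2 * b o.out) :=
          one_div_le_one_div_of_le (by positivity) (by exact_mod_cast (hε _ h).1)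
        linarith
      · linarith
    rw [Finset.sum_const, Finset.card_univ, nsmul_eq_mul, mul_one_div] at e1
    have e2 : (0 : ℚ) ≤ 1 / (center G).index := by positivity
    exact_mod_cast (div_le_one (by positivity)).1 (e1.trans (by linarith))
  refine absurd (hN (Finset.univ.val.map fun o : MulAction.orbitRel.Quotient G Y => b o.out)
    ((Finset.univ.filter fun o : MulAction.orbitRel.Quotient G Y => ε o.out).val.map
      fun o => X o.out) _ hI0 (by simpa using hcard) ?_ ?_ ?_ ?_) (by omega)
  · rw [Multiset.card_map]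
    exact (Finset.card_le_univ _).trans hcard
  · intro x hx
    obtain ⟨o, -, rfl⟩ := Multiset.mem_map.1 hx
    exact hbC _
  · intro x hx
    obtain ⟨o, ho, rfl⟩ := Multiset.mem_map.1 hx
    exact ⟨hX0 _, (hε _ (Finset.mem_filter.1 ho).2).2⟩
  · rw [Finset.sum_sub_distrib, ← Finset.sum_filter] at heq
    rw [Multiset.map_map, Multiset.map_map]
    change _ = 1 - ∑ o : MulAction.orbitRel.Quotient G Y, (1 / b o.out : ℚ)
      + ∑ o ∈ Finset.univ.filter fun o : MulAction.orbitRel.Quotient G Y => ε o.out,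
        (1 / X o.out : ℚ)
    linarith

universe u v w

open Subgroup in
theorem exists_bound (p : ℕ) [Fact p.Prime] (U D d : ℕ) : ∃ c : ℕ, ∀ (G : Type u) [Group G]
    [Finite G] (F : Type v) [Field F] [CharP F p] (R : Type w) [Ring R] [Algebra F R]
    [FiniteDimensional F R] (ρ : G →* R), Function.Injective ρ → finrank F R ≤ D →
    (∀ P : Subgroup G, IsPGroup p P → Nat.card P ≤ U) → finrank F (sp F ρ ⊤) ≤ d →
    ∃ A : Subgroup G, IsMulCommutative A ∧ A.index ≤ c := by
  induction d with
  | zero =>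
    refine ⟨1, fun G _ _ F _ _ R _ _ _ ρ hρ _ _ hd => ⟨⊤, ?_, by simp⟩⟩
    have h : sp F ρ ⊤ = ⊥ := Submodule.finrank_eq_zero.1 (by omega)
    have h0 : ∀ g, ρ g = 0 := fun g => (Submodule.mem_bot F).1 (h ▸ mem_sp (mem_top g))
    exact .of_setLike_mul_comm fun a _ b _ => hρ (by rw [h0, h0])
  | succ d ih =>
    obtain ⟨c, hc⟩ := ih
    obtain ⟨N, hN⟩ := class_equation.{u} (U * (D + 1) ^ D * ((c + 1) ^ D * c))
    refine ⟨max N (U * (D + 1) ^ D * ((c + 1) ^ D * c)),
      fun G _ _ F _ _ R _ _ _ ρ hρ hD hU hd => ?_⟩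
    have hA : ∀ g ∉ center G, ∃ A ≤ centralizer {g}, IsMulCommutative A ∧
        A.relIndex (centralizer {g}) ≤ c := by
      intro g hg
      have hlt : sp F ρ (centralizer {g}) < sp F ρ ⊤ := by
        refine lt_of_le_of_ne (sp_mono le_top) fun h => hg (mem_center_iff.2 fun x => hρ ?_)
        rw [map_mul, map_mul]
        refine (commute_of_mem_sp (F := F) (ρ := ρ) (H := centralizer {g}) (fun y hy => ?_)
          (h ▸ mem_sp (mem_top x))).eq.symm
        exact Commute.map (mem_centralizer_singleton_iff.1 hy).symm ρ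
      obtain ⟨A, hA1, hA2⟩ := hc (centralizer {g}) F R (ρ.comp (Subgroup.subtype _))
        (hρ.comp Subtype.val_injective) hD
        (fun P hP => (card_map_of_injective (subtype_injective _)).symm.trans_le
          (hU _ (hP.map _))) (by
          have e : sp F (ρ.comp (Subgroup.subtype (centralizer {g}))) ⊤ = sp F ρ (centralizer {g}) := by
            unfold sp
            congr 1
            ext; simp
          rw [e]
          have := Submodule.finrank_lt_finrank_of_lt hlt
          omega)
      refine ⟨A.map (Subgroup.subtype _), map_subtype_le _, inferInstance, ?_⟩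
      rwa [relIndex, subgroupOf, comap_map_eq_self_of_injective (subtype_injective _)]
    have hcomm : ∀ g ∉ center G, ∀ x ∈ core F ρ c (centralizer {g}),
        ∀ y ∈ core F ρ c (centralizer {g}), x * y = y * x := by
      intro g hg x hx y hy
      obtain ⟨A, -, _, hA2⟩ := hA g hg
      exact (thick_core _).commute hρ hA2 (core_le _) hx hy
    let Φ : G → Subgroup G := fun g => core F ρ c (centralizer {g}) ⊔ center G
    have hmem : ∀ g f, f ∈ Φ g → ∃ t ∈ core F ρ c (centralizer {g}), ∃ z ∈ center G, f = t * z := by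
      intro g f hf
      have : f ∈ ((Φ g : Subgroup G) : Set G) := hf
      rw [mul_normal] at this
      obtain ⟨t, ht, z, hz, rfl⟩ := this
      exact ⟨t, ht, z, hz, rfl⟩
    have hcomm' : ∀ g ∉ center G, ∀ x ∈ core F ρ c (centralizer {g}), ∀ f ∈ Φ g,
        Commute x f := by
      intro g hg x hx f hf
      obtain ⟨t, ht, z, hz, rfl⟩ := hmem g f hf
      exact Commute.mul_right (hcomm g hg x hx t ht) (mem_center_iff.1 hz x)
    have hΦ : ∀ g ∉ center G, IsMulCommutative (Φ g) := by
      intro g hg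
      refine .of_setLike_mul_comm fun a ha b hb => ?_
      obtain ⟨t, ht, z, hz, rfl⟩ := hmem g a ha
      exact (Commute.mul_left (hcomm' g hg t ht b hb) (mem_center_iff.1 hz b).symm).eq
    have hle : ∀ g, Φ g ≤ centralizer {g} := fun g =>
      sup_le (core_le _) (center_le_centralizer _)
    have hidx : ∀ g ∉ center G, (Φ g).relIndex (centralizer {g}) ≤ (c + 1) ^ D * c := by
      intro g hg
      obtain ⟨A, hA1, -, hA2⟩ := hA g hg
      obtain ⟨T, hT1, hT2, hT3⟩ := exists_thick (F := F) (ρ := ρ) (c := c) D A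
        ((Submodule.finrank_le _).trans hD)
      refine (relIndex_le_of_le_left ((le_core (hT1.trans hA1) hT2).trans le_sup_left)
        FiniteIndex.index_ne_zero).trans ?_
      rw [← relIndex_mul_relIndex T A _ hT1 hA1]
      exact Nat.mul_le_mul hT3 hA2
    refine (hN G Φ (fun _ => le_sup_right)
      (fun g _ f hf => mem_centralizer_singleton_iff.1 (hle g hf)) ?_ ?_ ?_).elim
      (fun ⟨g, hg, h⟩ => ⟨Φ g, hΦ g hg, le_max_of_le_right h⟩)
      (fun h => ⟨center G, inferInstance, le_max_of_le_left h⟩)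
    · intro g hg f hf hgf
      have e1 : core F ρ c (centralizer {g}) ≤ core F ρ c (centralizer {g * f}) := by
        refine le_core (fun x hx => mem_centralizer_singleton_iff.2 ?_) (thick_core _)
        exact (Commute.mul_right (mem_centralizer_singleton_iff.1 (core_le _ hx))
          (hcomm' g hg x hx f hf)).eq
      have e2 : core F ρ c (centralizer {g * f}) ≤ core F ρ c (centralizer {g}) := by
        refine le_core (fun x hx => mem_centralizer_singleton_iff.2 ?_) (thick_core _)
        have f1 : Commute x (g * f) := mem_centralizer_singleton_iff.1 (core_le _ hx)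
        have f2 : Commute x f := hcomm' _ hgf x hx f (sup_le_sup_right e1 _ hf)
        simpa using (f1.mul_right f2.inv_right).eq
      simp only [Φ, le_antisymm e1 e2]
    · intro g x y hy
      obtain ⟨t, ht, z, hz, rfl⟩ := hmem g y hy
      have e : x * (t * z) * x⁻¹ = (x * t * x⁻¹) * z := by
        rw [mul_assoc (x * t), mem_center_iff.1 hz x⁻¹]; group
      rw [e]
      refine mul_mem (mem_sup_left (conj_mem_core x (fun h hh => ?_) ht)) (mem_sup_right hz)
      rw [mem_centralizer_singleton_iff] at hh ⊢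
      calc _ = x * (h * g) * x⁻¹ := by group
        _ = _ := by rw [hh]; group
    · intro g hg
      classical
      haveI := Fintype.ofFinite G
      let K := Φ g ⊔ zpowers g
      haveI : IsMulCommutative K := by
        haveI := hΦ g hg
        have e : K ≤ centralizer (Φ g) ⊓ centralizer {g} := by
          refine sup_le (le_inf (le_centralizer _) (hle g)) (zpowers_le_of_mem ⟨?_, ?_⟩)
          · exact fun h hh => mem_centralizer_singleton_iff.1 (hle g hh)
          · exact mem_centralizer_singleton_iff.2 rfl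
        refine .of_setLike_mul_comm fun a ha b hb => ?_
        have e2 : K ≤ centralizer {a} := by
          refine sup_le (fun h hh => mem_centralizer_singleton_iff.2 ((e ha).1 h hh))
            (zpowers_le_of_mem (mem_centralizer_singleton_iff.2
              (mem_centralizer_singleton_iff.1 (e ha).2).symm))
        exact (mem_centralizer_singleton_iff.1 (e2 hb)).symm
      have hint : IsIntegral F (ρ g) := Algebra.IsIntegral.isIntegral _
      have h1 := card_roots_le p ρ hρ U D hU hD K (minpoly F (ρ g)) (minpoly.ne_zero hint)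
        ((minpoly.natDegree_le _).trans hD)
      let φ : {x : G // g⁻¹ * (x⁻¹ * g * x) ∈ Φ g} → {h : K // aeval (ρ h) (minpoly F (ρ g)) = 0} :=
        fun x => ⟨⟨x.1⁻¹ * g * x.1, by
          simpa using K.mul_mem (mem_sup_right (mem_zpowers g)) (mem_sup_left x.2)⟩, by
          let ψ : R →ₐ[F] R :=
            { toFun := fun a => ρ x.1⁻¹ * a * ρ x.1
              map_one' := by rw [mul_one, ← map_mul]; simp
              map_mul' := fun a b => by
                rw [mul_assoc _ (ρ x.1), ← mul_assoc (ρ x.1), ← mul_assoc (ρ x.1), ← map_mul]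
                simp [mul_assoc]
              map_zero' := by simp
              map_add' := fun a b => by rw [mul_add, add_mul]
              commutes' := fun a => by
                rw [← Algebra.commutes, mul_assoc, ← map_mul]; simp }
          have := aeval_algHom_apply ψ (ρ g) (minpoly F (ρ g))
          rw [minpoly.aeval, map_zero] at this
          rw [map_mul, map_mul]
          exact this⟩
      haveI := Fintype.ofFinite {h : K // aeval (ρ h) (minpoly F (ρ g)) = 0}
      have hfib : ∀ y, (Finset.univ.filter fun x => φ x = y).card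
          ≤ Nat.card (centralizer ({g} : Set G)) := by
        intro y
        rcases (Finset.univ.filter fun h => φ h = y).eq_empty_or_nonempty with h | ⟨h₀, hh₀⟩
        · simp [h]
        rw [← Fintype.card_coe, ← Nat.card_eq_fintype_card]
        refine Nat.card_le_card_of_injective (fun h => ⟨h.1.1 * (h₀.1 : G)⁻¹, ?_⟩) ?_
        · have hh : h.1.1⁻¹ * g * h.1.1 = h₀.1⁻¹ * g * h₀.1 := congrArg (fun z => z.1.1)
            ((Finset.mem_filter.1 h.2).2.trans (Finset.mem_filter.1 hh₀).2.symm)
          rw [mem_centralizer_singleton_iff]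
          calc _ = h.1.1 * (h₀.1⁻¹ * g * h₀.1) * h₀.1⁻¹ := by group
            _ = _ := by rw [← hh]; group
        · intro a b hab
          exact Subtype.ext (Subtype.ext (mul_right_cancel (congrArg Subtype.val hab)))
      have h2 := Finset.card_le_mul_card_image (f := φ) Finset.univ _ (fun y _ => hfib y)
      rw [Nat.card_eq_fintype_card, ← Finset.card_univ]
      refine h2.trans ?_
      rw [← (Φ g).subgroupOf (centralizer {g}) |>.index_mul_card,
        Nat.card_congr (subgroupOfEquivOfLe (hle g)).toEquiv, mul_comm, mul_assoc]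
      refine Nat.mul_le_mul ((Finset.card_le_univ _).trans ?_) (Nat.mul_le_mul_right _ (hidx g hg))
      rwa [← Nat.card_eq_fintype_card]

end Cfsg.Lib.CharDeg.Jordan
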