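import Cfsg.Agent.Lib.CharDeg.Elation
import Cfsg.Agent.Lib.BG.Basic

/-!
Large elementary abelian TI-subgroups.
-/

set_option autoImplicit false

namespace Cfsg.Lib.CharDeg.LargeTI

open Subgroup Cfsg.Lib.Inv Cfsg.Lib.Transfer Cfsg.Lib.BG

variable {G : Type*} [Group G]

structure Big (V Q P : Subgroup G) : Prop where
  sq : ∀ v ∈ V, v * v = 1
  QM : Q ≤ 𝐍(V)
  MQ : 𝐍(V) ≤ 𝐍(Q)
  pQ : IsPGroup 2 Q
  cent : ∀ m ∈ 𝐍(V), m ∈ 𝐂(Q) → m ∈ Q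
  core : ∀ K : Subgroup G, K ≤ 𝐍(V) → 𝐍(V) ≤ 𝐍(K) → IsPGroup 2 K → K ≤ Q
  max : ∀ A : Subgroup G, V ≤ A → A ≤ 𝐍(V) → IsMulCommutative A → 𝐍(V) ≤ 𝐍(A) → A ≤ V
  ti : ∀ x, ∀ v ∈ V, v ≠ 1 → x * v * x⁻¹ ∈ V → x ∈ 𝐍(V)
  hP : P = Q ⊓ 𝐂(V)

theorem comm_of_cm {x y : G} (e : x * y * x⁻¹ * y⁻¹ = 1) : x * y = y * x := by
  rwa [mul_inv_eq_one, mul_inv_eq_iff_eq_mul] at e

theorem cj_ne_one {x : G} (g : G) (h : x ≠ 1) : g * x * g⁻¹ ≠ 1 := fun e => h (by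
  calc x = g⁻¹ * (g * x * g⁻¹) * g := by group
    _ = 1 := by rw [e]; group)

namespace Big

variable {V Q P : Subgroup G} (h : Big V Q P)
include h

theorem conj (g : G) : Big (g ⋆ V) (g ⋆ Q) (g ⋆ P) := by
  refine ⟨fun v hv => ?_, ?_, ?_, isPGroup_conj h.pQ g, fun m hm hc => ?_, fun K h1 h2 h3 => ?_,
    fun A h1 h2 h3 h4 => ?_, fun x v hv h1 h2 => ?_, ?_⟩
  · have := h.sq _ (mem_conj.1 hv)
    calc v * v = g * (g⁻¹ * v * g * (g⁻¹ * v * g)) * g⁻¹ := by group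
      _ = 1 := by rw [this]; group
  · rw [← conj_normalizer]; exact conj_mono g h.QM
  · rw [← conj_normalizer, ← conj_normalizer]; exact conj_mono g h.MQ
  · rw [← conj_normalizer, mem_conj] at hm
    rw [← conj_centralizer, mem_conj] at hc
    exact mem_conj.2 (h.cent _ hm hc)
  · rw [← conj_normalizer] at h1 h2
    rw [le_conj_iff_inv_conj_le] at h1 ⊢
    rw [conj_le_iff_le_inv_conj, conj_normalizer] at h2
    exact h.core _ h1 h2 (isPGroup_conj h3 _)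
  · rw [← conj_normalizer] at h2 h4
    rw [le_conj_iff_inv_conj_le] at h2 ⊢
    rw [conj_le_iff_le_inv_conj] at h1
    rw [conj_le_iff_le_inv_conj, conj_normalizer] at h4
    exact h.max _ h1 h2 ((abelian_conj _).2 h3) h4
  · rw [← conj_normalizer, mem_conj]
    refine h.ti _ _ (mem_conj.1 hv) (by simpa using cj_ne_one g⁻¹ h1) ?_
    convert mem_conj.1 h2 using 1; group
  · rw [h.hP, conj_inf, conj_centralizer]

theorem inv {v : G} (hv : v ∈ V) : v⁻¹ = v := inv_eq_of_mul_self (h.sq v hv)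

theorem comm {v w : G} (hv : v ∈ V) (hw : w ∈ V) : v * w = w * v := by
  rw [← h.inv (mul_mem hv hw), mul_inv_rev, h.inv hv, h.inv hw]

theorem VC : V ≤ 𝐂(V) := le_cent_iff.2 fun _ hv _ hw => h.comm hv hw

theorem pV : IsPGroup 2 V := fun v => ⟨1, Subtype.ext (by simpa [pow_two] using h.sq v v.2)⟩

theorem VQ : V ≤ Q := h.core V (le_norm V) le_rfl h.pV
theorem PQ : P ≤ Q := h.hP ▸ inf_le_left
theorem PC : P ≤ 𝐂(V) := h.hP ▸ inf_le_right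
theorem PM : P ≤ 𝐍(V) := h.PQ.trans h.QM
theorem memP {x : G} (h1 : x ∈ Q) (h2 : x ∈ 𝐂(V)) : x ∈ P := by rw [h.hP]; exact ⟨h1, h2⟩
theorem VP : V ≤ P := fun _ hv => h.memP (h.VQ hv) (h.VC hv)
theorem MP : 𝐍(V) ≤ 𝐍(P) := by rw [h.hP]; exact norm_inf h.MQ (norm_cent le_rfl)
theorem pP : IsPGroup 2 P := h.pQ.to_le h.PQ
theorem pc {p v : G} (hp : p ∈ P) (hv : v ∈ V) : v * p = p * v := mem_cent.1 (h.PC hp) v hv

theorem abel {A : Subgroup G} (h1 : A ≤ P) (h2 : IsMulCommutative A) (h3 : 𝐍(V) ≤ 𝐍(A)) : A ≤ V :=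
  le_sup_left.trans (h.max (A ⊔ V) le_sup_right (sup_le (h1.trans h.PM) (le_norm V))
    (abelian_sup h2 (abelian_iff.2 h.VC) (h1.trans h.PC)) (norm_sup h3 le_rfl))

theorem zent {x : G} (h1 : x ∈ P) (h2 : x ∈ 𝐂(P)) : x ∈ V :=
  h.abel (A := 𝐙(P)) inf_le_left (abelian_center P) (norm_center h.MP) ⟨h1, h2⟩

theorem stab {m x : G} (h1 : m ∈ 𝐂(V)) (h2 : m * x * m⁻¹ * x⁻¹ ∈ V) : x * (m * m) = m * m * x := by
  have e1 := mem_cent.1 h1 _ h2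
  have e2 := h.sq _ h2
  have e3 : m * x = m * x * m⁻¹ * x⁻¹ * x * m := by group
  generalize m * x * m⁻¹ * x⁻¹ = v at e1 e2 e3
  calc x * (m * m) = (v * v) * x * (m * m) := by rw [e2, one_mul]
    _ = v * (v * x * m) * m := by group
    _ = (v * m) * x * m := by rw [← e3]; group
    _ = m * (v * x * m) := by rw [e1]; group
    _ = m * m * x := by rw [← e3]; group

theorem eq_of_mem {x y u : G} (h1 : u ∈ x ⋆ V) (h2 : u ∈ y ⋆ V) (hu : u ≠ 1) : x ⋆ V = y ⋆ V := by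
  have := h.ti (y⁻¹ * x) _ (mem_conj.1 h1) (by simpa using cj_ne_one x⁻¹ hu)
    (by convert mem_conj.1 h2 using 1; group)
  rw [← conj_inj (g := y⁻¹), conj_conj, inv_conj_conj, conj_eq_of_norm this]

theorem norm_of_eq {x y : G} (e : x ⋆ V = y ⋆ V) : y⁻¹ * x ∈ 𝐍(V) :=
  norm_of_conj_eq (by rw [← conj_conj, e, inv_conj_conj])

theorem conjQ {x y : G} (e : x ⋆ V = y ⋆ V) : x ⋆ Q = y ⋆ Q := by
  rw [← conj_inj (g := y⁻¹), conj_conj, inv_conj_conj, conj_eq_of_norm (h.MQ (h.norm_of_eq e))]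

theorem conjP {x y : G} (e : x ⋆ V = y ⋆ V) : x ⋆ P = y ⋆ P := by
  rw [← conj_inj (g := y⁻¹), conj_conj, inv_conj_conj, conj_eq_of_norm (h.MP (h.norm_of_eq e))]

variable [Finite G]

theorem der : ⁅P, P⁆ ≤ V := by
  haveI : Fact (Nat.Prime 2) := ⟨Nat.prime_two⟩
  haveI := pgroup_nil h.pP
  suffices H : ∀ N : Subgroup G, N ≤ ⁅P, P⁆ → 𝐍(V) ≤ 𝐍(N) → N ≤ V from H _ le_rfl (norm_der h.MP)
  intro N
  induction N using WellFoundedLT.induction with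
  | _ N ih =>
  intro h1 h2
  by_cases h0 : N = ⊥
  · exact h0 ▸ bot_le
  have h3 := h1.trans (der_le P)
  have h4 := PGroup.commutator_lt_of_nilpotent h3 (h.PM.trans h2) h0
  have h5 := ih _ h4 (h4.le.trans h1) (norm_comm h2 h.MP)
  have h6 : ⁅⁅N, P⁆, P⁆ = ⊥ := comm_eq_bot_iff'.2 (h.PC.trans (cent_anti h5))
  have h7 : ⁅⁅P, P⁆, N⁆ = ⊥ :=
    commutator_commutator_eq_bot_of_rotate (by rwa [Subgroup.commutator_comm P N]) h6
  exact h.abel h3 (abelian_iff.2 (h1.trans (comm_eq_bot_iff.1 h7))) h2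

theorem cm {p q : G} (hp : p ∈ P) (hq : q ∈ P) : p * q * p⁻¹ * q⁻¹ ∈ V := h.der (comm_mem_comm hp hq)

theorem sqP {p : G} (hp : p ∈ P) : p * p ∈ V :=
  h.zent (mul_mem hp hp) (mem_cent.2 fun _ hy => h.stab (h.PC hp) (h.cm hp hy))

omit [Finite G] in
theorem kk {m : G} (h2 : m ∈ 𝐂(V)) (h3 : ∀ p ∈ P, m * p * m⁻¹ * p⁻¹ ∈ V) : m ∈ P := by
  let K : Subgroup G :=
    { carrier := {m | m ∈ 𝐂(V) ∧ ∀ p ∈ P, m * p * m⁻¹ * p⁻¹ ∈ V}
      one_mem' := ⟨one_mem _, fun p _ => by simpa using V.one_mem⟩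
      mul_mem' := fun {a b} ha hb => ⟨mul_mem ha.1 hb.1, fun p hp => by
        convert mul_mem (conj_mem_of_norm (cent_le_norm V ha.1) (hb.2 p hp)) (ha.2 p hp) using 1
        group⟩
      inv_mem' := fun {a} ha => ⟨inv_mem ha.1, fun p hp => by
        convert conj_mem_of_norm' (cent_le_norm V ha.1) (inv_mem (ha.2 p hp)) using 1
        group⟩ }
  refine h.memP (h.core K (fun a ha => cent_le_norm V ha.1) (le_norm_iff.2 fun n hn a ha =>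
    ⟨conj_mem_of_norm (norm_cent le_rfl hn) ha.1, fun p hp => ?_⟩) (fun a => ?_) ⟨h2, h3⟩) h2
  · convert conj_mem_of_norm hn (ha.2 _ (conj_mem_of_norm' (h.MP hn) hp)) using 1
    group
  · obtain ⟨a, ha⟩ := a
    have c1 : a * a ∈ 𝐂(P) := mem_cent.2 fun p hp => h.stab ha.1 (ha.2 p hp)
    have c2 : a * a ∈ 𝐂(V) := cent_anti h.VP c1
    have c3 : a * a * (a * a) ∈ Q := h.cent _ (cent_le_norm V (mul_mem c2 c2))
      (mem_cent.2 fun q hq => h.stab c2 (by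
        have d1 : a * a * q * (a * a)⁻¹ * q⁻¹ ∈ 𝐂(P) := by
          convert mul_mem c1 (conj_mem_of_norm (norm_cent h.MP (h.QM hq)) (inv_mem c1)) using 1
          group
        exact h.zent (h.memP (mul_mem (conj_mem_of_norm (h.MQ (cent_le_norm V c2)) hq) (inv_mem hq))
          (cent_anti h.VP d1)) d1))
    obtain ⟨k, hk⟩ := h.pQ ⟨_, c3⟩
    refine ⟨k + 2, Subtype.ext ?_⟩
    have : (a * a * (a * a)) ^ 2 ^ k = 1 := congrArg Subtype.val hk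
    change a ^ 2 ^ (k + 2) = 1
    rw [← this, show a * a * (a * a) = a ^ 4 by
      simp only [pow_succ, pow_zero, one_mul, mul_assoc], ← pow_mul]
    congr 1; ring

end Big

structure Pr (V Q P U : Subgroup G) : Prop extends Big V Q P where
  cj : ∃ g, U = g ⋆ V
  ne : U ≠ V
  UQ : U ≤ Q

namespace Pr

variable {V Q P U : Subgroup G} (h : Pr V Q P U)
include h

theorem disj {u : G} (h1 : u ∈ U) (h2 : u ∈ V) : u = 1 := by
  obtain ⟨g, rfl⟩ := h.cj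
  by_contra hu
  exact h.ne ((h.eq_of_mem h1 (y := 1) (by rwa [conj_one]) hu).trans (conj_one V))

theorem sqU {u : G} (h1 : u ∈ U) : u * u = 1 := by
  obtain ⟨g, rfl⟩ := h.cj
  exact (h.conj g).sq u h1

theorem card : Nat.card U = Nat.card V := by
  obtain ⟨g, rfl⟩ := h.cj
  exact card_conj g V

theorem exU : ∃ u ∈ U, u ≠ 1 := exists_ne_one fun e => h.ne (by
  obtain ⟨g, rfl⟩ := h.cj
  rw [e, conj_eq_bot_iff.1 e])

theorem exV : ∃ u ∈ V, u ≠ 1 := exists_ne_one fun e => h.ne (by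
  obtain ⟨g, rfl⟩ := h.cj
  rw [e, conj_eq_bot_iff])

theorem UM : U ≤ 𝐍(V) := h.UQ.trans h.QM

theorem cU {x y : G} (hx : x ∈ U) (h1 : x ≠ 1) (e : y * x = x * y)
    (hy : ∀ u ∈ U, y * u * y⁻¹ * u⁻¹ ∈ V) : y ∈ 𝐂(U) := by
  have : y ∈ 𝐍(U) := by
    obtain ⟨g, rfl⟩ := h.cj
    exact (h.conj g).ti y x hx h1 (by rwa [e, mul_inv_cancel_right])
  exact mem_cent.2 fun u hu =>
    (comm_of_cm (h.disj (mul_mem (conj_mem_of_norm this hu) (inv_mem hu)) (hy u hu))).symm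

variable [Finite G]

theorem surj {y : G} (h1 : y ∉ 𝐂(U)) (hy : ∀ u ∈ U, y * u * y⁻¹ * u⁻¹ ∈ V) {v : G} (hv : v ∈ V) :
    ∃ x ∈ U, y * x * y⁻¹ * x⁻¹ = v := by
  have hi : Function.Injective (fun u : U => (⟨_, hy u u.2⟩ : V)) := fun a b e => by
    have e' : y * a * y⁻¹ * (a : G)⁻¹ = y * b * y⁻¹ * (b : G)⁻¹ := congrArg Subtype.val e
    by_contra hne
    refine h1 (h.cU (mul_mem (inv_mem b.2) a.2) (fun e => hne (Subtype.ext (inv_mul_eq_one.1 e).symm))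
      ?_ hy)
    calc y * ((b : G)⁻¹ * a) = y * (b : G)⁻¹ * y⁻¹ * (y * a * y⁻¹ * (a : G)⁻¹) * a * y * (a * y * (a : G)⁻¹ * y⁻¹)⁻¹ * (a * y * (a : G)⁻¹ * y⁻¹) := by group
      _ = y * (b : G)⁻¹ * y⁻¹ * (y * a * y⁻¹ * (a : G)⁻¹) * a * y := by group
      _ = _ := by rw [e']; group
  obtain ⟨x, hx⟩ := (hi.bijective_of_nat_card_le h.card.ge).2 ⟨v, hv⟩
  exact ⟨x, x.2, congrArg Subtype.val hx⟩

theorem UP : U ≤ P := fun u hu => h.memP (h.UQ hu) (cent_symm (fun v hv => by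
  by_contra h1
  obtain ⟨x, -, e⟩ := h.surj h1 (fun u hu => by
    convert mul_mem hv (conj_mem_of_norm (h.UM hu) (inv_mem hv)) using 1; group) hv
  apply h1
  have : v = 1 := by
    calc v = x⁻¹ * (v⁻¹ * (v * x * v⁻¹ * x⁻¹))⁻¹ * x := by group
      _ = 1 := by rw [e]; group
  exact this ▸ one_mem _) hu)

theorem cP {x y : G} (hx : x ∈ U) (h1 : x ≠ 1) (hy : y ∈ P) (e : y * x = x * y) : y ∈ 𝐂(U) :=
  h.cU hx h1 e fun _ hu => h.cm hy (h.UP hu)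

theorem surjP {y : G} (hy : y ∈ P) (h1 : y ∉ 𝐂(U)) {v : G} (hv : v ∈ V) :
    ∃ x ∈ U, y * x * y⁻¹ * x⁻¹ = v := h.surj h1 (fun _ hu => h.cm hy (h.UP hu)) hv

theorem exX : ∃ X, Pr V Q P X ∧ ¬ X ≤ 𝐂(U) := by
  by_contra! hc
  have hm : ∀ m ∈ 𝐍(V), m ⋆ U ≤ 𝐂(U) := fun m hm => hc _ ⟨h.toBig, by
    obtain ⟨g, rfl⟩ := h.cj
    exact ⟨_, conj_conj m g V⟩, fun e => h.ne (by
      rw [conj_eq_iff_eq_inv_conj.1 e, conj_eq_of_norm (inv_mem hm)]),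
    conj_le_of_norm h.UQ (h.MQ hm)⟩
  have := h.abel (A := closure {x | ∃ m ∈ 𝐍(V), ∃ u ∈ U, x = m * u * m⁻¹})
    ((closure_le _).2 (by
      rintro _ ⟨m, hm, u, hu, rfl⟩
      exact conj_mem_of_norm (h.MP hm) (h.UP hu)))
    (isMulCommutative_closure (by
      rintro _ ⟨m, hm1, u, hu, rfl⟩ _ ⟨n, hn, w, hw, rfl⟩
      have := mem_cent.1 (hm _ (mul_mem (inv_mem hn) hm1) (conj_mem_conj.2 hu)) w hw
      calc m * u * m⁻¹ * (n * w * n⁻¹) = n * (n⁻¹ * m * u * (n⁻¹ * m)⁻¹ * w) * n⁻¹ := by group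
        _ = _ := by rw [← this]; group))
    (le_normalizer_closure_iff.2 (by
      rintro n hn _ ⟨m, hm, u, hu, rfl⟩
      exact subset_closure ⟨n * m, mul_mem hn hm, u, hu, by group⟩))
  obtain ⟨u, hu, h1⟩ := h.exU
  exact h1 (h.disj hu (this (subset_closure ⟨1, one_mem _, u, hu, by group⟩)))

theorem XU {X : Subgroup G} (hX : Pr V Q P X) (hn : ¬ X ≤ 𝐂(U)) {x : G} (hx : x ∈ X) (h1 : x ≠ 1) :
    x ∉ 𝐂(U) := fun e =>
  hn (cent_symm fun u hu => hX.cP hx h1 (h.UP hu) (mem_cent.1 e u hu))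

theorem tr {u v : G} (hu : u ∈ U) (h1 : u ≠ 1) (hv : v ∈ V) : ∃ y ∈ P, y * u * y⁻¹ = v * u := by
  obtain ⟨X, hX, hn⟩ := h.exX
  obtain ⟨y, hy, e⟩ := hX.surjP (h.UP hu) (hX.XU h (fun e => hn (cent_symm e)) hu h1) (inv_mem hv)
  refine ⟨y, hX.UP hy, ?_⟩
  calc y * u * y⁻¹ = (u * y * u⁻¹ * y⁻¹)⁻¹ * u := by group
    _ = _ := by rw [e, inv_inv]

theorem dec {X : Subgroup G} (hX : Pr V Q P X) (hn : ¬ X ≤ 𝐂(U)) {p : G} (hp : p ∈ P) :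
    ∃ y ∈ X, y⁻¹ * p ∈ 𝐂(U) := by
  obtain ⟨u, hu, h1⟩ := h.exU
  obtain ⟨y, hy, e⟩ := hX.surjP (h.UP hu) (hX.XU h (fun e => hn (cent_symm e)) hu h1)
    (h.cm (h.UP hu) hp)
  refine ⟨y, hy, h.cP hu h1 (mul_mem (inv_mem (hX.UP hy)) hp) ?_⟩
  calc y⁻¹ * p * u = y⁻¹ * (u * p * u⁻¹ * p⁻¹)⁻¹ * u * p := by group
    _ = _ := by rw [← e]; group

theorem memW {w : G} (hw : w ∈ V ⊔ U) : ∃ v ∈ V, ∃ u ∈ U, w = v * u :=
  exists_mul_of_mem_sup h.UM hw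

theorem WP : V ⊔ U ≤ P := sup_le h.VP h.UP

theorem WC : V ⊔ U ≤ 𝐂(V ⊔ U) := by
  have h1 : U ≤ 𝐂(U) := by
    obtain ⟨g, rfl⟩ := h.cj
    exact (h.conj g).VC
  have h2 := h.UP.trans h.PC
  exact sup_le (le_cent_sup h.VC (cent_symm h2)) (le_cent_sup h2 h1)

theorem cP0 {z : G} (hz : z ∈ P) (hc : z ∈ 𝐂(P ⊓ 𝐂(U))) : z ∈ V ⊔ U := by
  obtain ⟨X, hX, hn⟩ := h.exX
  obtain ⟨x, hx, h1⟩ := hX.exU
  obtain ⟨u, hu, e⟩ := h.surjP (hX.UP hx) (h.XU hX hn hx h1) (h.cm (hX.UP hx) hz)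
  have h2 : u⁻¹ * z ∈ P := mul_mem (inv_mem (h.UP hu)) hz
  have h3 : u⁻¹ * z ∈ 𝐂(X) := hX.cP hx h1 h2 (by
    calc u⁻¹ * z * x = u⁻¹ * (x * z * x⁻¹ * z⁻¹)⁻¹ * x * z := by group
      _ = _ := by rw [← e]; group)
  have h4 : u⁻¹ * z ∈ 𝐂(P ⊓ 𝐂(U)) := mul_mem (inv_mem (cent_symm (inf_le_right : P ⊓ 𝐂(U) ≤ _) hu)) hc
  have h5 : u⁻¹ * z ∈ V := h.zent h2 (mem_cent.2 fun p hp => by
    obtain ⟨y, hy, hy'⟩ := h.dec hX hn hp
    have e1 := mem_cent.1 h3 y hy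
    have e2 := mem_cent.1 h4 _ (mem_inf.2 ⟨mul_mem (inv_mem (hX.UP hy)) hp, hy'⟩)
    generalize u⁻¹ * z = c at e1 e2
    calc p * c = y * (y⁻¹ * p * c) := by group
      _ = (y * c) * (y⁻¹ * p) := by rw [e2]; group
      _ = _ := by rw [e1]; group)
  have := mul_mem (mem_sup_right hu : u ∈ V ⊔ U) (mem_sup_left h5)
  rwa [mul_inv_cancel_left] at this

theorem PW : P ≤ 𝐍(V ⊔ U) := le_norm_iff.2 fun p hp w hw => by
  have := mul_mem (mem_sup_left (h.cm hp (h.WP hw)) : _ ∈ V ⊔ U) hw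
  rwa [inv_mul_cancel_right] at this

theorem spread {w : G} (hw : w ∈ V ⊔ U) (h1 : w ∉ V) : ∃ y ∈ P, w ∈ y ⋆ U := by
  obtain ⟨v, hv, u, hu, rfl⟩ := h.memW hw
  obtain ⟨y, hy, e⟩ := h.tr hu (fun e => h1 (by simpa [e] using hv)) hv
  exact ⟨y, hy, e ▸ conj_mem_conj.2 hu⟩

theorem member {x : G} (h1 : x ⋆ V ≤ V ⊔ U) (h2 : x ∉ 𝐍(V)) : ∃ y ∈ P, x ⋆ V = y ⋆ U := by
  obtain ⟨v, hv, v1⟩ := h.exV
  have hw := conj_mem_conj (g := x).2 hv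
  obtain ⟨y, hy, e⟩ := h.spread (h1 hw) (fun e => h2 (h.ti x v hv v1 e))
  refine ⟨y, hy, ?_⟩
  obtain ⟨g, rfl⟩ := h.cj
  rw [conj_conj] at e ⊢
  exact h.eq_of_mem hw e (cj_ne_one x v1)

theorem exr {Q' R : Subgroup G} (h' : Big U Q' R) : ∃ r ∈ R, r ∉ 𝐍(V) ∧ r ⋆ V ≤ V ⊔ U := by
  haveI : Fact (Nat.Prime 2) := ⟨Nat.prime_two⟩
  by_cases hA : ∃ v ∈ V, v ≠ 1 ∧ v ∈ R
  · obtain ⟨v, hv, v1, hR⟩ := hA
    have h1 : v ∉ 𝐂(R) := fun e => v1 (h.disj (h'.zent hR e) hv)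
    rw [mem_cent] at h1
    push Not at h1
    obtain ⟨r, hr, h1⟩ := h1
    have h2 := h'.cm hr hR
    have h3 : r * v * r⁻¹ ∉ V := fun e => h1 (comm_of_cm (h.disj h2 (mul_mem e (inv_mem hv))))
    have h4 : r * v * r⁻¹ ∈ V ⊔ U := by
      have := mul_mem (mem_sup_right h2 : _ ∈ V ⊔ U) (mem_sup_left hv)
      rwa [inv_mul_cancel_right] at this
    obtain ⟨y, hy, e⟩ := h.spread h4 h3
    refine ⟨r, hr, fun e => h3 (conj_mem_of_norm e hv), ?_⟩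
    have h5 := conj_le_of_norm (le_sup_right : U ≤ V ⊔ U) (h.PW hy)
    obtain ⟨g, rfl⟩ := h.cj
    rw [conj_conj] at e h5
    rwa [h.eq_of_mem (conj_mem_conj.2 hv) e (cj_ne_one r v1)]
  push Not at hA
  have hB : ∀ v ∈ V, v ∈ R → v = 1 := fun v hv hR => by_contra fun e => hA v hv e hR
  set P0 := P ⊓ 𝐂(U) with hP0
  have V0 : V ≤ P0 := le_inf h.VP (cent_symm (h.UP.trans h.PC))
  have U0 : U ≤ P0 := le_inf h.UP h'.VC
  have n0 : P0 ≤ 𝐍(R) := (norm_of_cent inf_le_right).trans h'.MP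
  have pT : IsPGroup 2 ↥(R ⊔ P0) := pgroup_sup h'.pP (h.pP.to_le inf_le_left) n0
  have hlt : (R ⊔ P0) ⊓ 𝐍(V) < R ⊔ P0 := by
    refine lt_of_le_of_ne inf_le_left fun e => ?_
    have h1 : R ≤ 𝐍(V) := le_sup_left.trans (inf_eq_left.1 e)
    obtain ⟨v, hv, v1⟩ := h.exV
    refine v1 (hB v hv (h'.kk (V0 hv).2 fun r hr => ?_))
    have : v * r * v⁻¹ * r⁻¹ = 1 := hB _ (by
      convert mul_mem hv (conj_mem_of_norm (h1 hr) (inv_mem hv)) using 1; group)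
      (mul_mem (conj_mem_of_norm (n0 (V0 hv)) hr) (inv_mem hr))
    exact this ▸ one_mem _
  set S := (R ⊔ P0) ⊓ 𝐍(V) with hS
  have S0 : P0 ≤ S := le_inf le_sup_right (inf_le_left.trans h.PM)
  obtain ⟨t, ⟨ht, ht'⟩, htS⟩ := SetLike.exists_of_lt (lt_inf_normalizer_of_lt pT hlt)
  obtain ⟨p0, hp0, r, hr, rfl⟩ := exists_mul_of_mem_sup' n0 ht
  have r1 : r ∈ 𝐍(S) := by
    have := mul_mem (inv_mem (le_norm S (S0 hp0))) ht'
    rwa [inv_mul_cancel_left] at this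
  have r2 : r ∉ 𝐍(V) := fun e => htS ⟨ht, mul_mem (S0 hp0).2 e⟩
  refine ⟨r, hr, r2, conj_le_iff.2 fun v hv => ?_⟩
  set a := r * v * r⁻¹ with ha
  have aM : a ∈ 𝐍(V) := (conj_mem_of_norm r1 (S0 (V0 hv))).2
  have a0 : a ∈ 𝐂(P0) := mem_cent.2 fun p hp => comm_of_cm (by
    have e1 : r⁻¹ * (p * a * p⁻¹ * a⁻¹) * r ∈ V := by
      convert mul_mem (conj_mem_of_norm (conj_mem_of_norm' r1 (S0 hp)).2 hv) (inv_mem hv) using 1
      rw [ha]; group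
    have e2 : p * a * p⁻¹ * a⁻¹ ∈ R := by
      have f1 : v⁻¹ * r * v * r⁻¹ ∈ R := mul_mem (conj_mem_of_norm' (n0 (V0 hv)) hr) (inv_mem hr)
      have f2 := conj_mem_of_norm (n0 (V0 hv)) (mul_mem (conj_mem_of_norm (n0 hp) f1) (inv_mem f1))
      convert f2 using 1
      rw [← mul_assoc v, ← mul_assoc v, ← mul_assoc v, h.pc hp.1 hv, ha]; group
    have e3 := hB _ e1 (mul_mem (mul_mem (inv_mem hr) e2) hr)
    calc p * a * p⁻¹ * a⁻¹ = r * (r⁻¹ * (p * a * p⁻¹ * a⁻¹) * r) * r⁻¹ := by group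
      _ = 1 := by rw [e3]; group)
  have nP0 : P ≤ 𝐍(P0) := norm_of_comm_le_of_le (h.der.trans V0) inf_le_left
  obtain ⟨X, hX, hn⟩ := h.exX
  have aX : ∀ x ∈ X, a * x * a⁻¹ * x⁻¹ ∈ V := fun x hx => by
    by_cases x1 : x = 1
    · simp [x1]
    have xP := hX.UP hx
    obtain ⟨w, hw, u, hu, e⟩ := h.memW (h.cP0 (z := a * x * a⁻¹ * x⁻¹)
      (mul_mem (conj_mem_of_norm (h.MP aM) xP) (inv_mem xP)) (by
        convert mul_mem a0 (conj_mem_of_norm (norm_cent nP0 xP) (inv_mem a0)) using 1; group))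
    by_cases u1 : u = 1
    · rw [e, u1, mul_one]; exact hw
    refine (h.XU hX hn hx x1 (h.cP hu u1 xP ?_)).elim
    have e1 : a * x * a⁻¹ = w * u * x := by rw [← e]; group
    have e2 : w * u * x * (w * u * x) = 1 := by rw [← e1, conj_mul, hX.sqU hx]; group
    have e3 := h.pc (mul_mem (h.UP hu) xP) hw
    have e4 : u * x * (u * x) = 1 := by
      calc u * x * (u * x) = (w * w) * (u * x) * (u * x) := by rw [h.sq w hw, one_mul]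
        _ = w * (w * (u * x)) * (u * x) := by group
        _ = 1 := by rw [e3, ← e2]; group
    rw [← inv_eq_of_mul_self e4, mul_inv_rev, inv_eq_of_mul_self (hX.sqU hx),
      inv_eq_of_mul_self (h.sqU hu)]
  refine h.cP0 (h.kk (cent_anti V0 a0) fun p hp => ?_) a0
  obtain ⟨y, hy, hy'⟩ := h.dec hX hn hp
  have e := mem_cent.1 a0 _ ((mem_inf.2 ⟨mul_mem (inv_mem (hX.UP hy)) hp, hy'⟩) : y⁻¹ * p ∈ P0)
  convert aX y hy using 1
  calc a * p * a⁻¹ * p⁻¹ = a * y * a⁻¹ * (a * (y⁻¹ * p)) * a⁻¹ * p⁻¹ := by group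
    _ = _ := by rw [← e]; group

theorem swap {Q' R : Subgroup G} (h' : Big U Q' R) : ∃ c, c ⋆ V = U ∧ c ⋆ U = V := by
  obtain ⟨r, hr, r1, r2⟩ := h.exr h'
  have r3 : r ∈ 𝐍(V ⊔ U) := mem_normalizer_of_conj_le (by
    rw [conj_sup, conj_eq_of_norm (h'.PM hr)]; exact sup_le r2 le_sup_right)
  obtain ⟨y, hy, e⟩ := h.member r2 r1
  obtain ⟨y', hy', e'⟩ := h.member (conj_le_of_norm le_sup_left (inv_mem r3)) (mt inv_mem_iff.1 r1)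
  refine ⟨y'⁻¹ * r⁻¹ * y, ?_, ?_⟩
  · rw [← conj_conj, ← conj_conj, conj_eq_of_norm (h.PM hy), e', inv_conj_conj]
  · rw [← conj_conj, ← conj_conj, ← e, inv_conj_conj, conj_eq_of_norm (inv_mem (h.PM hy'))]

theorem symm {g : G} (hg : U = g ⋆ V) : Pr U (g ⋆ Q) (g ⋆ P) V := by
  subst hg
  obtain ⟨c, h1, h2⟩ := h.swap (h.conj g)
  refine ⟨h.conj g, ⟨c, h2.symm⟩, h.ne.symm, ?_⟩
  rw [← h.conjQ h1, ← h2]
  exact conj_mono c h.UQ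

theorem fuse {Q' R : Subgroup G} (h' : Pr U Q' R V) {v u : G} (hv : v ∈ V) (v1 : v ≠ 1) (hu : u ∈ U)
    (u1 : u ≠ 1) : ∃ c, c * v * c⁻¹ = u := by
  obtain ⟨r, -, e⟩ := h'.tr hv v1 hu
  obtain ⟨y, -, e'⟩ := h.tr hu u1 hv
  refine ⟨y⁻¹ * r, ?_⟩
  calc y⁻¹ * r * v * (y⁻¹ * r)⁻¹ = y⁻¹ * (r * v * r⁻¹) * y := by group
    _ = _ := by rw [e, ← h.pc (h.UP hu) hv, ← e']; group

theorem eqQ {Q' R : Subgroup G} (h' : Pr U Q' R V) : P = Q := by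
  haveI : Fact (Nat.Prime 2) := ⟨Nat.prime_two⟩
  obtain ⟨v0, hv0, v01⟩ := h.exV
  obtain ⟨v, ⟨hv, hc⟩, v1⟩ := exists_ne_one
    (PGroup.inf_centralizer_ne_bot h.pV h.pQ h.QM (ne_bot_of_mem hv0 v01))
  obtain ⟨u, hu, u1⟩ := h.exU
  refine le_antisymm h.PQ fun q hq => h.memP hq (cent_symm (fun w hw => ?_) hq)
  by_cases w1 : w = 1
  · exact w1 ▸ one_mem _
  obtain ⟨c, e⟩ := h.fuse h' hv v1 hu u1
  obtain ⟨d, e'⟩ := h.fuse h' hw w1 hu u1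
  have e2 : d⁻¹ * c * v * (d⁻¹ * c)⁻¹ = w := by
    calc d⁻¹ * c * v * (d⁻¹ * c)⁻¹ = d⁻¹ * (c * v * c⁻¹) * d := by group
      _ = _ := by rw [e, ← e']; group
  exact e2 ▸ conj_mem_of_norm (norm_cent h.MQ (h.ti _ v hv v1 (e2 ▸ hw))) hc

theorem derEq : ⁅P, P⁆ = V := le_antisymm h.der fun v hv => by
  obtain ⟨u, hu, u1⟩ := h.exU
  obtain ⟨y, hy, e⟩ := h.tr hu u1 hv
  have := comm_mem_comm hy (h.UP hu)
  rwa [e, mul_inv_cancel_right] at this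

theorem uniq {w : G} (hw : w ∈ V ⊔ U) (w1 : w ≠ 1) :
    ∃! Y : Subgroup G, (∃ x : G, Y = x ⋆ V) ∧ Y ≤ V ⊔ U ∧ w ∈ Y := by
  refine existsUnique_of_exists_of_unique ?_ ?_
  · by_cases h1 : w ∈ V
    · exact ⟨V, ⟨1, (conj_one V).symm⟩, le_sup_left, h1⟩
    obtain ⟨y, hy, e⟩ := h.spread hw h1
    refine ⟨_, ?_, conj_le_of_norm le_sup_right (h.PW hy), e⟩
    obtain ⟨g, rfl⟩ := h.cj
    exact ⟨_, conj_conj _ _ _⟩
  · rintro _ _ ⟨⟨x, rfl⟩, -, h1⟩ ⟨⟨y, rfl⟩, -, h2⟩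
    exact h.eq_of_mem h1 h2 w1

theorem quot {g : G} (hg : U = g ⋆ V)
    [hN : (𝐂(V ⊔ U).subgroupOf (P ⊔ g ⋆ P)).Normal] :
    ∃ (F : Type) (_ : Field F) (_ : Fintype F), Fintype.card F = Nat.card V ∧
      Nonempty (↥(P ⊔ g ⋆ P) ⧸ 𝐂(V ⊔ U).subgroupOf (P ⊔ g ⋆ P) ≃*
        Matrix.SpecialLinearGroup (Fin 2) F) := by
  have h' := h.symm hg
  have RW : g ⋆ P ≤ 𝐍(V ⊔ U) := sup_comm U V ▸ h'.PW
  have HW : P ⊔ g ⋆ P ≤ 𝐍(V ⊔ U) := sup_le h.PW RW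
  obtain ⟨v, hv, v1⟩ := h.exV
  obtain ⟨u, hu, u1⟩ := h.exU
  obtain ⟨r, hr, er⟩ := h'.tr hv v1 hu
  have r1 : r ∉ 𝐍(V) := fun e => u1 (h.disj hu (by
    have := mul_mem (conj_mem_of_norm e hv) (inv_mem hv)
    rwa [er, mul_inv_cancel_right] at this))
  obtain ⟨y, hy, ey⟩ := h.member (conj_le_of_norm le_sup_left (RW hr)) r1
  have tV : (y⁻¹ * r * y) ⋆ V = U := by
    rw [← conj_conj, ← conj_conj, conj_eq_of_norm (h.PM hy), ey, inv_conj_conj]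
  have tt : y⁻¹ * r * y * (y⁻¹ * r * y) ∈ 𝐂(V ⊔ U) := by
    convert h.WC (conj_mem_of_norm' (h.PW hy) (mem_sup_right (h'.sqP hr))) using 1; group
  have tP : (y⁻¹ * r * y) ⋆ P = g ⋆ P := h.conjP (tV.trans hg)
  have tH : y⁻¹ * r * y ∈ P ⊔ g ⋆ P :=
    mul_mem (mul_mem (inv_mem (mem_sup_left hy)) (mem_sup_right hr)) (mem_sup_left hy)
  have tel : ∃ c ∈ P ⊔ g ⋆ P, c * (y⁻¹ * r * y) * c⁻¹ ∈ P :=
    ⟨_, mul_mem (inv_mem tH) (mem_sup_left hy), by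
      rw [← tP] at hr
      convert mem_conj.1 hr using 1; group⟩
  generalize y⁻¹ * r * y = t at tV tt tP tH tel
  have CV : 𝐂(V ⊔ U) ≤ 𝐍(V) := norm_of_cent (cent_anti le_sup_left)
  have tV' : t⁻¹ ⋆ V = U := by
    rw [← tV, eq_comm, conj_eq_iff_eq_inv_conj, conj_conj, ← mul_inv_rev,
      conj_eq_of_norm (inv_mem (CV tt))]
  obtain ⟨X, hX, hn⟩ := h.exX
  have PH : P ≤ P ⊔ g ⋆ P := le_sup_left
  have Hgen : P ⊔ g ⋆ P = P ⊔ t ⋆ P := by rw [tP]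
  generalize P ⊔ g ⋆ P = H at *
  set π := QuotientGroup.mk' (𝐂(V ⊔ U).subgroupOf H) with hπ
  have πs : Function.Surjective π := QuotientGroup.mk'_surjective _
  have πe : ∀ a b : H, π a = π b ↔ (a : G)⁻¹ * b ∈ 𝐂(V ⊔ U) := fun a b => QuotientGroup.eq
  have π1 : ∀ a : H, π a = 1 ↔ (a : G) ∈ 𝐂(V ⊔ U) := fun a => QuotientGroup.eq_one_iff a
  have memH : ∀ a : H, π a ∈ (𝐍(V).subgroupOf H).map π ↔ (a : G) ∈ 𝐍(V) := fun a =>
    ⟨fun ⟨b, hb, e⟩ => by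
      have := mul_mem (show (b : G) ∈ 𝐍(V) from hb) (CV ((πe _ _).1 e))
      rwa [mul_inv_cancel_left] at this, fun e => ⟨a, e, rfl⟩⟩
  have hE : Elation.El ((𝐍(V).subgroupOf H).map π) ((P.subgroupOf H).map π) (π ⟨t, tH⟩) := by
    refine ⟨?_, fun e => h.ne ?_, map_mono fun a ha => h.PM ha, map_norm π (le_norm_iff.2
      fun a ha p hp => (conj_mem_of_norm (h.MP ha) hp : (a : G) * p * (a : G)⁻¹ ∈ P)), fun a ha => ?_, ?_, ?_, ?_, ?_⟩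
    · rw [← map_mul, π1]; exact tt
    · rw [← tV, conj_eq_of_norm ((memH _).1 e)]
    · obtain ⟨a, rfl⟩ := πs a
      rw [memH] at ha
      obtain ⟨y, hy, e⟩ := h.member (conj_le_of_norm le_sup_left (inv_mem (HW a.2)))
        (mt inv_mem_iff.1 ha)
      refine ⟨π (a * ⟨y, PH hy⟩ * ⟨t, tH⟩⁻¹), (memH _).2 (norm_of_conj_eq ?_), π ⟨y, PH hy⟩⁻¹,
        ⟨_, inv_mem hy, rfl⟩, by simp⟩
      change ((a : G) * y * t⁻¹) ⋆ V = V
      rw [← conj_conj, ← conj_conj, tV', ← e, conj_inv_conj]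
    · rintro _ ⟨p, hp, rfl⟩ e
      rw [← map_inv, ← map_mul, ← map_mul, memH] at e
      have e1 : (p : G) ∈ 𝐍(U) := by
        rw [← tV', ← conj_normalizer, mem_conj, inv_inv]; exact e
      rw [π1, cent_sup]
      exact ⟨h.PC hp, h.cU hu u1 (comm_of_cm (h.disj (mul_mem (conj_mem_of_norm e1 hu) (inv_mem hu))
        (h.cm hp (h.UP hu)))) fun w hw => h.cm hp (h.UP hw)⟩
    · rintro _ ⟨p, hp, rfl⟩
      rw [← map_mul, π1]
      exact h.WC (mem_sup_left (h.sqP hp))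
    · obtain ⟨c, hc, e⟩ := tel
      exact ⟨π ⟨c, hc⟩, ⟨c, hc⟩ * ⟨t, tH⟩ * ⟨c, hc⟩⁻¹, e, by rw [map_mul, map_mul, map_inv]⟩
    · rw [← MonoidHom.map_zpowers, ← Subgroup.map_sup, ← map_top_of_surjective π πs]
      congr 1
      apply map_injective H.subtype_injective
      rw [Subgroup.map_sup, subgroupOf_map_subtype, inf_of_le_left PH, MonoidHom.map_zpowers,
        ← MonoidHom.range_eq_map, range_subtype]
      refine le_antisymm (sup_le PH (zpowers_le.2 tH)) (Hgen.le.trans (sup_le le_sup_left ?_))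
      exact conj_le_of_mem le_sup_left (mem_sup_right (mem_zpowers t))
  obtain ⟨F, _, _, e, i⟩ := hE.main
  refine ⟨F, inferInstance, inferInstance, ?_, i⟩
  rw [e, ← hX.card]
  symm
  refine Nat.card_eq_of_bijective (fun x => ⟨π ⟨x, PH (hX.UP x.2)⟩, _, hX.UP x.2, rfl⟩)
    ⟨fun a b e => ?_, ?_⟩
  · have := (πe _ _).1 (congrArg Subtype.val e)
    by_contra hne
    exact h.XU hX hn (mul_mem (inv_mem a.2) b.2) (fun e => hne (Subtype.ext (inv_mul_eq_one.1 e)))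
      (cent_anti le_sup_right this)
  · rintro ⟨_, p, hp, rfl⟩
    obtain ⟨y, hy, e⟩ := h.dec hX hn hp
    refine ⟨⟨y, hy⟩, Subtype.ext ((πe _ _).2 ?_)⟩
    rw [cent_sup]
    exact ⟨h.PC (mul_mem (inv_mem (hX.UP hy)) hp), e⟩

end Pr

end Cfsg.Lib.CharDeg.LargeTI
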