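import Cfsg.Prelude.Def_AxialAlgebras

/-! Majorana axes: eigenvector calculus and Sakuma's six-transposition theorem. -/

set_option autoImplicit false

namespace Cfsg.Lib.CharDeg.Majorana

open Cfsg.Axial

variable {V : Type*} [AddCommGroup V] [Module ℝ V] {mul : V →ₗ[ℝ] V →ₗ[ℝ] V}
  {B : LinearMap.BilinForm ℝ V}

/-- Unpacked form of a Majorana pair with normalised axis. -/
structure Ax (mul : V →ₗ[ℝ] V →ₗ[ℝ] V) (B : LinearMap.BilinForm ℝ V) (μ : V ≃ₗ[ℝ] V) (a : V) :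
    Prop where
  idem : mul a a = a
  norm : B a a = 1
  hom : ∀ u v, μ (mul u v) = mul (μ u) (μ v)
  iso : ∀ u v, B (μ u) (μ v) = B u v
  dec : ∀ v, ∃ (c : ℝ) (α β γ : V), v = c • a + α + β + γ ∧ mul a α = 0 ∧
    mul a β = (1 / 4 : ℝ) • β ∧ mul a γ = (1 / 32 : ℝ) • γ
  fixa : μ a = a
  fix0 : ∀ v, mul a v = 0 → μ v = v
  fix4 : ∀ v, mul a v = (1 / 4 : ℝ) • v → μ v = v
  neg32 : ∀ v, mul a v = (1 / 32 : ℝ) • v → μ v = -v
  f00 : ∀ u v, mul a u = 0 → mul a v = 0 → mul a (mul u v) = 0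
  f04 : ∀ u v, mul a u = 0 → mul a v = (1 / 4 : ℝ) • v → mul a (mul u v) = (1 / 4 : ℝ) • mul u v
  f44 : ∀ u v, mul a u = (1 / 4 : ℝ) • u → mul a v = (1 / 4 : ℝ) • v →
    ∃ κ : ℝ, mul a (mul u v) = κ • a

theorem mem_eigen {a v : V} {c : ℝ} : v ∈ eigen mul a c ↔ mul a v = c • v :=
  Module.End.mem_eigenspace_iff

theorem eigenSum_insert (a : V) (c : ℝ) (S : Set ℝ) :
    eigenSum mul a (insert c S) = eigen mul a c ⊔ eigenSum mul a S := iSup_insert

theorem eigenSum_singleton (a : V) (c : ℝ) : eigenSum mul a {c} = eigen mul a c := iSup_singleton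

theorem law00 : monsterLaw (1 / 4 : ℝ) (1 / 32) 0 0 = {0} := by
  delta monsterLaw; norm_num

theorem law04 : monsterLaw (1 / 4 : ℝ) (1 / 32) 0 (1 / 4) = {1 / 4} := by
  delta monsterLaw; norm_num

theorem law44 : monsterLaw (1 / 4 : ℝ) (1 / 32) (1 / 4) (1 / 4) = {1, 0} := by
  delta monsterLaw; norm_num

theorem ax_of_pair {μ : V ≃ₗ[ℝ] V} {a : V} (h : IsMajoranaPair mul B μ a) (hn : B a a = 1) :
    Ax mul B μ a := by
  obtain ⟨h1, h2, ⟨⟨-, h3, h4, h5⟩, h6⟩, h7, h8⟩ := h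
  have hS : majoranaSpectrum = ({1, 0, 1 / 4, 1 / 32} : Set ℝ) := rfl
  rw [hS] at h4 h5
  rw [eigenSum_insert, eigenSum_insert, eigenSum_insert, eigenSum_singleton] at h4
  rw [eigenSum_insert, eigenSum_insert, eigenSum_singleton] at h7
  refine ⟨h3, hn, h1, h2, fun v => ?_, ?_, fun v hv => ?_, fun v hv => ?_, fun v hv => ?_,
    fun u v hu hv => ?_, fun u v hu hv => ?_, fun u v hu hv => ?_⟩
  · have hv : v ∈ (⊤ : Submodule ℝ V) := Submodule.mem_top
    rw [← h4] at hv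
    obtain ⟨x, hx, y, hy, rfl⟩ := Submodule.mem_sup.1 hv
    obtain ⟨α, hα, z, hz, rfl⟩ := Submodule.mem_sup.1 hy
    obtain ⟨β, hβ, γ, hγ, rfl⟩ := Submodule.mem_sup.1 hz
    rw [h6] at hx
    obtain ⟨c, rfl⟩ := Submodule.mem_span_singleton.1 hx
    exact ⟨c, α, β, γ, by abel, by simpa using mem_eigen.1 hα, mem_eigen.1 hβ, mem_eigen.1 hγ⟩
  · exact h7 a (Submodule.mem_sup_left (mem_eigen.2 (by rw [h3, one_smul])))
  · exact h7 v (Submodule.mem_sup_right (Submodule.mem_sup_left (mem_eigen.2 (by simpa using hv))))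
  · exact h7 v (Submodule.mem_sup_right (Submodule.mem_sup_right (mem_eigen.2 hv)))
  · exact h8 v (mem_eigen.2 hv)
  · have := h5 0 (by simp) 0 (by simp) u (mem_eigen.2 (by simpa using hu)) v
      (mem_eigen.2 (by simpa using hv))
    rw [law00, eigenSum_singleton] at this
    simpa using mem_eigen.1 this
  · have := h5 0 (by simp) (1 / 4) (by simp) u (mem_eigen.2 (by simpa using hu)) v
      (mem_eigen.2 hv)
    rw [law04, eigenSum_singleton] at this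
    exact mem_eigen.1 this
  · have := h5 (1 / 4) (by simp) (1 / 4) (by simp) u (mem_eigen.2 hu) v (mem_eigen.2 hv)
    rw [law44, eigenSum_insert, eigenSum_singleton, h6] at this
    obtain ⟨x, hx, y, hy, e⟩ := Submodule.mem_sup.1 this
    obtain ⟨c, rfl⟩ := Submodule.mem_span_singleton.1 hx
    refine ⟨c, ?_⟩
    rw [← e, map_add, map_smul, h3, mem_eigen.1 hy, zero_smul, add_zero]

namespace Ax

variable {μ μ' : V ≃ₗ[ℝ] V} {a : V}

theorem apply_dec (h : Ax mul B μ a) {c : ℝ} {α β γ : V} (hα : mul a α = 0)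
    (hβ : mul a β = (1 / 4 : ℝ) • β) (hγ : mul a γ = (1 / 32 : ℝ) • γ) :
    μ (c • a + α + β + γ) = c • a + α + β - γ := by
  rw [map_add, map_add, map_add, map_smul, h.fixa, h.fix0 _ hα, h.fix4 _ hβ, h.neg32 _ hγ]
  abel

theorem unique (h : Ax mul B μ a) (h' : Ax mul B μ' a) : μ = μ' := by
  ext v
  obtain ⟨c, α, β, γ, rfl, hα, hβ, hγ⟩ := h.dec v
  rw [h.apply_dec hα hβ hγ, h'.apply_dec hα hβ hγ]

theorem invol (h : Ax mul B μ a) (v : V) : μ (μ v) = v := by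
  obtain ⟨c, α, β, γ, rfl, hα, hβ, hγ⟩ := h.dec v
  rw [h.apply_dec hα hβ hγ, sub_eq_add_neg, h.apply_dec hα hβ (by rw [map_neg, hγ, smul_neg])]
  abel

theorem mul_self (h : Ax mul B μ a) : μ * μ = 1 := by
  ext v; exact h.invol v

theorem conj (h : Ax mul B μ a) (g : V ≃ₗ[ℝ] V) (hg : ∀ u v, g (mul u v) = mul (g u) (g v))
    (hB : ∀ u v, B (g u) (g v) = B u v) : Ax mul B (g * μ * g⁻¹) (g a) := by
  have e : ∀ v, (g * μ * g⁻¹) (g v) = g (μ v) := fun v => by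
    change g (μ (g.symm (g v))) = _
    rw [g.symm_apply_apply]
  have e0 : ∀ v, mul (g a) (g v) = 0 → mul a v = 0 := fun v hv => by
    rwa [← hg, g.map_eq_zero_iff] at hv
  have e1 : ∀ (c : ℝ) v, mul (g a) (g v) = c • g v → mul a v = c • v := fun c v hv => by
    rw [← hg, ← map_smul] at hv; exact g.injective hv
  refine ⟨by rw [← hg, h.idem], by rw [hB, h.norm], fun u v => ?_, fun u v => ?_, fun v => ?_,
    by rw [e, h.fixa], fun v hv => ?_, fun v hv => ?_, fun v hv => ?_,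
    fun u v hu hv => ?_, fun u v hu hv => ?_, fun u v hu hv => ?_⟩
  all_goals try obtain ⟨u, rfl⟩ := g.surjective u
  all_goals obtain ⟨v, rfl⟩ := g.surjective v
  · rw [← hg, e, e, e, h.hom, hg]
  · rw [e, e, hB, hB, h.iso]
  · obtain ⟨c, α, β, γ, rfl, hα, hβ, hγ⟩ := h.dec v
    refine ⟨c, g α, g β, g γ, by simp, ?_, ?_, ?_⟩
    · rw [← hg, hα, map_zero]
    · rw [← hg, hβ, map_smul]
    · rw [← hg, hγ, map_smul]
  · rw [e, h.fix0 v (e0 v hv)]
  · rw [e, h.fix4 v (e1 _ v hv)]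
  · rw [e, h.neg32 v (e1 _ v hv), map_neg]
  · rw [← hg, ← hg, h.f00 u v (e0 u hu) (e0 v hv), map_zero]
  · rw [← hg, ← hg, h.f04 u v (e0 u hu) (e1 _ v hv), map_smul]
  · obtain ⟨κ, hκ⟩ := h.f44 u v (e1 _ u hu) (e1 _ v hv)
    exact ⟨κ, by rw [← hg, ← hg, hκ, map_smul]⟩

end Ax

theorem orth (hV : IsMajoranaAmbient mul B) {a u v : V} {c d : ℝ} (hu : mul a u = c • u)
    (hv : mul a v = d • v) (hcd : c ≠ d) : B u v = 0 := by
  obtain ⟨h1, -, -, h4, -⟩ := hV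
  have := h4 u a v
  rw [hv, h1 u a, hu] at this
  simp only [map_smul, LinearMap.smul_apply, smul_eq_mul] at this
  have h : (c - d) * B u v = 0 := by linarith
  exact (mul_eq_zero.1 h).resolve_left (sub_ne_zero.2 hcd)

theorem nonneg (hV : IsMajoranaAmbient mul B) (u : V) : 0 ≤ B u u := by
  by_cases h : u = 0
  · simp [h]
  · exact (hV.2.2.1 u h).le

theorem eq_zero (hV : IsMajoranaAmbient mul B) {u : V} (h : B u u ≤ 0) : u = 0 := by
  by_contra h0
  exact absurd (hV.2.2.1 u h0) (not_lt.2 h)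

theorem coeff (hV : IsMajoranaAmbient mul B) {μ : V ≃ₗ[ℝ] V} {a : V} (h : Ax mul B μ a)
    {c : ℝ} {α β γ : V} (hα : mul a α = 0) (hβ : mul a β = (1 / 4 : ℝ) • β)
    (hγ : mul a γ = (1 / 32 : ℝ) • γ) : B a (c • a + α + β + γ) = c := by
  have ha : mul a a = (1 : ℝ) • a := by rw [h.idem, one_smul]
  have h1 := orth hV ha (show mul a α = (0 : ℝ) • α by rw [hα, zero_smul]) (by norm_num)
  have h2 := orth hV ha hβ (by norm_num)
  have h3 := orth hV ha hγ (by norm_num)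
  simp [h1, h2, h3, h.norm]

theorem inner_nonneg (hV : IsMajoranaAmbient mul B) {a b : V} (ha : mul a a = a)
    (hb : mul b b = b) : 0 ≤ B a b := by
  have := hV.2.2.2.2 a b
  rw [ha, hb] at this
  exact (nonneg hV _).trans this

theorem inner_lt (hV : IsMajoranaAmbient mul B) {μ : V ≃ₗ[ℝ] V} {a b : V} (h : Ax mul B μ a)
    (hb : mul b b = b) (hn : B b b = 1) (hne : a ≠ b) : B a b < 1 / 3 := by
  obtain ⟨c, α, β, γ, e, hα, hβ, hγ⟩ := h.dec b
  have hc : B a b = c := by rw [e]; exact coeff hV h hα hβ hγ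
  have ha : mul a a = (1 : ℝ) • a := by rw [h.idem, one_smul]
  have hα' : mul a α = (0 : ℝ) • α := by rw [hα, zero_smul]
  have hs := hV.2.1
  have o1 := orth hV ha hα' (by norm_num)
  have o2 := orth hV ha hβ (by norm_num)
  have o3 := orth hV ha hγ (by norm_num)
  have o4 := orth hV hα' hβ (by norm_num)
  have o5 := orth hV hα' hγ (by norm_num)
  have o6 := orth hV hβ hγ (by norm_num)
  have o1' := (hs _ _).trans o1
  have o2' := (hs _ _).trans o2
  have o3' := (hs _ _).trans o3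
  have o4' := (hs _ _).trans o4
  have o5' := (hs _ _).trans o5
  have o6' := (hs _ _).trans o6
  have n1 : c ^ 2 + B α α + B β β + B γ γ = 1 := by
    rw [← hn, e]
    simp only [map_add, map_smul, LinearMap.add_apply, LinearMap.smul_apply, smul_eq_mul, o1, o2,
      o3, o4, o5, o6, o1', o2', o3', o4', o5', o6', h.norm]
    ring
  have n2 : c ^ 2 + B β β / 4 + B γ γ / 32 = c := by
    have := hV.2.2.2.1 a b b
    rw [hb, hc] at this
    refine Eq.trans ?_ this.symm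
    rw [e]
    simp only [map_add, map_smul, LinearMap.add_apply, LinearMap.smul_apply, smul_eq_mul, o1, o2,
      o3, o4, o5, o6, o1', o2', o3', o4', o5', o6', h.norm, h.idem, hα, hβ, hγ, map_zero,
      LinearMap.zero_apply]
    ring
  have p1 := nonneg hV α
  have p2 := nonneg hV β
  have p3 := nonneg hV γ
  rw [hc]
  by_contra hlt
  push Not at hlt
  have hc1 : c ≤ 1 := by nlinarith
  rcases hc1.eq_or_lt with h1 | h1
  · subst h1
    rw [eq_zero hV (show B α α ≤ 0 by linarith), eq_zero hV (show B β β ≤ 0 by linarith),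
      eq_zero hV (show B γ γ ≤ 0 by linarith)] at e
    exact hne (by simpa using e.symm)
  have k : (1 - c) * (3 * c - 1) = - B α α - 7 / 8 * B γ γ := by linarith
  have k1 : 0 ≤ (1 - c) * (3 * c - 1) := mul_nonneg (by linarith) (by linarith)
  have z1 := eq_zero hV (show B α α ≤ 0 by linarith)
  have z3 := eq_zero hV (show B γ γ ≤ 0 by linarith)
  subst z1 z3
  obtain ⟨κ, hκ⟩ := h.f44 β β hβ hβ
  have hb' := congrArg (fun x => B β (mul a x)) hb
  rw [e] at hb'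
  simp only [map_add, map_smul, LinearMap.add_apply, LinearMap.smul_apply, smul_eq_mul, add_zero,
    h.idem, hβ, hV.1 β a, hκ, o2'] at hb'
  simp only [map_zero, LinearMap.zero_apply] at n1 n2
  have : B β β = 0 := by nlinarith
  nlinarith

/-- The `0`- and `1/4`-eigenvectors attached to a vector `b`. -/
theorem eigvec (hV : IsMajoranaAmbient mul B) {μ : V ≃ₗ[ℝ] V} {a : V} (h : Ax mul B μ a) (b s : V)
    (hs : mul a b = s + (1 / 32 : ℝ) • (a + b)) :
    mul a (μ b) = s + (1 / 32 : ℝ) • (a + μ b) ∧ μ s = s ∧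
    mul a ((-4 : ℝ) • s + (3 * B a b - 1 / 8) • a + (7 / 16 : ℝ) • (b + μ b)) = 0 ∧
    mul a ((4 : ℝ) • s + (1 / 8 - 4 * B a b) • a + (1 / 16 : ℝ) • (b + μ b)) =
      (1 / 4 : ℝ) • ((4 : ℝ) • s + (1 / 8 - 4 * B a b) • a + (1 / 16 : ℝ) • (b + μ b)) := by
  obtain ⟨c, α, β, γ, rfl, hα, hβ, hγ⟩ := h.dec b
  rw [coeff hV h hα hβ hγ, h.apply_dec hα hβ hγ]
  have e : s = (31 / 32 * c - 1 / 32) • a - (1 / 32 : ℝ) • α + (7 / 32 : ℝ) • β := by
    simp only [map_add, map_smul, h.idem, hα, hβ, hγ] at hs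
    linear_combination (norm := module) -hs
  subst e
  refine ⟨?_, ?_, ?_, ?_⟩
  · simp only [map_add, map_sub, map_smul, h.idem, hα, hβ, hγ]; module
  · simp only [map_add, map_sub, map_smul, h.fixa, h.fix0 _ hα, h.fix4 _ hβ]
  · simp only [map_add, map_sub, map_smul, h.idem, hα, hβ, hγ]; module
  · simp only [map_add, map_sub, map_smul, h.idem, hα, hβ, hγ]; module

theorem mul_sigma (hV : IsMajoranaAmbient mul B) {μ : V ≃ₗ[ℝ] V} {a : V} (h : Ax mul B μ a)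
    (b s : V) (hs : mul a b = s + (1 / 32 : ℝ) • (a + b)) :
    mul a s = (7 / 32 : ℝ) • s + (3 / 4 * B a b - 25 / 1024) • a + (7 / 2048 : ℝ) • (b + μ b) := by
  obtain ⟨h1, -, h3, -⟩ := eigvec hV h b s hs
  simp only [map_add, map_smul, h.idem, hs, h1] at h3
  linear_combination (norm := module) (-1 / 4 : ℝ) • h3

/-- The linear relation between six consecutive axes of a dihedral algebra. -/
theorem relation (hV : IsMajoranaAmbient mul B) {μ₀ μ₁ : V ≃ₗ[ℝ] V} {a₀ a₁ : V}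
    (h₀ : Ax mul B μ₀ a₀) (h₁ : Ax mul B μ₁ a₁) : ∃ p q : ℝ,
    μ₀ (μ₁ a₀) - μ₁ (μ₀ (μ₁ a₀)) + p • (a₀ - μ₁ a₀) + q • (μ₀ a₁ - μ₁ (μ₀ a₁)) = 0 := by
  have hc := hV.1
  obtain ⟨s, hs⟩ : ∃ s, mul a₀ a₁ = s + (1 / 32 : ℝ) • (a₀ + a₁) :=
    ⟨mul a₀ a₁ - (1 / 32 : ℝ) • (a₀ + a₁), by abel⟩
  obtain ⟨t, ht⟩ : ∃ t, mul a₁ (μ₀ a₁) = t + (1 / 32 : ℝ) • (a₁ + μ₀ a₁) :=
    ⟨mul a₁ (μ₀ a₁) - (1 / 32 : ℝ) • (a₁ + μ₀ a₁), by abel⟩
  obtain ⟨e, he⟩ : ∃ e, mul a₀ (μ₁ a₀) = e + (1 / 32 : ℝ) • (a₀ + μ₁ a₀) :=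
    ⟨mul a₀ (μ₁ a₀) - (1 / 32 : ℝ) • (a₀ + μ₁ a₀), by abel⟩
  have hs' : mul a₁ a₀ = s + (1 / 32 : ℝ) • (a₁ + a₀) := by rw [hc, hs, add_comm a₀]
  obtain ⟨m1, s0, hα, hβ⟩ := eigvec hV h₀ a₁ s hs
  obtain ⟨-, s1, -, -⟩ := eigvec hV h₁ a₀ s hs'
  obtain ⟨-, t1, -, -⟩ := eigvec hV h₁ _ t ht
  obtain ⟨m2, -, -, -⟩ := eigvec hV h₀ _ e he
  have e1 : μ₁ e = e := by
    have := congrArg μ₁ he
    rw [h₁.hom, h₁.invol, hc, he, map_add, map_smul, map_add, h₁.invol, add_comm (μ₁ a₀)] at this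
    exact (add_right_cancel this).symm
  have m3 := mul_sigma hV h₀ a₁ s hs
  have m4 := mul_sigma hV h₁ a₀ s hs'
  have m5 := congrArg μ₀ m4
  rw [h₀.hom, s0] at m5
  simp only [map_add, map_smul, s0, h₀.fixa] at m5
  have m6 : mul (μ₀ a₁) (μ₀ a₁) = μ₀ a₁ := by rw [← h₀.hom, h₁.idem]
  rw [hV.2.1 a₁ a₀] at m4 m5
  have E1 := h₀.f00 _ _ hα hα
  have E2 := h₀.f04 _ _ hα hβ
  obtain ⟨κ, E3⟩ := h₀.f44 _ _ hβ hβ
  generalize B a₀ a₁ = l at *
  have ss1 : μ₁ (mul s s) = mul s s := by rw [h₁.hom, s1]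
  have Z : (49 / 49152 : ℝ) • (μ₁ a₀ + μ₀ (μ₁ a₀)) = (4 : ℝ) • mul s s + (13 / 384 + 5 / 3 * l) • s +
      (119 / 96 * l - 147 / 8192 - 35 / 6 * l ^ 2 - 7 / 6 * κ) • a₀ +
      (245 / 49152 - 49 / 192 * l) • (a₁ + μ₀ a₁) + (7 / 384 : ℝ) • e - (7 / 512 : ℝ) • t := by
    simp only [map_add, map_smul, LinearMap.add_apply, LinearMap.smul_apply, h₀.idem, h₁.idem, hs,
      hs', ht, he, m1, m2, m3, m4, m5, m6, hc s a₀, hc s a₁, hc s (μ₀ a₁), hc (μ₀ a₁) a₀,
      hc (μ₀ a₁) a₁] at E1 E2 E3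
    linear_combination (norm := module) (1 / 6 : ℝ) • E1 - E2 - (7 / 6 : ℝ) • E3
  have Z' := congrArg μ₁ Z
  simp only [map_add, map_sub, map_smul, ss1, s1, t1, e1, h₁.fixa, h₁.invol] at Z'
  refine ⟨-1 - 49152 / 49 * (119 / 96 * l - 147 / 8192 - 35 / 6 * l ^ 2 - 7 / 6 * κ),
    -(49152 / 49) * (245 / 49152 - 49 / 192 * l), ?_⟩
  linear_combination (norm := module) (49152 / 49 : ℝ) • (Z - Z')

/-- Six normalised vectors with small non-negative inner products satisfy no relation of the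
shape above. -/
theorem no_relation (hV : IsMajoranaAmbient mul B) (x : Fin 6 → V) (hn : ∀ i, B (x i) (x i) = 1)
    (h0 : ∀ i j, 0 ≤ B (x i) (x j)) (h1 : ∀ i j, i ≠ j → B (x i) (x j) < 1 / 3) (p q : ℝ)
    (h : x 0 - x 1 + p • (x 2 - x 3) + q • (x 4 - x 5) = 0) : False := by
  have key : ∀ y : Fin 6 → V, (∀ i, B (y i) (y i) = 1) → (∀ i j, 0 ≤ B (y i) (y j)) →
      (∀ i j, i ≠ j → B (y i) (y j) < 1 / 3) → ∀ p q : ℝ, 0 ≤ p → 0 ≤ q →
      y 0 - y 1 + p • (y 2 - y 3) + q • (y 4 - y 5) = 0 → False := by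
    intro y hn h0 h1 p q hp hq h
    have e : y 0 + p • y 2 + q • y 4 = y 1 + p • y 3 + q • y 5 := by
      linear_combination (norm := module) h
    have e1 : B (y 0 + p • y 2 + q • y 4) (y 0 + p • y 2 + q • y 4) =
        B (y 0 + p • y 2 + q • y 4) (y 1 + p • y 3 + q • y 5) := by rw [← e]
    simp only [map_add, map_smul, LinearMap.add_apply, LinearMap.smul_apply, smul_eq_mul, hn] at e1
    have a1 := mul_nonneg hp (h0 0 2)
    have a2 := mul_nonneg hp (h0 2 0)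
    have a3 := mul_nonneg hq (h0 0 4)
    have a4 := mul_nonneg hq (h0 4 0)
    have a5 := mul_nonneg (mul_nonneg hp hq) (h0 2 4)
    have a6 := mul_nonneg (mul_nonneg hp hq) (h0 4 2)
    have b1 := h1 0 1 (by decide)
    have b2 := mul_le_mul_of_nonneg_left (h1 0 3 (by decide)).le hp
    have b3 := mul_le_mul_of_nonneg_left (h1 0 5 (by decide)).le hq
    have b4 := mul_le_mul_of_nonneg_left (h1 2 1 (by decide)).le hp
    have b5 := mul_le_mul_of_nonneg_left (h1 2 3 (by decide)).le (mul_nonneg hp hp)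
    have b6 := mul_le_mul_of_nonneg_left (h1 2 5 (by decide)).le (mul_nonneg hp hq)
    have b7 := mul_le_mul_of_nonneg_left (h1 4 1 (by decide)).le hq
    have b8 := mul_le_mul_of_nonneg_left (h1 4 3 (by decide)).le (mul_nonneg hp hq)
    have b9 := mul_le_mul_of_nonneg_left (h1 4 5 (by decide)).le (mul_nonneg hq hq)
    nlinarith [sq_nonneg (p - q), sq_nonneg (p - 1), sq_nonneg (q - 1)]
  have perm : ∀ σ : Equiv.Perm (Fin 6), ∀ p q : ℝ, 0 ≤ p → 0 ≤ q →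
      x (σ 0) - x (σ 1) + p • (x (σ 2) - x (σ 3)) + q • (x (σ 4) - x (σ 5)) = 0 → False :=
    fun σ => key (fun i => x (σ i)) (fun _ => hn _) (fun _ _ => h0 _ _)
      fun i j hij => h1 _ _ fun e => hij (σ.injective e)
  rcases le_total 0 p with hp | hp <;> rcases le_total 0 q with hq | hq
  · exact perm 1 p q hp hq h
  · refine perm (Equiv.swap 4 5) p (-q) hp (by linarith) ?_
    change x 0 - x 1 + p • (x 2 - x 3) + (-q) • (x 5 - x 4) = 0
    linear_combination (norm := module) h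
  · refine perm (Equiv.swap 2 3) (-p) q (by linarith) hq ?_
    change x 0 - x 1 + (-p) • (x 3 - x 2) + q • (x 4 - x 5) = 0
    linear_combination (norm := module) h
  · refine perm (Equiv.swap 2 3 * Equiv.swap 4 5) (-p) (-q) (by linarith) (by linarith) ?_
    change x 0 - x 1 + (-p) • (x 3 - x 2) + (-q) • (x 5 - x 4) = 0
    linear_combination (norm := module) h

end Cfsg.Lib.CharDeg.Majorana
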