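import Cfsg.Agent.Lib.HH.Ward
import Cfsg.Agent.Lib.Sig.Frob
import Cfsg.Agent.Lib.BG.T01_Cyclic
import Cfsg.Agent.Lib.PLocal.FPF
import Cfsg.Agent.Lib.Loc.WeakClosed
import Cfsg.Agent.Lib.PGroup.Holomorph

/-!
# Coprime action of an elementary abelian group of order `q²` with abelian centralizers: local analysis
-/

set_option autoImplicit false
set_option linter.unusedSectionVars false

namespace Cfsg.Lib.CharDeg.Mart

open Subgroup Cfsg.Lib.BG Cfsg.Lib.HH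
open scoped Cfsg.Lib.Transfer

universe u

variable {G : Type u} [Group G] {B C E H K M P Q R U V X Y : Subgroup G} {p q r : ℕ} {a b : G}

/-- The largest subgroup of `X` normalized by `B`. -/
def core (X B : Subgroup G) : Subgroup G where
  carrier := {x | ∀ b ∈ B, b * x * b⁻¹ ∈ X}
  one_mem' := fun b _ => by simp
  mul_mem' := fun {x y} hx hy b hb => by
    have := mul_mem (hx b hb) (hy b hb)
    rwa [show b * x * b⁻¹ * (b * y * b⁻¹) = b * (x * y) * b⁻¹ by group] at this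
  inv_mem' := fun {x} hx b hb => by
    have := inv_mem (hx b hb)
    rwa [show (b * x * b⁻¹)⁻¹ = b * x⁻¹ * b⁻¹ by group] at this

theorem core_le : core X B ≤ X := fun x hx => by simpa using hx 1 (one_mem B)

theorem norm_core : B ≤ 𝐍(core X B) := le_norm_iff.2 fun a ha x hx b hb => by
  have := hx (b * a) (mul_mem hb ha)
  rwa [show b * a * x * (b * a)⁻¹ = b * (a * x * a⁻¹) * b⁻¹ by group] at this

theorem le_core (h : Y ≤ X) (hB : B ≤ 𝐍(Y)) : Y ≤ core X B := fun _ hy _ hb => h (conj_mem_of_norm (hB hb) hy)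

theorem norm_core_of (h1 : C ≤ 𝐍(X)) (h2 : C ≤ 𝐍(B)) : C ≤ 𝐍(core X B) := le_norm_iff.2 fun c hc x hx b hb => by
  have := conj_mem_of_norm (h1 hc) (hx _ (conj_mem_of_norm' (h2 hc) hb))
  rwa [show c * (c⁻¹ * b * c * x * (c⁻¹ * b * c)⁻¹) * c⁻¹ = b * (c * x * c⁻¹) * b⁻¹ by group] at this

theorem norm_core_of' (h1 : C ≤ 𝐍(X)) (h2 : B ≤ 𝐍(C)) : C ≤ 𝐍(core X B) := le_norm_iff.2 fun c hc x hx b hb => by
  have := conj_mem_of_norm (h1 (conj_mem_of_norm (h2 hb) hc)) (hx b hb)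
  rwa [show b * c * b⁻¹ * (b * x * b⁻¹) * (b * c * b⁻¹)⁻¹ = b * (c * x * c⁻¹) * b⁻¹ by group] at this

variable [Finite G]

/-- A Frobenius group `U R` acting on a nilpotent group `V`: `[V, U]` is generated by the `U`-conjugates of
`C_V(R)`. -/
theorem frob_comm (hp : (Nat.card R).Prime) (hRU : R ≤ 𝐍(U)) (hf : U ⊓ 𝐂(R) = ⊥) (hUV : U ≤ 𝐍(V))
    (hRV : R ≤ 𝐍(V)) (c1 : (Nat.card U).Coprime (Nat.card V)) (c2 : (Nat.card R).Coprime (Nat.card V))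
    (c3 : (Nat.card R).Coprime (Nat.card U)) (hV : Group.IsNilpotent V) (hH : U ≤ 𝐍(H)) (h : V ⊓ 𝐂(R) ≤ H) :
    ⁅V, U⁆ ≤ H := by
  have hU0 : U ≤ 𝐍(core (V ⊓ H) R) := norm_core_of' (norm_inf hUV hH) hRU
  obtain ⟨L, hL, ⟨h1, h2, h3, h4⟩, hmax⟩ := Core.exists_maximal_ge
    (P := fun L => L ≤ V ∧ U ≤ 𝐍(L) ∧ R ≤ 𝐍(L) ∧ ⁅L, U⁆ ≤ core (V ⊓ H) R)
    ⟨core_le.trans inf_le_left, hU0, norm_core, comm_le_left hU0⟩
  have hC : V ⊓ 𝐂(R) ≤ L := (le_core (le_inf inf_le_left h) (norm_of_cent (cent_symm inf_le_right))).trans hL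
  rcases h1.lt_or_eq with hlt | rfl
  swap
  · exact h4.trans (core_le.trans inf_le_right)
  exfalso
  have hg := nil_norm_grow hV hlt
  have hUN : U ≤ 𝐍(V ⊓ 𝐍(L)) := norm_inf hUV (norm_norm h2)
  have hRN : R ≤ 𝐍(V ⊓ 𝐍(L)) := norm_inf hRV (norm_norm h3)
  have hRs : Group.IsSolvable R := abelian_sol (abelian_of_cyclic (cyclic_of_prime hp))
  have c1' : (Nat.card U).Coprime (Nat.card ↥(V ⊓ 𝐍(L))) := coprime_mono c1 le_rfl inf_le_left
  have c2' : (Nat.card R).Coprime (Nat.card ↥(V ⊓ 𝐍(L))) := coprime_mono c2 le_rfl inf_le_left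
  have key : quo U L ≤ 𝐂(quo (V ⊓ 𝐍(L)) L) := by
    refine Sig.cent_of_frobenius (quo_norm hRU L) (semiReg_prime ?_ ?_)
      (sup_le (quo_norm hUN L) (quo_norm hRN L))
      (Sig.coprime_sup_right (quo_norm hRU L) (coprime_quo c1' L).symm (coprime_quo c2' L).symm).symm
      (sol_quo (sol_of_le (nil_sol hV) inf_le_left) L) ?_
    · rwa [card_quo_of_disjoint h3 (disjoint_of_coprime (coprime_mono c2.symm h1 le_rfl))]
    · rw [coprime_quo_cent hRU h3 h2 c3 (Or.inl hRs), hf, quo_eq_bot bot_le]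
    · rw [coprime_quo_cent hRN h3 inf_le_right c2' (Or.inl hRs),
        quo_eq_bot ((inf_le_inf_right _ inf_le_left).trans hC)]
      exact bot_le
  rw [quo_le_cent_iff h2 inf_le_right, commutator_comm] at key
  exact hg.ne' (hmax _ ⟨inf_le_left, hUN, hRN,
    (coprime_commGid hUN c1').ge.trans ((commutator_mono key le_rfl).trans h4)⟩ hg.le)

/-- A minimal counterexample. -/
structure MC (q : ℕ) (E K : Subgroup G) : Prop where
  el : Elem q 2 E E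
  norm : E ≤ 𝐍(K)
  cop : (Nat.card E).Coprime (Nat.card K)
  ab : ∀ a ∈ E, a ≠ 1 → IsMulCommutative ↥(K ⊓ 𝐂[a])
  sub : ∀ M, M < K → E ≤ 𝐍(M) → Group.IsSolvable M
  sim : ∀ N, N ≠ ⊥ → Nml N K → E ≤ 𝐍(N) → N = K
  ns : ¬ Group.IsSolvable K

/-- An invariant Sylow subgroup. -/
structure IS (E K : Subgroup G) (p : ℕ) (P : Subgroup G) : Prop where
  syl : Syl p P K
  inv : E ≤ 𝐍(P)

/-- The largest subgroup of `R` permuting with `P`. -/
def XX (P R : Subgroup G) : Subgroup G := core R P ⊔ (R ⊓ 𝐍(P))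

namespace MC

variable [Fact q.Prime] (h : MC q E K)
include h

theorem cop' (hB : B ≤ E) (hV : V ≤ K) : (Nat.card B).Coprime (Nat.card V) := coprime_mono h.cop hB hV

theorem esol (hB : B ≤ E) : Group.IsSolvable B := abelian_sol (abelian_of_le h.el.abelian hB)

theorem gen (hV : V ≤ K) (hE : E ≤ 𝐍(V)) (hh : ∀ a ∈ E, a ≠ 1 → V ⊓ 𝐂[a] ≤ H) : V ≤ H :=
  coprime_abelian_gen_cent1 h.el.abelian (h.el.not_cyclic le_rfl) hE (h.cop' le_rfl hV) hh

theorem exc (hV : V ≤ K) (hE : E ≤ 𝐍(V)) (h0 : V ≠ ⊥) : ∃ a ∈ E, a ≠ 1 ∧ V ⊓ 𝐂[a] ≠ ⊥ :=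
  coprime_abelian_exists_cent1 h.el.abelian (h.el.not_cyclic le_rfl) hE (h.cop' le_rfl hV) h0

theorem nc (ha : a ∈ E) : E ≤ 𝐍(𝐂[a]) := norm_cent1 (h.el.cent.trans (cent_le_cent1 ha))

theorem comm (ha : a ∈ E) (h1 : a ≠ 1) (hX : X ≤ K) (hY : Y ≤ K) : X ⊓ 𝐂[a] ≤ 𝐂(Y ⊓ 𝐂[a]) :=
  abelian_cent' (h.ab a ha h1) (inf_le_inf_right _ hX) (inf_le_inf_right _ hY)

theorem lt_norm (h0 : Q ≠ ⊥) (hQ : Q ≤ K) (hs : Group.IsSolvable Q) (hE : E ≤ 𝐍(Q)) : K ⊓ 𝐍(Q) < K :=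
  inf_lt_left.2 fun e => h.ns (h.sim Q h0 ⟨hQ, e⟩ hE ▸ hs)

theorem fpf : K ⊓ 𝐂(E) = ⊥ := by
  by_contra e
  have h1 : K ≤ 𝐂(K ⊓ 𝐂(E)) := h.gen le_rfl h.norm fun a ha h1 =>
    (h.comm ha h1 le_rfl le_rfl).trans (cent_anti (inf_le_inf_left _ (cent_le_cent1 ha)))
  exact (h.lt_norm e inf_le_left (abelian_sol (abelian_iff.2 (inf_le_left.trans h1)))
    (norm_inf h.norm (norm_cent (le_norm E)))).ne (inf_eq_left.2 (norm_of_cent h1))

theorem two (ha : a ∈ E) (hb : b ∈ E) (h1 : b ≠ 1) (hab : a ∉ zpowers b) : K ⊓ 𝐂[b] ⊓ 𝐂[a] = ⊥ := by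
  have e := ((h.el.zpowers_of_mem hb h1).sup_zpowers ha (abelian_cent' h.el.abelian le_rfl (zpowers_le.2 hb) ha)
    (h.el.pow_eq_one ha) hab).eq_of_le h.el (sup_le (zpowers_le.2 hb) (zpowers_le.2 ha))
  rw [inf_assoc, ← cent_zpowers, ← cent_zpowers, ← cent_sup, e, h.fpf]

theorem cent_eq (hb : b ∈ E) (h1 : b ≠ 1) (ha : a ∈ zpowers b) (h2 : a ≠ 1) : 𝐂[a] = 𝐂[b] := by
  rw [cent1_eq_of_prime (h.el.zpowers_of_mem hb h1).prime ha h2, cent_zpowers]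

theorem gen' (hb : b ∈ E) (h1 : b ≠ 1) (hV : V ≤ K) (hE : E ≤ 𝐍(V))
    (hh : ∀ a ∈ E, a ∉ zpowers b → V ⊓ 𝐂[a] ≤ H) : V ≤ H ⊔ (V ⊓ 𝐂[b]) :=
  h.gen hV hE fun a ha h2 => by
    by_cases e : a ∈ zpowers b
    · rw [h.cent_eq hb h1 e h2]; exact le_sup_right
    · exact (hh a ha e).trans le_sup_left

theorem frob (ha : a ∈ E) (hb : b ∈ E) (h1 : b ≠ 1) (hab : a ∉ zpowers b) (hU : U ≤ K ⊓ 𝐂[b]) (hEU : E ≤ 𝐍(U))
    (hV : V ≤ K) (hEV : E ≤ 𝐍(V)) (hn : Group.IsNilpotent V) (hUV : U ≤ 𝐍(V))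
    (c : (Nat.card U).Coprime (Nat.card V)) (hH : U ≤ 𝐍(H)) (hC : V ⊓ 𝐂[a] ≤ H) : ⁅V, U⁆ ≤ H := by
  have hz := zpowers_le.2 ha
  refine frob_comm (h.el.zpowers_of_mem ha fun e => hab (e ▸ one_mem _)).prime (hz.trans hEU) ?_ hUV
    (hz.trans hEV) c (h.cop' hz hV) (h.cop' hz (hU.trans inf_le_left)) hn hH (by rwa [cent_zpowers])
  rw [cent_zpowers]
  exact eq_bot_mono (h.two ha hb h1 hab) (inf_le_inf_right _ hU)

theorem nilr (hM : M < K) (hE : E ≤ 𝐍(M)) : Group.IsNilpotent (nilRes M) := by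
  letI : CommGroup E := { (inferInstance : Group E) with mul_comm := h.el.abelian.is_comm.comm }
  exact nilRes_eq_bot_iff.1 (res_two_eq_bot_of_elab (A := E) (φ := E.subtype) (X := M)
    (fun a => Subtype.ext (h.el.pow_eq_one a.2)) h.el.card
    ⟨fun a => hE a.2, h.cop' le_rfl hM.le, h.sub M hM hE, by
      rw [Core.map_subtype_top]; exact eq_bot_mono h.fpf (inf_le_inf_right _ hM.le)⟩)

theorem exists_is (p : ℕ) [Fact p.Prime] : ∃ P, IS E K p P :=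
  let ⟨P, h1, h2⟩ := Syl.exists_inv p h.norm h.cop (Or.inl (h.esol le_rfl)); ⟨P, h1, h2⟩

variable [Fact p.Prime]

theorem le_syl (hP : IS E K p P) (hQ : IsPGroup p Q) (hQK : Q ≤ K) (hE : E ≤ 𝐍(Q)) : Q ≤ P := by
  obtain ⟨P', h1, h2, h3⟩ := Syl.exists_inv_ge h.norm h.cop (Or.inl (h.esol le_rfl)) hQ hQK hE
  obtain ⟨c, hc, rfl⟩ := hP.syl.inv_trans h1 h.norm h.cop (Or.inl (h.esol le_rfl)) hP.inv h3
  rw [h.fpf, mem_bot] at hc
  rwa [hc, Transfer.conj_one] at h2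

theorem syl_inf (hP : IS E K p P) (hM : M ≤ K) (hE : E ≤ 𝐍(M)) : Syl p (P ⊓ M) M := by
  obtain ⟨Q, h1, h2⟩ := Syl.exists_inv p hE (h.cop' le_rfl hM) (Or.inl (h.esol le_rfl))
  exact h1.of_ge (le_inf (h.le_syl hP h1.pgroup (h1.le.trans hM) h2) h1.le) inf_le_right
    (hP.syl.pi.of_le inf_le_left)

theorem frat (hP : IS E K p P) (hM : M < K) (hE : E ≤ 𝐍(M)) : M ≤ nilRes M ⊔ (M ⊓ 𝐍(P ⊓ M)) := by
  have hS := h.syl_inf hP hM.le hE
  have hn : M ≤ 𝐍(nilRes M) := norm_nilRes (le_norm M)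
  have h1 := norm_of_quo_norm hn (inf_le_right.trans hn) ((hS.quo hn).nml_of_nil
    (res_one_eq_bot_iff.1 ((res_quo_eq_bot_iff hn 1).2 le_rfl))).norm
  have h2 : nilRes M ⊔ (P ⊓ M) ≤ M := sup_le (nilRes_le M) inf_le_right
  refine (Syl.frattini (hS.of_le le_sup_right h2) ⟨h2, h1⟩).ge.trans (sup_le (sup_le le_sup_left ?_) le_sup_right)
  exact (le_inf inf_le_right (le_norm _)).trans le_sup_right

theorem frat' (hP : IS E K p P) (hM : M < K) (hE : E ≤ 𝐍(M)) (r : ℕ) :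
    M ≤ 𝐎({r}ᶜ, M) ⊔ (𝐎({r}, M) ⊔ (M ⊓ 𝐍(P ⊓ M))) := by
  have hn : Nml (nilRes M) M := ⟨nilRes_le M, norm_nilRes (le_norm M)⟩
  refine (h.frat hP hM hE).trans (sup_le ?_ (le_sup_right.trans le_sup_right))
  refine (nil_pcore_dprod (h.nilr hM hE) {r}).sup.ge.trans (sup_le ?_ ?_)
  · exact (hn.pcore_le _).trans (le_sup_left.trans le_sup_right)
  · exact (hn.pcore_le _).trans le_sup_left

theorem nb (hP : IS E K p P) (h0 : P ≠ ⊥) (hb : b ∈ E) (h1 : b ≠ 1) : ¬ P ≤ 𝐂[b] := fun e => by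
  have hz := zpowers_le.2 hb
  have hN : E ≤ 𝐍(K ⊓ 𝐍(P)) := norm_inf h.norm (norm_norm hP.inv)
  have hc : K ⊓ 𝐍(P) ≤ 𝐂(P) := by
    refine (coprime_cent_prod (hz.trans hN) (h.cop' hz inf_le_left) (Or.inl (h.esol hz))).ge.trans (sup_le ?_ ?_)
    · have e' : P ≤ 𝐂(zpowers b) := by rwa [cent_zpowers]
      refine comm_eq_bot_iff.1 (commutator_commutator_eq_bot_of_rotate ?_ ?_)
      · rw [comm_eq_bot_iff'.2 e', commutator_bot_left]
      · exact comm_eq_bot_iff.2 ((comm_le_left inf_le_right).trans e')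
    · rw [cent_zpowers]
      exact (h.comm hb h1 inf_le_left hP.syl.le).trans (cent_anti (le_inf le_rfl e))
  have hs := Burnside_normal_complement hP.syl hc
  by_cases e0 : 𝐎({p}ᶜ, K) = ⊥
  · rw [e0] at hs
    exact h.ns (hs.eq_of_left_bot ▸ pgroup_sol hP.syl.pgroup)
  · have := hs.inf
    rw [h.sim _ e0 (pcore_nml _ K) (norm_pcore h.norm _), inf_eq_right.2 hP.syl.le] at this
    exact h0 this

theorem nb' (hP : IS E K p P) (h0 : P ≠ ⊥) (hb : b ∈ E) (h1 : b ≠ 1) :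
    ∃ a ∈ E, a ∉ zpowers b ∧ P ⊓ 𝐂[a] ≠ ⊥ := by
  by_contra e
  push Not at e
  exact h.nb hP h0 hb h1 ((h.gen' hb h1 hP.syl.le hP.inv fun a ha hab => (e a ha hab).le).trans
    (sup_le bot_le inf_le_right))

/-- For an odd prime all but one of the centralizers meet the Sylow subgroup non-trivially. -/
theorem gt (hP : IS E K p P) (h0 : P ≠ ⊥) (h2 : p ≠ 2) :
    ∃ d ∈ E, d ≠ 1 ∧ ∀ a ∈ E, a ∉ zpowers d → P ⊓ 𝐂[a] ≠ ⊥ := by
  by_contra e
  push Not at e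
  have hp := hP.syl.pgroup
  have hc : K ⊓ 𝐍(P) ≤ P ⊔ 𝐂(P) := by
    have hN : E ≤ 𝐍(K ⊓ 𝐍(P)) := norm_inf h.norm (norm_norm hP.inv)
    refine Syl.le_of_forall fun s hs _ => ?_
    haveI := Fact.mk hs
    obtain ⟨S, hS⟩ := h.exists_is s
    refine ⟨_, h.syl_inf hS inf_le_left hN, ?_⟩
    by_cases e1 : s = p
    · subst e1
      exact (inf_le_left.trans (h.le_syl hP hS.syl.pgroup hS.syl.le hS.inv)).trans le_sup_left
    refine le_trans (h.gen (inf_le_right.trans inf_le_left) (norm_inf hS.inv hN) fun d hd hd1 => ?_) le_sup_right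
    obtain ⟨a, ha, had, e2⟩ := e d hd hd1
    exact comm_eq_bot_iff'.1 (le_bot_iff.1 (h.frob ha hd hd1 had (inf_le_inf_right _ (inf_le_right.trans inf_le_left))
      (norm_inf (norm_inf hS.inv hN) (h.nc hd)) hP.syl.le hP.inv (pgroup_nil hp)
      (inf_le_left.trans (inf_le_right.trans inf_le_right))
      (coprime_pgroups (pgroup_of_le hS.syl.pgroup (inf_le_left.trans inf_le_left)) hp e1)
      (by rw [norm_bot]; exact le_top) e2.le))
  have hW := PLocal.subFunctor_centerThompsonOf.{u} (p := p) (e := 0) (Or.inl rfl)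
  have hEW : E ≤ 𝐍(centerThompsonOf 0 P) := hP.inv.trans (hW.normalizer_le hp)
  have hlt := h.lt_norm (hW.ne_bot hp h0) ((PLocal.centerThompsonOf_le P).trans hP.syl.le)
    (abelian_sol (PLocal.isMulCommutative_centerThompsonOf P)) hEW
  have hEM := norm_inf h.norm (norm_norm hEW)
  have hPM : P ≤ K ⊓ 𝐍(centerThompsonOf 0 P) := le_inf hP.syl.le ((le_norm P).trans (hW.normalizer_le hp))
  have hM : HasNormalPComplement p ↥(K ⊓ 𝐍(centerThompsonOf 0 P)) := by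
    have hf := h.frat' hP hlt hEM p
    have hS := h.syl_inf hP hlt.le hEM
    generalize K ⊓ 𝐍(centerThompsonOf 0 P) = M at *
    rw [inf_eq_left.2 hPM] at hf hS
    obtain ⟨S, hS'⟩ := Transfer.exists_sylow_of_not_dvd_relIndex hp hS.not_dvd'
    refine Transfer.hasNormalPComplement_of_controls_fusion S fun x hx g hg => ?_
    rw [hS', mem_subgroupOf] at hx hg
    have hn := (pcore_nml {p}ᶜ M).norm
    have h3 : 𝐎({p}, M) ⊔ (M ⊓ 𝐍(P)) ≤ M ⊓ 𝐍(P) := sup_le (le_inf (pcore_le _ _) (hS.pcore_le.trans (le_norm P))) le_rfl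
    obtain ⟨d, hd, n, hn', e3⟩ := (mem_sup_left_norm (inf_le_left.trans hn)).1
      ((hf.trans (sup_le_sup_left h3 _)) g.2)
    obtain ⟨y, hy, c, hc', e4⟩ := (mem_sup_left_norm (cent_le_norm P)).1 (hc ⟨hlt.le hn'.1, hn'.2⟩)
    refine ⟨⟨y, hPM hy⟩, by rwa [hS', mem_subgroupOf], Subtype.ext ?_⟩
    have h4 : n * x * n⁻¹ = y * x * y⁻¹ := by
      have hcx : c * x * c⁻¹ = x := by rw [← mem_cent.1 hc' x hx, mul_inv_cancel_right]
      rw [← e4, show y * c * x * (y * c)⁻¹ = y * (c * x * c⁻¹) * y⁻¹ by group, hcx]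
    have h5 : y * x * y⁻¹ ∈ P := mul_mem (mul_mem hy hx) (inv_mem hy)
    have h6 : (g : G) * x * (g : G)⁻¹ = d * (y * x * y⁻¹) * d⁻¹ := by rw [← e3, ← h4]; group
    have h7 : d * (y * x * y⁻¹) * d⁻¹ * (y * x * y⁻¹)⁻¹ ∈ 𝐎({p}ᶜ, M) ⊓ P := by
      refine mem_inf.2 ⟨?_, P.mul_mem (h6 ▸ (show (g : G) * x * (g : G)⁻¹ ∈ P from hg)) (P.inv_mem h5)⟩
      rw [mul_assoc, mul_assoc, ← mul_assoc _ d⁻¹]
      exact mul_mem hd (conj_mem_of_norm (hn (hPM h5)) (inv_mem hd))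
    rw [inf_comm, hS.pi.inf_eq_bot (pcore_pi _ _), mem_bot, mul_inv_eq_one] at h7
    exact (h6.trans h7).symm
  obtain ⟨S, hS⟩ := Transfer.exists_sylow_of_not_dvd_relIndex hp hP.syl.not_dvd'
  have hK : HasNormalPComplement p K := by
    refine PLocal.hasNormalPComplement_of_zjLike hW (PLocal.zjLike_centerThompsonOf h2 (Or.inl rfl)) h2 S
      (PLocal.isStronglyClosed_self _) ?_
    rw [hS, hW.normalizer_subgroupOf hp hP.syl.le, ← inf_subgroupOf_left]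
    exact Transfer.hasNormalPComplement_of_equiv hM (subgroupOfEquivOfLe inf_le_left).symm
  have hs := (hasNormalPComplement_iff.1 hK).sd (pcore_nml _ _).norm (by rw [compl_compl]; exact hP.syl)
  by_cases e0 : 𝐎({p}ᶜ, K) = ⊥
  · rw [e0] at hs
    exact h.ns (hs.eq_of_left_bot ▸ pgroup_sol hP.syl.pgroup)
  · have := hs.inf
    rw [h.sim _ e0 (pcore_nml _ K) (norm_pcore h.norm _), inf_eq_right.2 hP.syl.le] at this
    exact h0 this

variable [Fact r.Prime]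

theorem g1 (hP : IS E K p P) (hR : IS E K r R) (hM : M < K) (hE : E ≤ 𝐍(M)) :
    R ⊓ M ≤ 𝐎({r}, M) ⊔ (R ⊓ 𝐍(P ⊓ M)) := by
  have hB : 𝐎({r}, M) ⊔ (M ⊓ 𝐍(P ⊓ M)) ≤ M := sup_le (pcore_le _ _) inf_le_left
  have hEB : E ≤ 𝐍(𝐎({r}, M) ⊔ (M ⊓ 𝐍(P ⊓ M))) :=
    norm_sup (norm_pcore hE _) (norm_inf hE (norm_norm (norm_inf hP.inv hE)))
  have h1 : Syl r (R ⊓ (𝐎({r}, M) ⊔ (M ⊓ 𝐍(P ⊓ M)))) M := by
    refine (h.syl_inf hR (hB.trans hM.le) hEB).trans_idx hB ?_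
    conv => enter [2, 2]; rw [le_antisymm (h.frat' hP hM hE r) (sup_le (pcore_le _ _) hB)]
    rw [Coprime.relIndex_sup_right_of_le_normalizer (hB.trans (pcore_nml _ M).norm)]
    exact (pcore_pi _ M).relIndex _
  rw [← h1.eq_of_le (inf_le_inf_left _ hB) inf_le_right (hR.syl.pi.of_le inf_le_left), inf_comm,
    modular_left (h.le_syl hR (pcore_pgroup r M) ((pcore_le _ _).trans hM.le) (norm_pcore hE _))
      (inf_le_left.trans (pcore_nml _ M).norm)]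
  exact sup_le_sup_left (le_inf inf_le_right (inf_le_left.trans inf_le_right)) _

theorem k0 (hP : IS E K p P) (hR : IS E K r R) (hM : M < K) (hE : E ≤ 𝐍(M)) (hPM : P ≤ M) :
    R ⊓ M ≤ XX P R := by
  have := h.g1 hP hR hM hE
  rw [inf_eq_left.2 hPM] at this
  exact this.trans (sup_le_sup_right (le_core (h.le_syl hR (pcore_pgroup r M) ((pcore_le _ _).trans hM.le)
    (norm_pcore hE _)) (hPM.trans (pcore_nml _ M).norm)) _)

theorem k2 (hP : IS E K p P) (hR : IS E K r R) (hpr : p ≠ r) (hb : b ∈ E) (h1 : b ≠ 1) (h0 : U ≠ ⊥)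
    (hU : U ≤ 𝐙(P) ⊓ 𝐂[b]) (hEU : E ≤ 𝐍(U)) (hV : IsPGroup r V) (hVK : V ≤ K) (hEV : E ≤ 𝐍(V))
    (hUV : U ≤ 𝐍(V)) : V ≤ XX P R := by
  have hp := hP.syl.pgroup
  have hUP : U ≤ P := hU.trans (inf_le_left.trans inf_le_left)
  have hUc : U ≤ 𝐂(P) := hU.trans (inf_le_left.trans inf_le_right)
  have hUK := hUP.trans hP.syl.le
  have pU := pgroup_of_le hp hUP
  have hc : ∀ {W : Subgroup G}, IsPGroup r W → (Nat.card U).Coprime (Nat.card W) := fun hW =>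
    coprime_pgroups pU hW hpr
  refine (coprime_cent_prod hUV (hc hV) (Or.inl (pgroup_sol pU))).ge.trans (sup_le ?_ ?_)
  swap
  · exact (le_inf (inf_le_left.trans (h.le_syl hR hV hVK hEV)) (inf_le_inf hVK (cent_le_norm U))).trans
      (h.k0 hP hR (h.lt_norm h0 hUK (pgroup_sol pU) hEU) (norm_inf h.norm (norm_norm hEU))
        (le_inf hP.syl.le (norm_of_cent (cent_symm hUc))))
  obtain ⟨W, hVW, ⟨w1, w2, w3, w4, w5⟩, hmax⟩ := Core.exists_maximal_ge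
    (P := fun W => IsPGroup r W ∧ W ≤ K ∧ E ≤ 𝐍(W) ∧ U ≤ 𝐍(W) ∧ W ≤ ⁅W, U⁆)
    ⟨pgroup_of_le hV (comm_le_left hUV), (comm_le_left hUV).trans hVK, norm_comm hEV hEU, right_norm_comm _ _,
      (coprime_commGid hUV (hc hV)).ge⟩
  refine hVW.trans (le_trans (le_core (h.le_syl hR w1 w2 w3) ?_) le_sup_left)
  by_contra hn
  have hg := nil_norm_grow (pgroup_nil hp) (inf_lt_left.2 hn)
  have hz := zpowers_le.2 hb
  have hPa : ∀ a ∈ E, a ∉ zpowers b → P ⊓ 𝐂[a] ≤ P ⊓ 𝐍(W) ⊓ 𝐂(W) := fun a ha hab => by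
    have : P ⊓ 𝐂[a] ≤ 𝐂(W) := cent_symm (w5.trans (h.frob ha hb h1 hab (le_inf hUK (hU.trans inf_le_right)) hEU
      w2 w3 (pgroup_nil w1) w4 (hc w1) (le_norm_of_le (hUc.trans (cent_anti inf_le_left)))
      (h.comm ha (fun e => hab (e ▸ one_mem _)) w2 hP.syl.le)))
    exact le_inf (le_inf inf_le_left (norm_of_cent this)) this
  have hEN : E ≤ 𝐍(P ⊓ 𝐍(W)) := norm_inf hP.inv (norm_norm w3)
  have hEC : E ≤ 𝐍(P ⊓ 𝐍(W) ⊓ 𝐂(W)) := norm_inf hEN (norm_cent w3)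
  have hE1 : E ≤ 𝐍(P ⊓ 𝐍(P ⊓ 𝐍(W))) := norm_inf hP.inv (norm_norm hEN)
  generalize hN : P ⊓ 𝐍(W) = N at *
  have hNP : N ≤ P := hN ▸ inf_le_left
  have hNW : N ≤ 𝐍(W) := hN ▸ inf_le_right
  have d1 : ⁅P ⊓ 𝐍(N), zpowers b⁆ ≤ N :=
    comm_le_of_le_sup_cent (h.gen' hb h1 (inf_le_left.trans hP.syl.le) hE1 fun a ha hab =>
      (inf_le_inf_right _ inf_le_left).trans ((hPa a ha hab).trans inf_le_left))
      (inf_le_left.trans inf_le_right) (inf_le_right.trans (cent_zpowers b).ge) (hz.trans hEN)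
  have d2 : ⁅N, zpowers b⁆ ≤ N ⊓ 𝐂(W) :=
    comm_le_of_le_sup_cent (h.gen' hb h1 (hNP.trans hP.syl.le) hEN fun a ha hab =>
      (inf_le_inf_right _ hNP).trans (hPa a ha hab))
      (inf_le_left.trans (norm_inf (le_norm N) (norm_cent hNW))) (inf_le_right.trans (cent_zpowers b).ge)
      (hz.trans hEC)
  have d3 : ⁅P ⊓ 𝐍(N), zpowers b⁆ ≤ 𝐂(W) :=
    (coprime_commGid (hz.trans hE1) (h.cop' hz (inf_le_left.trans hP.syl.le))).ge.trans
      ((commutator_mono d1 le_rfl).trans (d2.trans inf_le_right))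
  by_cases d0 : ⁅P ⊓ 𝐍(N), zpowers b⁆ = ⊥
  · obtain ⟨a, ha, hab, e⟩ := h.nb' hP (ne_bot_mono h0 hUP) hb h1
    refine e (eq_bot_mono (h.two ha hb h1 hab) (le_inf (le_inf (inf_le_left.trans hP.syl.le) ?_) inf_le_right))
    exact (hPa a ha hab).trans (inf_le_left.trans (hg.le.trans ((comm_eq_bot_iff.1 d0).trans (cent_zpowers b).le)))
  have hED := norm_comm hE1 (abelian_norm h.el.abelian hz)
  have hDP := d1.trans hNP
  have hlt := h.lt_norm d0 (hDP.trans hP.syl.le) (pgroup_sol (pgroup_of_le hp hDP)) hED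
  have hEM := norm_inf h.norm (norm_norm hED)
  have m1 := le_inf (inf_le_left.trans hP.syl.le) (left_norm_comm (P ⊓ 𝐍(N)) (zpowers b))
  have m2 := le_inf w2 (norm_of_cent (cent_symm d3))
  have m3 := le_inf hUK (norm_of_cent (hUc.trans (cent_anti hDP)))
  generalize K ⊓ 𝐍(⁅P ⊓ 𝐍(N), zpowers b⁆) = M at *
  have hO := pcore_nml {r} M
  have m4 : W ≤ 𝐎({r}, M) := (nil_le_pcore (h.nilr hlt hEM) (le_nilRes m2 (w5.trans (commutator_mono le_rfl m3)))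
    (PiGrp.p_iff.2 w1)).trans ((⟨nilRes_le M, norm_nilRes (le_norm M)⟩ : Nml _ _).pcore_le _)
  have m5 := comm_le_left (m3.trans hO.norm)
  have m6 := hmax ⁅𝐎({r}, M), U⁆ ⟨pgroup_of_le (pcore_pgroup r M) m5, m5.trans (hO.le.trans hlt.le),
    norm_comm (norm_pcore hEM _) hEU, right_norm_comm _ _,
    (coprime_commGid (m3.trans hO.norm) (hc (pcore_pgroup r M))).ge⟩ (w5.trans (commutator_mono m4 le_rfl))
  have m7 := norm_comm (m1.trans hO.norm) (inf_le_left.trans (norm_of_cent (cent_symm hUc)))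
  rw [m6] at m7
  exact hg.not_ge ((le_inf inf_le_left m7).trans hN.le)

theorem k3 (hP : IS E K p P) (hR : IS E K r R) (hpr : p ≠ r) (h0 : Q ≠ ⊥) (hQ : Q ≤ P) (hE : E ≤ 𝐍(Q)) :
    R ⊓ 𝐍(Q) ≤ XX P R := by
  have hp := hP.syl.pgroup
  obtain ⟨b, hb, h1, hU⟩ := h.exc (inf_le_left.trans hP.syl.le) (norm_center hP.inv)
    (center_ne_bot_of_nil (pgroup_nil hp) (ne_bot_mono h0 hQ))
  induction Q using WellFoundedGT.induction with | ind Q ih
  rcases hQ.lt_or_eq with hlt | rfl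
  swap
  · exact le_sup_right
  have hM := h.lt_norm h0 (hQ.trans hP.syl.le) (pgroup_sol (pgroup_of_le hp hQ)) hE
  have hEM := norm_inf h.norm (norm_norm hE)
  have hg := nil_norm_grow (pgroup_nil hp) hlt
  refine (le_inf inf_le_left (inf_le_inf_right _ hR.syl.le)).trans ((h.g1 hP hR hM hEM).trans (sup_le ?_ ?_))
  · refine h.k2 hP hR hpr hb h1 hU le_rfl (norm_inf (norm_center hP.inv) (h.nc hb)) (pcore_pgroup r _)
      ((pcore_le _ _).trans inf_le_left) (norm_pcore hEM _) (le_trans ?_ (pcore_nml _ _).norm)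
    exact inf_le_left.trans (inf_le_inf hP.syl.le ((cent_anti hQ).trans (cent_le_norm Q)))
  · rw [← inf_assoc, inf_eq_left.2 hP.syl.le]
    exact ih _ hg (ne_bot_mono h0 hg.le) inf_le_left (norm_inf hP.inv (norm_norm hE))

theorem both (hP : IS E K p P) (hR : IS E K r R) (h2 : p ≠ 2) (h0 : P ≠ ⊥) (h0' : R ≠ ⊥) :
    ∃ a ∈ E, a ≠ 1 ∧ P ⊓ 𝐂[a] ≠ ⊥ ∧ R ⊓ 𝐂[a] ≠ ⊥ := by
  obtain ⟨d, hd, h1, e⟩ := h.gt hP h0 h2
  obtain ⟨a, ha, had, e'⟩ := h.nb' hR h0' hd h1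
  exact ⟨a, ha, fun e => had (e ▸ one_mem _), e a ha had, e'⟩

theorem fin (hP : IS E K p P) (hR : IS E K r R) (hpr : p ≠ r) : R ≤ XX P R := by
  by_contra hn
  have c1 : core P R = ⊥ := by
    by_contra e
    exact hn ((le_inf le_rfl norm_core).trans (h.k3 hP hR hpr e core_le (norm_core_of hP.inv hR.inv)))
  have c2 : ¬ P ≤ 𝐍(R) := fun e => hn ((le_core le_rfl e).trans le_sup_left)
  have k : ∀ {Q : Subgroup G}, Q ≠ ⊥ → Q ≤ R → E ≤ 𝐍(Q) → P ⊓ 𝐍(Q) ≤ P ⊓ 𝐍(R) := fun h1 h2 h3 => by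
    have := h.k3 hR hP hpr.symm h1 h2 h3
    rwa [XX, c1, bot_sup_eq] at this
  have c3 : core R P = ⊥ := by
    by_contra e
    exact c2 ((le_inf le_rfl norm_core).trans ((k e core_le (norm_core_of hR.inv hP.inv)).trans inf_le_right))
  have h0 : P ≠ ⊥ := fun e => c2 (e ▸ bot_le)
  have h0' : R ≠ ⊥ := fun e => hn (by rw [e]; exact bot_le)
  obtain ⟨a, ha, h1, e1, e2⟩ : ∃ a ∈ E, a ≠ 1 ∧ P ⊓ 𝐂[a] ≠ ⊥ ∧ R ⊓ 𝐂[a] ≠ ⊥ := by
    by_cases e : p = 2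
    · obtain ⟨a, ha, h1, e1, e2⟩ := h.both hR hP (fun e' => hpr (e.trans e'.symm)) h0' h0
      exact ⟨a, ha, h1, e2, e1⟩
    · exact h.both hP hR e h0 h0'
  have hEU := norm_inf hR.inv (h.nc ha)
  have hUP : R ⊓ 𝐂[a] ≤ 𝐍(P) := by
    have := h.k3 hP hR hpr e1 inf_le_left (norm_inf hP.inv (h.nc ha))
    rw [XX, c3, bot_sup_eq] at this
    exact (le_inf inf_le_left (norm_of_cent (h.comm ha h1 hR.syl.le hP.syl.le))).trans (this.trans inf_le_right)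
  obtain ⟨a', ha', haa, e3⟩ := h.nb' hR h0' ha h1
  have c := coprime_pgroups (pgroup_of_le hR.syl.pgroup (inf_le_left : R ⊓ 𝐂[a] ≤ R)) hP.syl.pgroup hpr.symm
  refine c2 ((coprime_cent_prod hUP c (Or.inr (pgroup_sol hP.syl.pgroup))).ge.trans
    (le_trans (sup_le ?_ ?_) (inf_le_right : P ⊓ 𝐍(R) ≤ _)))
  · refine h.frob ha' ha h1 haa (inf_le_inf_right _ hR.syl.le) hEU hP.syl.le hP.inv hP.syl.nil hUP c
      (norm_inf hUP (inf_le_left.trans (norm_norm (le_norm R)))) ?_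
    exact (le_inf inf_le_left (norm_of_cent (h.comm ha' (fun e => haa (e ▸ one_mem _)) hP.syl.le hR.syl.le))).trans
      (k e3 inf_le_left (norm_inf hR.inv (h.nc ha')))
  · exact (inf_le_inf_left _ (cent_le_norm _)).trans (k e2 inf_le_left hEU)

end MC

theorem norm_xx : R ⊓ 𝐍(P) ≤ 𝐍(core R P) := norm_core_of (inf_le_left.trans (le_norm R)) inf_le_right

theorem norm_ncl_of_xx (h : R ≤ XX P R) (hP : P ≤ 𝐍(Q)) : P ≤ 𝐍(Loc.ncl Q R) := by
  refine le_norm_iff.2 fun y hy x hx => ?_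
  refine (Loc.ncl_le_iff (K := (Loc.ncl Q R).comap (MulAut.conj y).toMonoidHom)).2 (fun t ht z hz => ?_) hx
  obtain ⟨θ, hθ, n, hn, rfl⟩ := (mem_sup_left_norm norm_xx).1 (h ht)
  refine Loc.conj_le_ncl Q (mul_mem (hθ y hy) hn.1) (Transfer.mem_conj.2 ?_)
  have := conj_mem_of_norm (hP (conj_mem_of_norm' hn.2 hy)) (Transfer.mem_conj.1 hz)
  convert this using 1
  simp only [MulEquiv.toMonoidHom_eq_coe, MonoidHom.coe_coe, MulAut.conj_apply]
  group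

theorem MC.false [Fact q.Prime] (h : MC q E K) : False := by
  obtain ⟨p, hp, hd⟩ := Nat.exists_prime_and_dvd (card_ne_one (A := K) fun e => h.ns (e ▸ inferInstance))
  haveI := Fact.mk hp
  obtain ⟨P, hP⟩ := h.exists_is p
  obtain ⟨H, hPH, ⟨h1, h2, h3⟩, hmax⟩ := Core.exists_maximal_ge (H := P) (P := fun H => H < K ∧ E ≤ 𝐍(H) ∧
    ∀ B : Subgroup G, (∀ (s : ℕ) (S : Subgroup G), s.Prime → IS E K s S → S ≤ H → S ≤ B) → H ≤ B)
    ⟨hP.syl.le.lt_of_ne fun e => h.ns (e ▸ pgroup_sol hP.syl.pgroup), hP.inv, fun B hB => hB p P hp hP le_rfl⟩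
  obtain ⟨t, T, ht, hT, hTH⟩ : ∃ t T, t.Prime ∧ IS E K t T ∧ ¬ T ≤ H := by
    by_contra e
    push Not at e
    exact h1.not_ge (Syl.le_of_forall fun t ht _ =>
      haveI := Fact.mk ht
      let ⟨T, hT⟩ := h.exists_is t; ⟨T, hT.syl, e t T ht hT⟩)
  haveI := Fact.mk ht
  obtain ⟨s, hs, hd'⟩ := Nat.exists_prime_and_dvd (card_ne_one (Fitting_ne_bot (h.sub H h1 h2)
    (ne_bot_mono (hP.syl.ne_bot' hd) hPH)))
  haveI := Fact.mk hs
  have q0 : 𝐎({s}, H) ≠ ⊥ := pcore_Fitting s H ▸ (nil_pcore_Hall (Fitting_nil H) {s}).ne_bot hs hd' rfl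
  have hQ := pcore_nml {s} H
  have hEQ := norm_pcore h2 {s}
  obtain ⟨S, hS⟩ := h.exists_is s
  have hQS := h.le_syl hS (pcore_pgroup s H) (hQ.le.trans h1.le) hEQ
  generalize 𝐎({s}, H) = Q at *
  have hJ : Group.IsSolvable (Loc.ncl Q T) := by
    by_cases e : s = t
    · subst e
      exact sol_of_le (pgroup_sol hT.syl.pgroup)
        (Loc.ncl_le_self (hQS.trans (h.le_syl hT hS.syl.pgroup hS.syl.le hS.inv)))
    · have hc : S ≤ 𝐍(core T S) := norm_core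
      have : Group.IsSolvable ↥(core T S ⊔ S) := copre_quo hc ▸
        sol_copre (pgroup_sol (pgroup_of_le hT.syl.pgroup core_le)) (sol_quo (pgroup_sol hS.syl.pgroup) _)
      refine sol_of_le this (Loc.ncl_le (hQS.trans le_sup_right) ((h.fin hS hT e).trans (sup_le ?_ ?_)))
      · exact le_norm_of_le le_sup_left
      · exact norm_sup norm_xx inf_le_right
  have hlt := h.lt_norm (ne_bot_mono q0 (Loc.le_ncl Q T))
    (Loc.ncl_le (hQ.le.trans h1.le) (le_norm_of_le hT.syl.le)) hJ (Loc.norm_ncl_of_norm hEQ hT.inv)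
  have h4 : H ≤ 𝐍(Loc.ncl Q T) := h3 _ fun s' S' hs' hS' hle => by
    haveI := Fact.mk hs'
    refine norm_ncl_of_xx (h.fin hS' hT ?_) (hle.trans hQ.norm)
    rintro rfl
    exact hTH ((h.le_syl hS' hT.syl.pgroup hT.syl.le hT.inv).trans hle)
  refine hTH (le_sup_right.trans (hmax (H ⊔ T) ⟨lt_of_le_of_lt (le_inf (sup_le h1.le hT.syl.le)
    (sup_le h4 (Loc.norm_ncl Q T))) hlt, norm_sup h2 hT.inv, fun B hB => sup_le
      (h3 B fun s S hs hS hle => hB s S hs hS (hle.trans le_sup_left)) (hB t T ht hT le_sup_right)⟩ le_sup_left).le)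

theorem sol_aux [Fact q.Prime] (n : ℕ) : ∀ (G : Type u) [Group G] [Finite G] (E K : Subgroup G), Nat.card K = n →
    Elem q 2 E E → E ≤ 𝐍(K) → (Nat.card E).Coprime (Nat.card K) →
    (∀ a ∈ E, a ≠ 1 → IsMulCommutative ↥(K ⊓ 𝐂[a])) → Group.IsSolvable K := by
  induction n using Nat.strong_induction_on with | _ n ih
  rintro G _ _ E K rfl h1 h2 h3 h4
  have sub : ∀ M, M < K → E ≤ 𝐍(M) → Group.IsSolvable M := fun M hM hE =>
    ih _ (Core.card_lt_card_of_lt hM) G E M rfl h1 hE (coprime_mono h3 le_rfl hM.le) fun a ha a1 =>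
      abelian_of_le (h4 a ha a1) (inf_le_inf_right _ hM.le)
  by_contra ns
  refine MC.false ⟨h1, h2, h3, h4, sub, fun N n0 hN hE => by_contra fun e => ns ?_, ns⟩
  have hd : N ⊓ E = ⊥ := disjoint_of_coprime (coprime_mono h3.symm hN.le le_rfl)
  have := ih _ (card_quo_mul hN ▸ lt_mul_of_one_lt_left Nat.card_pos ((one_lt_card_iff_ne_bot _).2 n0)) _
    (quo E N) (quo K N) rfl ⟨le_rfl, elab_quo h1.elem N, (card_quo_of_disjoint hE hd).trans h1.card⟩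
    (quo_norm h2 N) (coprime_quo h3 N) (by
      rintro _ ⟨x, hx, rfl⟩ a1
      have hx' : (x : G) ∈ E := hx
      have hz := zpowers_le.2 hx'
      have e1 : zpowers (qhom N x) = quo (zpowers (x : G)) N := by
        rw [quo_def, ← MonoidHom.map_zpowers]
        congr 1
        exact map_injective (𝐍(N)).subtype_injective (by rw [subOf_map (hz.trans hE), MonoidHom.map_zpowers]; rfl)
      rw [← cent_zpowers, e1, coprime_quo_cent (hz.trans h2) (hz.trans hE) hN.norm (coprime_mono h3 hz le_rfl)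
        (Or.inl (abelian_sol (abelian_of_le h1.abelian hz))), cent_zpowers]
      exact abelian_quo (h4 _ hx' fun e => a1 (by rw [show x = 1 from Subtype.ext e, map_one])) N)
  exact copre_quo_of_le hN.le hN.norm ▸ sol_copre (sub N (hN.le.lt_of_ne e) hE) this

end Cfsg.Lib.CharDeg.Mart
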