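import Cfsg.Agent.Lib.CharDeg.MinNonab
import Cfsg.Agent.Lib.CharDeg.Broline
import Cfsg.Agent.Lib.Char.Burnside

/-!
A finite group with largest character degree `b` has an abelian subgroup of index at most `(b!)²`.
-/

set_option autoImplicit false

namespace Cfsg.Lib.CharDeg

open Cfsg.Lib.Char Cfsg.Lib.Clifford Cfsg.Lib.Induce Cfsg.Lib.Core Subgroup
open scoped commutatorElement ComplexConjugate Nat

universe u

/-- All character degrees are at most `b`. -/
def Bd (G : Type*) [Group G] [Finite G] (b : ℕ) : Prop := ∀ n ∈ cd G, n ≤ b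

variable {G : Type*} [Group G] [Finite G] {b : ℕ}

theorem Bd.sub (h : Bd G b) (H : Subgroup G) : Bd H b := fun _ hn =>
  let ⟨m, hm, e⟩ := exists_le_mem_cd H hn
  e.trans (h m hm)

theorem Bd.quot (h : Bd G b) (K : Subgroup G) [K.Normal] : Bd (G ⧸ K) b := fun n hn =>
  h n (cd_quotient_subset K hn)

theorem Bd.exists_top (h : Bd G b) (h' : ¬ Bd G (b - 1)) :
    ∃ θ, IsIrrCharacter G θ ∧ charDegree θ = b := by
  simp only [Bd, not_forall] at h'
  obtain ⟨n, hn, e⟩ := h'
  have := h n hn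
  exact mem_cd'.1 (by rwa [show b = n by omega])

theorem Bd.ext_all (h : Bd G b) (H : Subgroup G) [Fintype H] {θ : H → ℂ} (hθ : IsIrrCharacter H θ)
    (hd : charDegree θ = b) {ψ : G → ℂ} (hψ : IsIrrCharacter G ψ)
    (h0 : classInner (fun x : H => ψ x) θ ≠ 0) (x : H) : ψ x = θ x :=
  res_eq_of_charDegree_le hψ.isCharacter H hθ h0 (hd ▸ h _ (charDegree_mem_cd hψ)) x

theorem Bd.ext (h : Bd G b) (H : Subgroup G) {θ : H → ℂ} (hθ : IsIrrCharacter H θ)
    (hd : charDegree θ = b) : ∃ χ, IsIrrCharacter G χ ∧ θ = fun x : H => χ x := by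
  have := Fintype.ofFinite H
  obtain ⟨χ, hχ, h0⟩ := exists_irr_above H hθ
  exact ⟨χ, hχ, funext fun x => (h.ext_all H hθ hd hχ h0 x).symm⟩

theorem Bd.half (h : Bd G b) (K : Subgroup G) [K.Normal] (hn : ¬ _root_.commutator G ≤ K) :
    Bd K (b / 2) := by
  intro n hn'
  have := Fintype.ofFinite K
  obtain ⟨η, hη, rfl⟩ := mem_cd'.1 hn'
  obtain ⟨χ, hχ, h0⟩ := exists_irr_above K hη
  obtain ⟨k, -, hk⟩ := exists_charDegree_eq_mul K hχ hη h0
  have h1 := h _ (charDegree_mem_cd hχ)
  have h2 := hχ.charDegree_pos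
  rw [Nat.le_div_iff_mul_le two_pos]
  by_cases k1 : 2 ≤ k
  · nlinarith
  have k2 : k = 1 := by rcases k with _ | _ | k <;> omega
  rw [k2, one_mul] at hk
  have e := funext (res_eq_of_charDegree_le hχ.isCharacter K hη h0 hk.le)
  rw [commutator_le_iff_cd] at hn
  push Not at hn
  obtain ⟨m, hm, m1⟩ := hn
  have m0 := pos_of_mem_cd hm
  obtain ⟨β, hβ, rfl⟩ := mem_cd'.1 hm
  have h3 := h _ (charDegree_mem_cd (isIrrCharacter_inflate_mul K hχ.isCharacter (e ▸ hη) hβ))
  rw [charDegree_mul hβ.inflate.isCharacter hχ.isCharacter,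
    charDegree_congr (ψ := β) (by simp), hk] at h3
  nlinarith [show 2 ≤ charDegree β by omega]

theorem index_dvd_sq (N : Subgroup G) [N.Normal] {θ : G → ℂ} (hθ : IsIrrCharacter G θ)
    (h : ∀ g ∉ N, θ g = 0) : N.index ∣ charDegree θ ^ 2 := by
  have := Fintype.ofFinite G
  have := Fintype.ofFinite N
  obtain ⟨η, hη, h0⟩ := exists_irr_below N hθ
  obtain ⟨e, he⟩ := (hθ.isCharacter.restrict N).exists_inner_eq_nat hη.isCharacter
  have h1 := clifford_degree N hθ hη h0
  have h2 := clifford_norm N hθ hη h0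
  rw [(classInner_res_self_eq_index_iff N hθ).2 h, he] at h2
  rw [he, hθ.apply_one_eq, hη.apply_one_eq] at h1
  norm_cast at h1 h2
  exact ⟨(inertia N η).index * charDegree η ^ 2, by rw [h1, h2]; ring⟩

theorem exists_small_class [Nontrivial G] : ∃ x : G, x ≠ 1 ∧
    1 + (Nat.card (IrrCharacter G) - 1) * (centralizer {x}).index ≤ Nat.card G := by
  classical
  have := Fintype.ofFinite G
  have := Fintype.ofFinite (ConjClasses G)
  obtain ⟨x, hx, hm⟩ := Finset.exists_min_image (Finset.univ.erase (1 : G))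
    (fun x => (centralizer {x}).index) (by
      obtain ⟨x, hx⟩ := exists_ne (1 : G); exact ⟨x, by simpa using hx⟩)
  refine ⟨x, by simpa using hx, ?_⟩
  have h := sum_eq_sum_conjClasses (isClassFunction_one (G := G))
  simp only [Finset.sum_const, Finset.card_univ, nsmul_eq_mul, mul_one] at h
  norm_cast at h
  rw [Nat.card_eq_fintype_card (α := G), h, card_irr_eq_card_conjClasses, Nat.card_eq_fintype_card,
    ← Finset.add_sum_erase _ _ (Finset.mem_univ (ConjClasses.mk 1))]
  refine add_le_add (Nat.pos_of_ne_zero index_ne_zero_of_finite) ?_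
  rw [← Finset.card_univ, ← Finset.card_erase_of_mem (Finset.mem_univ (ConjClasses.mk 1)),
    ← smul_eq_mul]
  refine Finset.card_nsmul_le_sum _ _ _ fun C hC => hm _ ?_
  simp only [Finset.mem_erase, Finset.mem_univ, and_true] at hC ⊢
  exact fun e => hC (by rw [← e]; exact (Quotient.out_eq C).symm)

theorem Bd.card_le (h : Bd G b) : Nat.card G ≤ 1 + (Nat.card (IrrCharacter G) - 1) * b ^ 2 := by
  classical
  rw [← sum_charDegree_sq, ← Finset.add_sum_erase _ _ (Finset.mem_univ (irrOne G)),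
    Nat.card_eq_fintype_card, ← Finset.card_univ,
    ← Finset.card_erase_of_mem (Finset.mem_univ (irrOne G)), ← smul_eq_mul]
  refine add_le_add (by simp [coe_irrOne]) (Finset.sum_le_card_nsmul _ _ _ fun χ _ => ?_)
  exact Nat.pow_le_pow_left (h _ (charDegree_mem_cd χ.2)) 2

theorem Bd.ne_240 (h : Bd G 4) (hk : Nat.card (IrrCharacter G) ≤ 16) : Nat.card G ≠ 240 := by
  classical
  intro e
  rw [← sum_charDegree_sq, ← Finset.add_sum_erase _ _ (Finset.mem_univ (irrOne G))] at e
  simp only [coe_irrOne, charDegree_one] at e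
  rw [Nat.card_eq_fintype_card, ← Finset.card_univ] at hk
  have hc := Finset.card_erase_of_mem (Finset.mem_univ (irrOne G))
  by_cases h4 : ∀ χ ∈ Finset.univ.erase (irrOne G), charDegree (χ : G → ℂ) = 4
  · rw [Finset.sum_congr rfl fun χ hχ => by rw [h4 χ hχ], Finset.sum_const, smul_eq_mul] at e
    omega
  push Not at h4
  obtain ⟨χ, hχ, h4⟩ := h4
  rw [← Finset.add_sum_erase _ _ hχ] at e
  have h5 := Finset.sum_le_card_nsmul ((Finset.univ.erase (irrOne G)).erase χ)
    (fun χ => charDegree (χ : G → ℂ) ^ 2) (4 ^ 2) fun χ _ =>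
      Nat.pow_le_pow_left (h _ (charDegree_mem_cd χ.2)) 2
  have h6 := Nat.pow_le_pow_left (show charDegree (χ : G → ℂ) ≤ 3 by
    have := h _ (charDegree_mem_cd χ.2); omega) 2
  rw [Finset.card_erase_of_mem hχ, hc, smul_eq_mul] at h5
  omega

theorem sum_ite_mem_sub [Fintype G] (H : Subgroup G) [Fintype H] [DecidablePred (· ∈ H)] (F : G → ℂ) :
    ∑ g, (if g ∈ H then F g else 0) = ∑ h : H, F h := by
  rw [← Finset.sum_filter]
  exact Finset.sum_subtype _ (by simp) F

theorem MinNonab.exists_ramified (h : MinNonab G) (hZ : center G ≠ ⊥) [DecidablePred (· ∈ center G)] :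
    ∃ β, IsIrrCharacter G β ∧ (center G).index = charDegree β ^ 2 ∧
      ∀ g, β g * conj (β g) = if g ∈ center G then (charDegree β : ℂ) ^ 2 else 0 := by
  have := Fintype.ofFinite G
  have := Fintype.ofFinite (center G)
  obtain ⟨⟨c, hc⟩, c1⟩ := ne_bot_iff_exists_ne_one.1 h.ne_bot
  obtain ⟨β, hβ, hb⟩ := exists_irr_apply_ne_of_ne_one (g := c) (by simpa using c1)
  have hk : charKer β = ⊥ := by_contra fun e =>
    hb (hβ.isCharacter.mem_charKer_iff.1 (h.le _ hβ.isCharacter.charKer_normal e hc))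
  have key : ∀ g, β g * conj (β g) = if g ∈ center G then (charDegree β : ℂ) ^ 2 else 0 := by
    intro g
    split_ifs with hg
    · rw [Complex.mul_conj, Complex.normSq_eq_norm_sq,
        hβ.isCharacter.mem_charCenter_iff.1 (hβ.center_le_charCenter hg), hβ.isCharacter.norm_apply_one]
      simp
    obtain ⟨y, hy⟩ : ∃ y, y * g ≠ g * y := by simpa [mem_center_iff] using hg
    obtain ⟨ω, -, hω⟩ := hβ.center_le_charCenter (h.le _ inferInstance hZ
      (commutator_mem_commutator (mem_top y) (mem_top g)))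
    have h1 := hω g
    rw [commutatorElement_def, inv_mul_cancel_right, hβ.isClassFunction.conj_apply] at h1
    have h2 : ω ≠ 1 := by
      rintro rfl
      have : ⁅y, g⁆ ∈ charKer β := fun x => by simpa using hω x
      rw [hk, mem_bot, commutatorElement_eq_one_iff_mul_comm] at this
      exact hy this
    have : β g = 0 := by
      by_contra e
      exact h2 (mul_right_cancel₀ e (by rw [← h1, one_mul]))
    simp [this]
  refine ⟨β, hβ, ?_, key⟩
  have h1 := card_mul_classInner β β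
  simp only [hβ.inner_self, key, sum_ite_mem_sub, Finset.sum_const, Finset.card_univ, nsmul_eq_mul,
    mul_one, ← Nat.card_eq_fintype_card, ← (center G).card_mul_index] at h1
  norm_cast at h1
  exact Nat.eq_of_mul_eq_mul_left Nat.card_pos h1

variable (h : Bd G b) {K : Subgroup G} [K.Normal] (hK : MinNonab (G ⧸ K))
include h hK

theorem Bd.case_central (hZ : center (G ⧸ K) ≠ ⊥) : ∃ H : Subgroup G, H.index ≤ b ^ 2 ∧ Bd H (b - 1) := by
  classical
  have := Fintype.ofFinite G
  obtain ⟨β, hβ, h1, h2⟩ := hK.exists_ramified hZ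
  set H := (center (G ⧸ K)).comap (QuotientGroup.mk' K)
  have := Fintype.ofFinite H
  have hi : H.index = charDegree β ^ 2 := by
    rw [index_comap_of_surjective _ (QuotientGroup.mk'_surjective K), h1]
  refine ⟨H, hi ▸ Nat.pow_le_pow_left (h.quot K _ (charDegree_mem_cd hβ)) 2, by_contra fun e => ?_⟩
  obtain ⟨θ, hθ, hd⟩ := (h.sub H).exists_top e
  obtain ⟨χ, hχ, rfl⟩ := h.ext H hθ hd
  have h3 : IsIrrCharacter G ((fun g : G => β (g : G ⧸ K)) * χ) := by
    refine (hβ.inflate.isCharacter.mul hχ.isCharacter).isIrrCharacter_of_inner_self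
      (mul_left_cancel₀ (card_ne_zero_complex G) ?_)
    have h4 := card_mul_classInner (fun x : H => χ x) (fun x : H => χ x)
    rw [hθ.inner_self] at h4
    rw [card_mul_classInner, mul_one, ← H.card_mul_index, hi, Nat.cast_mul, ← mul_one (Nat.card H : ℂ),
      h4, ← sum_ite_mem_sub H fun g => χ g * conj (χ g), Finset.sum_mul]
    refine Finset.sum_congr rfl fun g _ => ?_
    rw [Pi.mul_apply, map_mul, mul_mul_mul_comm, h2]
    by_cases hg : g ∈ H
    · rw [if_pos hg, if_pos (show (g : G ⧸ K) ∈ _ from hg)]; push_cast; ring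
    · rw [if_neg hg, if_neg (show ¬ (g : G ⧸ K) ∈ _ from hg)]; simp
  have h4 := h _ (charDegree_mem_cd h3)
  rw [charDegree_mul hβ.inflate.isCharacter hχ.isCharacter, charDegree_congr (ψ := β) (by simp),
    ← charDegree_congr (χ := fun x : H => χ x) (ψ := χ) rfl, hd] at h4
  have b0 : 0 < b := hd ▸ hθ.charDegree_pos
  have h5 : charDegree β = 1 := by have := hβ.charDegree_pos; nlinarith
  rw [h5, one_pow, index_eq_one] at h1
  exact hK.ne_bot (by
    rw [_root_.commutator, commutator_eq_bot_iff_le_centralizer, coe_top, centralizer_univ, h1])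

omit hK in
theorem Bd.card_dvd {L : Subgroup (G ⧸ K)} {θ : L.comap (QuotientGroup.mk' K) → ℂ}
    (hθ : IsIrrCharacter _ θ) (hd : charDegree θ = b) (h0 : ∀ g, θ g ≠ 0 → g.1 ∈ K) :
    Nat.card L ∣ b ^ 2 := by
  have h1 := index_dvd_sq (K.subgroupOf _) hθ fun g hg => by_contra fun e => hg (h0 g e)
  have h2 := relIndex_mul_index (show K ≤ L.comap (QuotientGroup.mk' K) from fun x hx => by
    simp [(QuotientGroup.eq_one_iff x).2 hx])
  rw [index_comap_of_surjective _ (QuotientGroup.mk'_surjective K), index_eq_card K,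
    ← L.card_mul_index] at h2
  rwa [hd, show (K.subgroupOf _).index = _ from Nat.eq_of_mul_eq_mul_right (Nat.pos_of_ne_zero index_ne_zero_of_finite) h2] at h1

theorem Bd.case_frob (hZ : center (G ⧸ K) = ⊥) (hs : Group.IsSolvable (G ⧸ K)) :
    (∃ H : Subgroup G, H.index ≤ b ^ 2 ∧ Bd H (b - 1)) ∨ (3 ≤ b ∧ K.index ≤ b ^ 3) := by
  have hnt : Nontrivial (G ⧸ K) := by
    by_contra! e
    exact hK.ne_bot (Subsingleton.elim _ _)
  obtain ⟨p, hp, h1 | ⟨h1, h2, h3, h4⟩⟩ := hK.struct inferInstance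
  · have : Fact p.Prime := ⟨hp⟩
    exact absurd hZ (Subgroup.nontrivial_iff_ne_bot _ |>.1 h1.center_nontrivial)
  set M := _root_.commutator (G ⧸ K)
  set N := M.comap (QuotientGroup.mk' K)
  have h5 := h _ (h4.mul_mem_cd _ (QuotientGroup.mk'_surjective K) hK.ne_bot h2 (N := N) rfl
    isIrrCharacter_one (by simp))
  rw [charDegree_one, mul_one] at h5
  replace h5 : M.index ≤ b := h5
  by_cases e : Bd N (b - 1)
  · refine Or.inl ⟨N, ?_, e⟩
    rw [index_comap_of_surjective _ (QuotientGroup.mk'_surjective K)]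
    nlinarith
  obtain ⟨θ, hθ, hd⟩ := (h.sub N).exists_top e
  have h6 := h.card_dvd hθ hd fun n hn => by
    rw [← QuotientGroup.eq_one_iff, ← mem_bot, ← hZ, mem_center_iff]
    intro g
    obtain ⟨g, rfl⟩ := QuotientGroup.mk_surjective g
    let ρ : N →* M := ((QuotientGroup.mk' K).comp N.subtype).codRestrict M fun n => n.2
    let n' : N := ⟨g * n * g⁻¹, (inferInstance : N.Normal).conj_mem _ n.2 g⟩
    have : ρ n' = ρ n := by
      by_contra c
      obtain ⟨χ, hχ, c2⟩ := exists_irr_apply_ne_of_ne_one (mul_inv_eq_one.not.2 c)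
      obtain ⟨l, rfl⟩ := hχ.exists_hom_of_comm
      obtain ⟨χ1, k1, rfl⟩ := h.ext N hθ hd
      obtain ⟨χ2, k2, k3⟩ := h.ext N (hθ.hom_mul (l.comp ρ)) (hd ▸ charDegree_congr (by simp))
      have k4 := congrFun k3 n
      have k5 := congrFun k3 n'
      simp only [n', k1.isClassFunction.conj_apply, k2.isClassFunction.conj_apply] at k5
      have k6 := mul_right_cancel₀ hn (k5.trans k4.symm)
      exact c2 (by simp_all [n'])
    exact mul_inv_eq_iff_eq_mul.1 (congrArg Subtype.val this)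
  have b0 : 0 < b := hd ▸ hθ.charDegree_pos
  have h7 := Nat.le_of_dvd (by positivity) h6
  refine Or.inr ⟨by_contra fun c => ?_, ?_⟩
  · have : Fact p.Prime := ⟨hp⟩
    have := (Subgroup.nontrivial_iff_ne_bot M).2 hK.ne_bot
    have h8 := hp.dvd_of_dvd_pow ((h1.card_eq_or_dvd.resolve_left Finite.one_lt_card.ne').trans h6)
    have h9 := Nat.le_of_dvd b0 h8
    have := hp.two_le
    have i0 : 0 < M.index := (Nat.pos_of_ne_zero index_ne_zero_of_finite)
    have : M.index = 1 := by
      by_contra c2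
      exact h3 (by rw [show M.index = p by omega])
    rw [index_eq_one] at this
    refine hK.ne_bot (commutator_eq_bot_iff_le_centralizer.2 fun x _ y _ => ?_)
    exact congrArg Subtype.val (h2.is_comm.comm ⟨y, this ▸ mem_top y⟩ ⟨x, this ▸ mem_top x⟩)
  · rw [index_eq_card, ← M.card_mul_index, pow_succ]
    exact Nat.mul_le_mul h7 h5

theorem Bd.case_nonsolv (hs : ¬ Group.IsSolvable (G ⧸ K)) :
    (∃ H : Subgroup G, H.index ≤ b ^ 2 ∧ Bd H (b - 1)) ∨ (5 ≤ b ∧ K.index ≤ b ^ 4) ∨
      (b = 4 ∧ K.index ≤ 144) := by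
  have hnt : Nontrivial (G ⧸ K) := by
    by_contra! e
    exact hK.ne_bot (Subsingleton.elim _ _)
  obtain ⟨x, x1, hx⟩ := exists_small_class (G := G ⧸ K)
  have h1 := (h.quot K).card_le
  have h2 : 1 < Nat.card (G ⧸ K) := Finite.one_lt_card
  set k := Nat.card (IrrCharacter (G ⧸ K)) - 1 with hk
  have k0 : 0 < k := Nat.pos_of_ne_zero fun e => by simp [e] at h1; omega
  have h3 : (centralizer {x}).index ≤ b ^ 2 := Nat.le_of_mul_le_mul_left (by omega) k0
  set H := (centralizer {x}).comap (QuotientGroup.mk' K)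
  by_cases e : Bd H (b - 1)
  · exact Or.inl ⟨H, by rwa [index_comap_of_surjective _ (QuotientGroup.mk'_surjective K)], e⟩
  obtain ⟨θ, hθ, hd⟩ := (h.sub H).exists_top e
  obtain ⟨χ, hχ, rfl⟩ := h.ext H hθ hd
  have := Fintype.ofFinite H
  have h6 := h.card_dvd hθ hd fun n hn => by
    have h4 := mem_normalCore_of_forall_extension H hχ.isClassFunction hθ
      (fun ψ hψ h0 => h.ext_all H hθ hd hψ h0) n.2 hn
    by_contra c
    have h5 : _root_.commutator (G ⧸ K) ≤ centralizer {x} :=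
      (hK.le _ (Normal.map inferInstance _ (QuotientGroup.mk'_surjective K)) (fun e => c (by
        rw [← QuotientGroup.eq_one_iff, ← mem_bot, ← e]; exact mem_map_of_mem _ h4))).trans
        (map_le_iff_le_comap.2 H.normalCore_le)
    have h7 := hK.le (centralizer (_root_.commutator (G ⧸ K))) inferInstance fun e => x1 (by
      rw [← mem_bot, ← e]; exact fun y hy => (h5 hy x rfl).symm)
    exact hs ⟨2, by
      rw [derivedSeries_succ, derivedSeries_one, commutator_eq_bot_iff_le_centralizer]; exact h7⟩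
  have b0 : 0 < b := hd ▸ hθ.charDegree_pos
  have h7 := Nat.le_of_dvd (by positivity) h6
  have h8 := (centralizer {x}).card_mul_index
  rw [index_eq_card K]
  by_cases b5 : 5 ≤ b
  · exact Or.inr (Or.inl ⟨b5, by rw [← h8, show b ^ 4 = b ^ 2 * b ^ 2 by ring]; gcongr⟩)
  have c0 : 0 < (centralizer {x}).index := (Nat.pos_of_ne_zero index_ne_zero_of_finite)
  generalize (centralizer {x}).index = c at *
  generalize Nat.card (centralizer {x}) = m at *
  have key : ∀ p q, p.Prime → q.Prime → ¬ b ^ 2 * c ∣ p ^ 8 * q ^ 8 := fun p q hp hq e =>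
    hs (isSolvable_of_card_dvd_pow_mul_pow _ hp hq (h8 ▸ (mul_dvd_mul_right h6 c).trans e))
  have k3 := key 2 3 (by norm_num) (by norm_num)
  have k5 := key 2 5 (by norm_num) (by norm_num)
  have k7 := key 2 7 (by norm_num) (by norm_num)
  have k11 := key 2 11 (by norm_num) (by norm_num)
  have k13 := key 2 13 (by norm_num) (by norm_num)
  have k15 := key 3 5 (by norm_num) (by norm_num)
  have k21 := key 3 7 (by norm_num) (by norm_num)
  have : b = 4 ∧ c = 15 := by
    clear key h6 h7 hx h1 e hθ hd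
    interval_cases b <;> interval_cases c <;> simp_all
  obtain ⟨rfl, rfl⟩ := this
  refine Or.inr (Or.inr ⟨rfl, by_contra fun c => (h.quot K).ne_240 (by omega) ?_⟩)
  have : m ∣ 16 := h6
  have : m = 16 := by interval_cases m <;> omega
  omega

omit h hK

theorem sq_mul_fact_half {b : ℕ} (hb : 5 ≤ b) : b ^ 2 * (b / 2)! ≤ b ! := by
  obtain ⟨c, rfl⟩ : ∃ c, b = c + 3 := ⟨b - 3, by omega⟩
  have := Nat.factorial_le (show (c + 3) / 2 ≤ c by omega)
  simp only [Nat.factorial_succ]
  calc _ ≤ (c + 3) ^ 2 * c ! := by gcongr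
    _ ≤ (c + 3) * ((c + 2) * (c + 1)) * c ! := by gcongr; nlinarith
    _ = _ := by ring

theorem Bd.step (h : Bd G b) (hn : _root_.commutator G ≠ ⊥) :
    ∃ (H : Subgroup G) (c : ℕ), c < b ∧ Bd H c ∧ H.index * c ! ^ 2 ≤ b ! ^ 2 := by
  obtain ⟨K, _, -, hK⟩ := exists_minNonab (G := G) ⊥ (by simpa using hn)
  have b0 : 0 < b := h 1 one_mem_cd
  have h1 := h.half K (fun e => hK.ne_bot (by
    rw [_root_.commutator, ← map_top_of_surjective _ (QuotientGroup.mk'_surjective K), ← map_commutator,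
      Subgroup.map_eq_bot_iff, QuotientGroup.ker_mk']; exact e))
  have good : (∃ H : Subgroup G, H.index ≤ b ^ 2 ∧ Bd H (b - 1)) →
      ∃ (H : Subgroup G) (c : ℕ), c < b ∧ Bd H c ∧ H.index * c ! ^ 2 ≤ b ! ^ 2 := by
    rintro ⟨H, h2, h3⟩
    refine ⟨H, b - 1, by omega, h3, ?_⟩
    rw [← Nat.mul_factorial_pred b0.ne', mul_pow]
    gcongr
  have big : 5 ≤ b → K.index ≤ b ^ 4 → K.index * (b / 2)! ^ 2 ≤ b ! ^ 2 := fun h2 h3 =>
    calc _ ≤ b ^ 4 * (b / 2)! ^ 2 := by gcongr
      _ = (b ^ 2 * (b / 2)!) ^ 2 := by ring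
      _ ≤ _ := Nat.pow_le_pow_left (sq_mul_fact_half h2) 2
  by_cases hs : Group.IsSolvable (G ⧸ K)
  · by_cases hZ : center (G ⧸ K) = ⊥
    · refine (h.case_frob hK hZ hs).elim good fun ⟨h2, h3⟩ => ⟨K, b / 2, by omega, h1, ?_⟩
      by_cases b5 : 5 ≤ b
      · exact big b5 (h3.trans (Nat.pow_le_pow_right b0 (by omega)))
      interval_cases b <;> simp [Nat.factorial] at h3 ⊢ <;> omega
    · exact good (h.case_central hK hZ)
  · rcases h.case_nonsolv hK hs with h2 | ⟨h2, h3⟩ | ⟨rfl, h3⟩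
    · exact good h2
    · exact ⟨K, b / 2, by omega, h1, big h2 h3⟩
    · exact ⟨K, 2, by omega, h1, by simp [Nat.factorial]; omega⟩

theorem Bd.exists_abelian (b : ℕ) : ∀ (G : Type u) [Group G] [Finite G], Bd G b →
    ∃ A : Subgroup G, (∀ x ∈ A, ∀ y ∈ A, x * y = y * x) ∧ A.index ≤ b ! ^ 2 := by
  induction b using Nat.strong_induction_on with
  | _ b ih =>
  intro G _ _ h
  by_cases hn : _root_.commutator G = ⊥
  · refine ⟨⊤, fun x _ y _ => (commutator_eq_bot_iff_le_centralizer.1 hn (mem_top y) x (mem_top x)), ?_⟩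
    rw [index_top]; exact Nat.one_le_iff_ne_zero.2 (by positivity)
  obtain ⟨H, c, h1, h2, h3⟩ := h.step hn
  obtain ⟨A, hA, h4⟩ := ih c h1 H h2
  refine ⟨A.map H.subtype, ?_, ?_⟩
  · rintro _ ⟨x, hx, rfl⟩ _ ⟨y, hy, rfl⟩
    rw [← map_mul, hA x hx y hy, map_mul]
  · rw [index_map_subtype, mul_comm]
    exact (Nat.mul_le_mul_left _ h4).trans h3

end Cfsg.Lib.CharDeg
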