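import Mathlib

/-! Poisson summation for Gaussians in several variables, by induction on the dimension. -/

set_option autoImplicit false

namespace Cfsg.Lib.CharDeg.Poisson

open Matrix Complex
open scoped Real

section algebra

variable {K : Type*} [Field K] {n : ℕ}

/-- First row without its first entry. -/
def row0 (A : Matrix (Fin (n + 1)) (Fin (n + 1)) K) : Fin n → K := fun j => A 0 j.succ

/-- Lower right block. -/
def low (A : Matrix (Fin (n + 1)) (Fin (n + 1)) K) : Matrix (Fin n) (Fin n) K :=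
  of fun i j => A i.succ j.succ

/-- Schur complement of the first diagonal entry. -/
def schur (A : Matrix (Fin (n + 1)) (Fin (n + 1)) K) : Matrix (Fin n) (Fin n) K :=
  of fun i j => A i.succ j.succ - A 0 i.succ * A 0 j.succ / A 0 0

theorem qf_cons {A : Matrix (Fin (n + 1)) (Fin (n + 1)) K} (hA : ∀ i j, A i j = A j i) (z₀ : K)
    (z : Fin n → K) : (Fin.cons z₀ z : Fin (n + 1) → K) ⬝ᵥ A *ᵥ (Fin.cons z₀ z : Fin (n + 1) → K) =
      A 0 0 * z₀ ^ 2 + 2 * z₀ * (row0 A ⬝ᵥ z) + z ⬝ᵥ low A *ᵥ z := by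
  simp only [dotProduct, mulVec, Fin.sum_univ_succ, Fin.cons_zero, Fin.cons_succ, row0, low,
    of_apply, mul_add, Finset.sum_add_distrib]
  have : ∑ i : Fin n, z i * (A i.succ 0 * z₀) = z₀ * ∑ i : Fin n, A 0 i.succ * z i := by
    rw [Finset.mul_sum]
    exact Finset.sum_congr rfl fun i _ => by rw [hA]; ring
  rw [this]; ring

theorem qf_schur (A : Matrix (Fin (n + 1)) (Fin (n + 1)) K) (z : Fin n → K) :
    z ⬝ᵥ schur A *ᵥ z = z ⬝ᵥ low A *ᵥ z - (row0 A ⬝ᵥ z) ^ 2 / A 0 0 := by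
  simp only [dotProduct, mulVec, row0, low, schur, of_apply]
  rw [pow_two, Finset.sum_mul_sum]
  simp only [Finset.sum_div, Finset.mul_sum, ← Finset.sum_sub_distrib]
  exact Finset.sum_congr rfl fun i _ => Finset.sum_congr rfl fun j _ => by ring

theorem bf_comm {C : Matrix (Fin n) (Fin n) K} (hC : ∀ i j, C i j = C j i) (u z : Fin n → K) :
    u ⬝ᵥ C *ᵥ z = z ⬝ᵥ C *ᵥ u := by
  simp only [dotProduct, mulVec, Finset.mul_sum]
  rw [Finset.sum_comm]
  exact Finset.sum_congr rfl fun i _ => Finset.sum_congr rfl fun j _ => by rw [hC]; ring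

theorem qf_add {C : Matrix (Fin n) (Fin n) K} (hC : ∀ i j, C i j = C j i) (z u : Fin n → K) :
    (z + u) ⬝ᵥ C *ᵥ (z + u) = z ⬝ᵥ C *ᵥ z + 2 * ((C *ᵥ u) ⬝ᵥ z) + u ⬝ᵥ C *ᵥ u := by
  rw [mulVec_add, add_dotProduct, dotProduct_add, dotProduct_add, bf_comm hC u z,
    dotProduct_comm (C *ᵥ u) z]
  ring

variable {A C : Matrix (Fin (n + 1)) (Fin (n + 1)) K}

theorem low_mulVec (hC : ∀ i j, C i j = C j i) (h : A * C = 1) :
    low C *ᵥ row0 A = (-A 0 0) • row0 C := by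
  funext k
  have := congrFun (congrFun h 0) k.succ
  rw [mul_apply, Fin.sum_univ_succ, one_apply_ne (Fin.succ_ne_zero k).symm] at this
  simp only [mulVec, dotProduct, low, row0, of_apply, Pi.smul_apply, smul_eq_mul]
  rw [Finset.sum_congr rfl fun j _ => (by rw [hC, mul_comm] :
    C k.succ j.succ * A 0 j.succ = A 0 j.succ * C j.succ k.succ)]
  linear_combination this

theorem schur_mul_low (hA : ∀ i j, A i j = A j i) (hC : ∀ i j, C i j = C j i) (h : A * C = 1)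
    (ha : A 0 0 ≠ 0) : schur A * low C = 1 := by
  ext i k
  have h1 := congrFun (congrFun h i.succ) k.succ
  have h2 := congrFun (congrFun h 0) k.succ
  rw [mul_apply, Fin.sum_univ_succ, one_apply_ne (Fin.succ_ne_zero k).symm] at h2
  rw [mul_apply, Fin.sum_univ_succ] at h1
  have h3 : (1 : Matrix (Fin n) (Fin n) K) i k =
      (1 : Matrix (Fin (n + 1)) (Fin (n + 1)) K) i.succ k.succ := by
    simp [one_apply]
  rw [h3, ← h1, mul_apply]
  simp only [schur, low, of_apply, sub_mul, Finset.sum_sub_distrib]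
  have h4 : ∑ j : Fin n, A 0 i.succ * A 0 j.succ / A 0 0 * C j.succ k.succ =
      A 0 i.succ / A 0 0 * ∑ j : Fin n, A 0 j.succ * C j.succ k.succ := by
    rw [Finset.mul_sum]; exact Finset.sum_congr rfl fun j _ => by ring
  rw [h4, hA i.succ 0, eq_neg_of_add_eq_zero_right h2]
  field_simp
  ring

theorem qf_inv (hC : ∀ i j, C i j = C j i) (h : A * C = 1) (ha : A 0 0 ≠ 0) (z₀ : K)
    (z : Fin n → K) : (Fin.cons z₀ z : Fin (n + 1) → K) ⬝ᵥ C *ᵥ (Fin.cons z₀ z : Fin (n + 1) → K) =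
      z₀ ^ 2 / A 0 0 + (z + (-z₀ / A 0 0) • row0 A) ⬝ᵥ low C *ᵥ (z + (-z₀ / A 0 0) • row0 A) := by
  have h0 := congrFun (congrFun h 0) 0
  rw [mul_apply, Fin.sum_univ_succ, one_apply_eq] at h0
  have h1 : row0 A ⬝ᵥ row0 C = 1 - A 0 0 * C 0 0 := by
    rw [← h0]
    simp only [dotProduct, row0, hC 0]
    ring
  rw [qf_cons hC, qf_add (C := low C) (fun i j => hC _ _), mulVec_smul, low_mulVec hC h]
  simp only [smul_dotProduct, dotProduct_smul, smul_eq_mul, h1]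
  field_simp
  ring

end algebra

/-- Uniform positivity. -/
def Pos {n : ℕ} (ε : ℝ) (A : Matrix (Fin n) (Fin n) ℝ) : Prop :=
  ∀ x : Fin n → ℝ, ε * ∑ i, x i ^ 2 ≤ x ⬝ᵥ A *ᵥ x

variable {n : ℕ}

theorem Pos.le {ε : ℝ} {A : Matrix (Fin (n + 1)) (Fin (n + 1)) ℝ} (hA : ∀ i j, A i j = A j i)
    (h : Pos ε A) : ε ≤ A 0 0 := by
  have := h (Fin.cons 1 0)
  rw [qf_cons hA] at this
  simpa [Fin.sum_univ_succ] using this

theorem Pos.low {ε : ℝ} {A : Matrix (Fin (n + 1)) (Fin (n + 1)) ℝ} (hA : ∀ i j, A i j = A j i)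
    (h : Pos ε A) : Pos ε (low A) := fun x => by
  have := h (Fin.cons 0 x)
  rw [qf_cons hA] at this
  simpa [Fin.sum_univ_succ] using this

theorem Pos.schur {ε : ℝ} (hε : 0 < ε) {A : Matrix (Fin (n + 1)) (Fin (n + 1)) ℝ}
    (hA : ∀ i j, A i j = A j i) (h : Pos ε A) : Pos ε (schur A) := fun x => by
  have ha : A 0 0 ≠ 0 := (hε.trans_le (h.le hA)).ne'
  have := h (Fin.cons (-(row0 A ⬝ᵥ x) / A 0 0) x)
  rw [qf_cons hA, Fin.sum_univ_succ] at this
  simp only [Fin.cons_zero, Fin.cons_succ] at this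
  rw [qf_schur]
  have e : A 0 0 * (-(row0 A ⬝ᵥ x) / A 0 0) ^ 2 + 2 * (-(row0 A ⬝ᵥ x) / A 0 0) * (row0 A ⬝ᵥ x) =
      -((row0 A ⬝ᵥ x) ^ 2 / A 0 0) := by field_simp; ring
  have := mul_nonneg hε.le (sq_nonneg (-(row0 A ⬝ᵥ x) / A 0 0))
  linarith

theorem summ1 {s : ℂ} (hs : 0 < s.re) (β : ℂ) :
    Summable fun m : ℤ => ‖cexp (-π * s * m ^ 2 + 2 * π * β * m)‖ := by
  have := ((summable_jacobiTheta₂_term_iff (-I * β) (I * s)).2 (by simpa using hs)).norm
  refine this.congr fun m => ?_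
  rw [jacobiTheta₂_term]
  congr 2
  linear_combination (π * s * m ^ 2 - 2 * π * β * m) * I_mul_I

theorem summ1' {s : ℂ} (hs : 0 < s.re) (c : ℂ) :
    Summable fun m : ℤ => ‖cexp (-π * s * (m + c) ^ 2)‖ := by
  refine ((summ1 hs (-s * c)).mul_right ‖cexp (-π * s * c ^ 2)‖).congr fun m => ?_
  rw [← norm_mul, ← Complex.exp_add]
  congr 2
  ring

theorem summable_pi : ∀ (n : ℕ) (g : Fin n → ℤ → ℝ), (∀ i m, 0 ≤ g i m) → (∀ i, Summable (g i)) →
    Summable fun x : Fin n → ℤ => ∏ i, g i (x i)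
  | 0, _, _, _ => Summable.of_finite
  | n + 1, g, h0, hs => by
    rw [← (Fin.consEquiv fun _ => ℤ).summable_iff]
    have := (hs 0).mul_of_nonneg (summable_pi n (fun i => g i.succ) (fun i => h0 _) fun i => hs _)
      (h0 0) (fun x => Finset.prod_nonneg fun i _ => h0 _ _)
    refine this.congr fun p => ?_
    simp [Fin.prod_univ_succ, Fin.consEquiv]

/-- Complexification of a real matrix. -/
abbrev cx (A : Matrix (Fin n) (Fin n) ℝ) : Matrix (Fin n) (Fin n) ℂ := A.map ofReal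

/-- Integer vector as a complex vector. -/
abbrev iv (x : Fin n → ℤ) : Fin n → ℂ := fun i => x i

/-- Gaussian with a linear term. -/
noncomputable def T (A : Matrix (Fin n) (Fin n) ℝ) (t : ℂ) (b : Fin n → ℂ) (x : Fin n → ℤ) : ℂ :=
  cexp (-π * t * (iv x ⬝ᵥ cx A *ᵥ iv x) + 2 * π * (b ⬝ᵥ iv x))

/-- Shifted Gaussian. -/
noncomputable def U (C : Matrix (Fin n) (Fin n) ℝ) (t : ℂ) (b : Fin n → ℂ) (y : Fin n → ℤ) : ℂ :=
  cexp (-π / t * ((iv y + I • b) ⬝ᵥ cx C *ᵥ (iv y + I • b)))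

theorem qf_cast (A : Matrix (Fin n) (Fin n) ℝ) (x : Fin n → ℤ) :
    iv x ⬝ᵥ cx A *ᵥ iv x = (((fun i => (x i : ℝ)) ⬝ᵥ A *ᵥ (fun i => (x i : ℝ)) : ℝ) : ℂ) := by
  simp [dotProduct, mulVec]

theorem summT {ε : ℝ} (hε : 0 < ε) {A : Matrix (Fin n) (Fin n) ℝ} (h : Pos ε A) {t : ℂ}
    (ht : 0 < t.re) (b : Fin n → ℂ) : Summable fun x => ‖T A t b x‖ := by
  have := summable_pi n (fun i m => ‖cexp (-π * ((t.re * ε : ℝ) : ℂ) * m ^ 2 + 2 * π * b i * m)‖)
    (fun _ _ => norm_nonneg _) fun i => summ1 (by simpa using mul_pos ht hε) (b i)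
  refine Summable.of_nonneg_of_le (fun _ => norm_nonneg _) (fun x => ?_) this
  simp only [T, Complex.norm_exp, ← Real.exp_sum, Real.exp_le_exp]
  rw [qf_cast]
  have h1 := mul_le_mul_of_nonneg_left (h fun i => (x i : ℝ)) (mul_pos Real.pi_pos ht).le
  have e1 : ∀ i, (-π * ((t.re * ε : ℝ) : ℂ) * (x i : ℂ) ^ 2 + 2 * π * b i * x i).re =
      -(π * t.re) * ε * (x i : ℝ) ^ 2 + 2 * π * ((b i).re * x i) := fun i => by
    simp [pow_two]; ring
  simp only [e1, Finset.sum_add_distrib, ← Finset.mul_sum]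
  generalize ((fun i => (x i : ℝ)) ⬝ᵥ A *ᵥ (fun i => (x i : ℝ)) : ℝ) = Q at *
  have e2 : (b ⬝ᵥ iv x).re = ∑ i, (b i).re * x i := by simp [dotProduct]
  have e3 : (-π * t * (Q : ℂ) + 2 * π * (b ⬝ᵥ iv x)).re = -(π * t.re) * Q + 2 * π * (b ⬝ᵥ iv x).re := by
    simp
  rw [e3, e2]
  linarith

theorem re_inv_pos {t : ℂ} (ht : 0 < t.re) : 0 < (t⁻¹).re := by
  rw [inv_re]
  exact div_pos ht (normSq_pos.2 fun h => by simp [h] at ht)

theorem summU {ε : ℝ} (hε : 0 < ε) {C : Matrix (Fin n) (Fin n) ℝ} (hC : ∀ i j, C i j = C j i)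
    (h : Pos ε C) {t : ℂ} (ht : 0 < t.re) (b : Fin n → ℂ) : Summable fun y => ‖U C t b y‖ := by
  refine ((summT hε h (re_inv_pos ht) ((-t⁻¹) • (cx C *ᵥ (I • b)))).mul_right
    ‖cexp (-π / t * ((I • b) ⬝ᵥ cx C *ᵥ (I • b)))‖).congr fun y => ?_
  rw [← norm_mul, T, U, ← Complex.exp_add, qf_add (C := cx C) (fun i j => by simp [hC i j]),
    smul_dotProduct, smul_eq_mul]
  congr 2
  ring

theorem iv_cons (x₀ : ℤ) (x : Fin n → ℤ) :
    iv (Fin.cons x₀ x : Fin (n + 1) → ℤ) = Fin.cons (x₀ : ℂ) (iv x) := by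
  funext i
  refine Fin.cases ?_ (fun j => ?_) i <;> rfl

theorem poisson : ∀ (n : ℕ) (A C : Matrix (Fin n) (Fin n) ℝ) (ε : ℝ), 0 < ε →
    (∀ i j, A i j = A j i) → (∀ i j, C i j = C j i) → A * C = 1 → Pos ε A → Pos ε C →
    ∃ κ : ℂ, ∀ t : ℂ, 0 < t.re → ∀ b : Fin n → ℂ,
      ∑' x, T A t b x = κ * (1 / t ^ (1 / 2 : ℂ)) ^ n * ∑' y, U C t b y
  | 0, A, C, _, _, _, _, _, _, _ => ⟨1, fun t _ b => by simp [T, U]⟩
  | n + 1, A, C, ε, hε, hA, hC, hAC, pA, pC => by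
    have ha : 0 < A 0 0 := hε.trans_le (pA.le hA)
    have ha' : (A 0 0 : ℂ) ≠ 0 := by exact_mod_cast ha.ne'
    obtain ⟨κ, hκ⟩ := poisson n (schur A) (low C) ε hε
      (fun i j => by simp only [schur, of_apply, hA i.succ, mul_comm]) (fun i j => hC _ _)
      (schur_mul_low hA hC hAC ha.ne') (pA.schur hε hA) (pC.low hC)
    refine ⟨κ * (1 / (A 0 0 : ℂ) ^ (1 / 2 : ℂ)), fun t ht b => ?_⟩
    have ht0 : t ≠ 0 := fun h => by simp [h] at ht
    have hta : 0 < (t * A 0 0).re := by simpa using mul_pos ht ha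
    have hAc : ∀ i j, cx A i j = cx A j i := fun i j => by simp [hA i j]
    have hCc : ∀ i j, cx C i j = cx C j i := fun i j => by simp [hC i j]
    have hACc : cx A * cx C = 1 := by
      have := congrArg (fun M => M.map ofRealHom) hAC
      simp only [Matrix.map_mul, Matrix.map_one _ (map_zero _) (map_one _)] at this
      exact this
    have hsch : cx (schur A) = schur (cx A) := by ext i j; simp [schur]
    have hlow : cx (low C) = low (cx C) := rfl
    obtain ⟨b₀, b', rfl⟩ : ∃ b₀ b', b = Fin.cons b₀ b' := ⟨b 0, Fin.tail b, (Fin.cons_self_tail b).symm⟩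
    have hdot : ∀ (x₀ : ℂ) (x : Fin n → ℂ),
        (Fin.cons b₀ b' : Fin (n + 1) → ℂ) ⬝ᵥ Fin.cons x₀ x = b₀ * x₀ + b' ⬝ᵥ x := fun x₀ x => by
      simp [dotProduct, Fin.sum_univ_succ]
    let v : Fin n → ℂ := row0 (cx A)
    let M : (Fin n → ℤ) → ℤ → ℂ := fun x y₀ => cexp (-π * (t * A 0 0)⁻¹ * (y₀ + I * b₀) ^ 2) *
      T (schur A) t (b' + (I * (y₀ + I * b₀) / A 0 0) • v) x
    have s1 : Summable fun p : (Fin n → ℤ) × ℤ => T A t (Fin.cons b₀ b') (Fin.cons p.2 p.1) :=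
      (((Equiv.prodComm _ _).trans (Fin.consEquiv fun _ => ℤ)).summable_iff.2
        (summT hε pA ht (Fin.cons b₀ b')).of_norm)
    have s2 : Summable fun p : ℤ × (Fin n → ℤ) => U C t (Fin.cons b₀ b') (Fin.cons p.1 p.2) :=
      ((Fin.consEquiv fun _ => ℤ).summable_iff.2 (summU hε hC pC ht (Fin.cons b₀ b')).of_norm)
    have s3 : Summable (Function.uncurry M) := by
      refine Summable.of_norm ?_
      have := (summT hε (pA.schur hε hA) ht (b' + (-b₀ / A 0 0) • v)).mul_of_nonneg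
        (summ1' (re_inv_pos hta) (I * b₀)) (fun _ => norm_nonneg _) (fun _ => norm_nonneg _)
      refine this.congr fun p => ?_
      have e : T (schur A) t (b' + (I * (p.2 + I * b₀) / A 0 0) • v) p.1 =
          T (schur A) t (b' + (-b₀ / A 0 0) • v) p.1 *
            cexp ((2 * π * p.2 / A 0 0 * (row0 A ⬝ᵥ fun i => (p.1 i : ℝ)) : ℝ) * I) := by
        have : ((row0 A ⬝ᵥ fun i => (p.1 i : ℝ) : ℝ) : ℂ) = v ⬝ᵥ iv p.1 := by
          simp [v, dotProduct, row0]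
        rw [T, T, ← Complex.exp_add]
        push_cast
        rw [this]
        simp only [add_dotProduct, smul_dotProduct, smul_eq_mul]
        congr 1
        linear_combination (2 * π * b₀ / A 0 0 * (v ⬝ᵥ iv p.1)) * I_mul_I
      simp only [Function.uncurry, M]
      rw [e, norm_mul, norm_mul, norm_exp_ofReal_mul_I]
      ring
    have step1 : ∀ x : Fin n → ℤ, ∑' x₀ : ℤ, T A t (Fin.cons b₀ b') (Fin.cons x₀ x) =
        1 / (t * A 0 0) ^ (1 / 2 : ℂ) * ∑' y₀, M x y₀ := fun x => by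
      have e : ∀ x₀ : ℤ, T A t (Fin.cons b₀ b') (Fin.cons x₀ x) =
          cexp (-π * t * (iv x ⬝ᵥ low (cx A) *ᵥ iv x) + 2 * π * (b' ⬝ᵥ iv x)) *
            cexp (-π * (t * A 0 0) * x₀ ^ 2 + 2 * π * (b₀ - t * (v ⬝ᵥ iv x)) * x₀) := fun x₀ => by
        rw [T, iv_cons, qf_cons hAc, hdot, ← Complex.exp_add]
        congr 1
        simp only [v, map_apply]
        ring
      simp only [e]
      rw [tsum_mul_left, tsum_exp_neg_quadratic hta, mul_left_comm, ← tsum_mul_left]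
      congr 2
      funext y₀
      simp only [M, T]
      rw [← Complex.exp_add, ← Complex.exp_add, hsch, qf_schur]
      simp only [add_dotProduct, smul_dotProduct, smul_eq_mul, map_apply]
      congr 1
      change _ = _ + (-π * t * (_ - (v ⬝ᵥ iv x) ^ 2 / _) + _)
      field_simp
      linear_combination (-(t * (v ⬝ᵥ iv x)) ^ 2) * I_mul_I
    have step2 : ∀ y₀ : ℤ, ∑' x, M x y₀ = κ * (1 / t ^ (1 / 2 : ℂ)) ^ n *
        ∑' y, U C t (Fin.cons b₀ b') (Fin.cons y₀ y) := fun y₀ => by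
      simp only [M]
      rw [tsum_mul_left, hκ t ht, mul_left_comm, ← tsum_mul_left]
      congr 2
      funext y
      have e : iv (Fin.cons y₀ y : Fin (n + 1) → ℤ) + I • (Fin.cons b₀ b' : Fin (n + 1) → ℂ) =
          Fin.cons (y₀ + I * b₀) (iv y + I • b') := by
        funext i
        refine Fin.cases ?_ (fun j => ?_) i <;> rfl
      have e2 : iv y + I • (b' + (I * (y₀ + I * b₀) / A 0 0) • v) =
          iv y + I • b' + (-(y₀ + I * b₀) / cx A 0 0) • row0 (cx A) := by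
        funext i
        simp only [Pi.add_apply, Pi.smul_apply, smul_eq_mul, v, map_apply]
        linear_combination ((y₀ + I * b₀) / A 0 0 * row0 (cx A) i) * I_mul_I
      rw [U, U, e, qf_inv hCc hACc ha', e2, hlow, ← Complex.exp_add]
      congr 1
      simp only [map_apply]
      field_simp
      ring
    have hsq : (t * A 0 0) ^ (1 / 2 : ℂ) = t ^ (1 / 2 : ℂ) * (A 0 0 : ℂ) ^ (1 / 2 : ℂ) := by
      rw [cpow_def_of_ne_zero (mul_ne_zero ht0 ha'), cpow_def_of_ne_zero ht0,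
        cpow_def_of_ne_zero ha', log_mul_ofReal _ ha _ ht0, ← Complex.exp_add, ofReal_log ha.le]
      congr 1
      ring
    rw [← ((Equiv.prodComm _ _).trans (Fin.consEquiv fun _ => ℤ)).tsum_eq,
      ← (Fin.consEquiv fun _ => ℤ).tsum_eq]
    refine s1.tsum_prod.trans (Eq.trans ?_ (congrArg _ s2.tsum_prod.symm))
    simp only [step1]
    rw [tsum_mul_left, ← s3.tsum_comm]
    simp only [step2]
    rw [tsum_mul_left, hsq]
    ring

end Cfsg.Lib.CharDeg.Poisson
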