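import Mathlib
import Cfsg.Agent.Lib.Core.Fitting

/-!
Fixed spaces of elements in representations in which every abelian normal subgroup acts fixed-point-freely.
-/

set_option autoImplicit false

namespace Cfsg.Lib.CharDeg.PrimFix

open Module
open scoped commutatorElement

variable {X : Type*} [Group X] {F : Type*} [Field F] {V : Type*} [AddCommGroup V] [Module F V]

/-- the fixed space of an element -/
def fix (ρ : X →* End F V) (x : X) : Submodule F V := End.eigenspace (ρ x) 1

theorem mem_fix {ρ : X →* End F V} {x : X} {v : V} : v ∈ fix ρ x ↔ ρ x v = v := by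
  unfold fix; rw [End.mem_eigenspace_iff, one_smul]

theorem apply_inv_apply (ρ : X →* End F V) (x : X) (v : V) : ρ x⁻¹ (ρ x v) = v := by
  rw [← End.mul_apply, ← map_mul, inv_mul_cancel, map_one, End.one_apply]

theorem apply_apply_inv (ρ : X →* End F V) (x : X) (v : V) : ρ x (ρ x⁻¹ v) = v := by
  rw [← End.mul_apply, ← map_mul, mul_inv_cancel, map_one, End.one_apply]

theorem injective_apply (ρ : X →* End F V) (x : X) : Function.Injective (ρ x) :=
  Function.LeftInverse.injective (apply_inv_apply ρ x)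

theorem finrank_map [FiniteDimensional F V] (ρ : X →* End F V) (x : X) (W : Submodule F V) :
    finrank F (W.map (ρ x)) = finrank F W :=
  (Submodule.equivMapOfInjective _ (injective_apply ρ x) W).finrank_eq.symm

theorem fix_conj (ρ : X →* End F V) (x y : X) : fix ρ (y * x * y⁻¹) = (fix ρ x).map (ρ y) := by
  ext v
  simp only [mem_fix, Submodule.mem_map, map_mul, End.mul_apply]
  constructor
  · intro h
    refine ⟨ρ y⁻¹ v, ?_, apply_apply_inv ρ y v⟩
    apply injective_apply ρ y
    rw [h, apply_apply_inv]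
  · rintro ⟨w, hw, rfl⟩
    rw [apply_inv_apply, hw]

theorem fix_inv (ρ : X →* End F V) (x : X) : fix ρ x⁻¹ = fix ρ x := by
  ext v
  simp only [mem_fix]
  constructor
  · intro h
    conv_lhs => rw [← h]
    exact apply_apply_inv ρ x v
  · intro h
    conv_lhs => rw [← h]
    exact apply_inv_apply ρ x v

theorem finrank_fix_commutator [FiniteDimensional F V] (ρ : X →* End F V) (x y : X) :
    2 * finrank F (fix ρ x) ≤ finrank F (fix ρ ⁅x, y⁆) + finrank F V := by
  have h1 : fix ρ x ⊓ fix ρ (y * x⁻¹ * y⁻¹) ≤ fix ρ ⁅x, y⁆ := by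
    intro v hv
    have : ⁅x, y⁆ = x * (y * x⁻¹ * y⁻¹) := by rw [commutatorElement_def]; group
    rw [mem_fix, this, map_mul, End.mul_apply, mem_fix.1 hv.2, mem_fix.1 hv.1]
  have h2 := Submodule.finrank_sup_add_finrank_inf_eq (fix ρ x) (fix ρ (y * x⁻¹ * y⁻¹))
  have h3 : finrank F (fix ρ (y * x⁻¹ * y⁻¹)) = finrank F (fix ρ x) := by
    rw [fix_conj, finrank_map, fix_inv]
  have h4 := Submodule.finrank_mono h1
  have h5 := Submodule.finrank_le (fix ρ x ⊔ fix ρ (y * x⁻¹ * y⁻¹))
  omega

/-- every abelian normal subgroup acts fixed-point-freely -/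
def AbFree (ρ : X →* End F V) : Prop :=
  ∀ A : Subgroup X, A.Normal → (∀ a ∈ A, ∀ b ∈ A, a * b = b * a) → ∀ a ∈ A, a ≠ 1 → fix ρ a = ⊥

theorem AbFree.nilpotent [FiniteDimensional F V] {ρ : X →* End F V} (hρ : AbFree ρ) {K : Subgroup X}
    [K.Normal] [Group.IsNilpotent K] {h : X} (hK : h ∈ K) (h1 : h ≠ 1) :
    2 * finrank F (fix ρ h) ≤ finrank F V := by
  by_contra hc
  push Not at hc
  set N := Subgroup.normalClosure ({h} : Set X) with hN
  have hNK : N ≤ K := Subgroup.normalClosure_le_normal (by simpa using hK)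
  haveI : Group.IsNilpotent N :=
    Group.nilpotent_of_mulEquiv (Subgroup.subgroupOfEquivOfLe hNK)
  set A : Subgroup X := N ⊓ Subgroup.centralizer (N : Set X) with hA
  haveI : A.Normal := inferInstance
  have hAc : ∀ a ∈ A, ∀ b ∈ A, a * b = b * a := fun a ha b hb => hb.2 a ha.1
  have key : ∀ k, ∀ x : N, x ∈ Subgroup.upperCentralSeries N k → (x : X) ∈ A := by
    intro k
    induction k with
    | zero =>
      intro x hx
      rw [Subgroup.upperCentralSeries_zero, Subgroup.mem_bot] at hx
      rw [hx]; exact A.one_mem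
    | succ k ih =>
      intro x hx
      rw [Subgroup.mem_upperCentralSeries_succ_iff] at hx
      refine ⟨x.2, ?_⟩
      have : N ≤ Subgroup.centralizer ({(x : X)} : Set X) := by
        refine (Subgroup.closure_le _).2 ?_
        intro y hy
        obtain ⟨h', hh', hc'⟩ := Group.mem_conjugatesOfSet_iff.1 hy
        rw [Set.mem_singleton_iff] at hh'
        subst hh'
        obtain ⟨c, rfl⟩ := isConj_iff.1 hc'
        have hyN : c * h' * c⁻¹ ∈ N := Subgroup.conjugatesOfSet_subset_normalClosure hy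
        have h2 := ih _ (hx ⟨_, hyN⟩)
        have h3 : ⁅c * h' * c⁻¹, (x : X)⁆ ∈ A := by
          rw [← commutatorElement_inv]; exact A.inv_mem h2
        have h4 := finrank_fix_commutator ρ (c * h' * c⁻¹) x
        rw [fix_conj, finrank_map] at h4
        by_contra hne
        have h5 : ⁅c * h' * c⁻¹, (x : X)⁆ ≠ 1 := by
          intro h6
          apply hne
          rw [commutatorElement_eq_one_iff_mul_comm] at h6
          simp only [SetLike.mem_coe, Subgroup.mem_centralizer_iff, Set.mem_singleton_iff, forall_eq]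
          exact h6.symm
        rw [hρ A inferInstance hAc _ h3 h5, finrank_bot] at h4
        omega
      intro y hy
      exact (this hy x rfl).symm
  obtain ⟨k, hk⟩ := Group.IsNilpotent.nilpotent N
  have hh : h ∈ N := Subgroup.subset_normalClosure rfl
  have := key k ⟨h, hh⟩ (by rw [hk]; trivial)
  rw [hρ A inferInstance hAc h this h1, finrank_bot] at hc
  omega

theorem AbFree.solvable [Finite X] [Group.IsSolvable X] [FiniteDimensional F V] {ρ : X →* End F V}
    (hρ : AbFree ρ) {g : X} (h1 : g ≠ 1) : 4 * finrank F (fix ρ g) ≤ 3 * finrank F V := by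
  by_cases hc : g ∈ Subgroup.centralizer (fittingSubgroup X : Set X)
  · have := hρ.nilpotent (Cfsg.Lib.Core.centralizer_fittingSubgroup_le hc) h1
    omega
  · rw [Subgroup.mem_centralizer_iff] at hc
    push Not at hc
    obtain ⟨y, hy, hne⟩ := hc
    have hm : ⁅g, y⁆ ∈ fittingSubgroup X := by
      rw [commutatorElement_def]
      exact Subgroup.mul_mem _ (Subgroup.Normal.conj_mem inferInstance y hy g) (Subgroup.inv_mem _ hy)
    have h2 : ⁅g, y⁆ ≠ 1 := by
      rw [Ne, commutatorElement_eq_one_iff_mul_comm]; exact fun h => hne h.symm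
    have h3 := hρ.nilpotent hm h2
    have h4 := finrank_fix_commutator ρ g y
    omega

/-- The common fixed space of a subgroup. -/
def fixS (ρ : X →* End F V) (B : Subgroup X) : Submodule F V := ⨅ b ∈ B, fix ρ b

theorem mem_fixS {ρ : X →* End F V} {B : Subgroup X} {v : V} : v ∈ fixS ρ B ↔ ∀ b ∈ B, ρ b v = v := by
  simp [fixS, mem_fix]

/-- stabiliser of a vector -/
def stab (ρ : X →* End F V) (v : V) : Subgroup X where
  carrier := {x | ρ x v = v}
  one_mem' := by simp
  mul_mem' {a b} ha hb := by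
    simp only [Set.mem_setOf_eq] at *
    rw [map_mul, End.mul_apply, hb, ha]
  inv_mem' {a} ha := by
    simp only [Set.mem_setOf_eq] at *
    conv_lhs => rw [← ha]
    exact apply_inv_apply ρ a v

theorem mem_stab {ρ : X →* End F V} {v : V} {x : X} : x ∈ stab ρ v ↔ ρ x v = v := Iff.rfl

theorem fixS_map (ρ : X →* End F V) (B : Subgroup X) (x : X) :
    (fixS ρ B).map (ρ x) = fixS ρ (B.map (MulAut.conj x).toMonoidHom) := by
  ext v
  simp only [Submodule.mem_map, mem_fixS, Subgroup.mem_map]
  constructor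
  · rintro ⟨w, hw, rfl⟩ _ ⟨b, hb, rfl⟩
    change ρ (x * b * x⁻¹) _ = _
    rw [map_mul, map_mul, End.mul_apply, End.mul_apply, apply_inv_apply, hw b hb]
  · intro h
    refine ⟨ρ x⁻¹ v, fun b hb => ?_, apply_apply_inv ρ x v⟩
    apply injective_apply ρ x
    have := h _ ⟨b, hb, rfl⟩
    change ρ (x * b * x⁻¹) _ = _ at this
    rw [map_mul, map_mul, End.mul_apply, End.mul_apply] at this
    rw [this, apply_apply_inv]

/-- If some non-identity element of an abelian normal subgroup has a fixed vector, there is a subspace whose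
translates are independent and on which a non-identity element acts trivially. -/
theorem exists_indep [Finite X] (ρ : X →* End F V) (A : Subgroup X) [A.Normal]
    (hA : ∀ a ∈ A, ∀ b ∈ A, a * b = b * a) {a : X} (ha : a ∈ A) (h1 : a ≠ 1) (hf : fix ρ a ≠ ⊥) :
    ∃ W : Submodule F V, W ≠ ⊥ ∧ (∃ b : X, b ≠ 1 ∧ ∀ w ∈ W, ρ b w = w) ∧
      iSupIndep (fun U : Set.range (fun x : X => W.map (ρ x)) => (U : Submodule F V)) := by
  classical
  obtain ⟨v₀, hv₀, hv₀'⟩ := (Submodule.ne_bot_iff _).1 hf
  obtain ⟨v, hv, hmax⟩ : ∃ v : V, v ≠ 0 ∧ ∀ w : V, w ≠ 0 →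
      Nat.card ↥(A ⊓ stab ρ w) ≤ Nat.card ↥(A ⊓ stab ρ v) := by
    obtain ⟨_, ⟨v, hv, rfl⟩, h⟩ := Set.exists_max_image
      ((fun v => Nat.card ↥(A ⊓ stab ρ v)) '' {v : V | v ≠ 0}) id
      (((Set.finite_le_nat (Nat.card X)).subset (by
        rintro _ ⟨v, -, rfl⟩
        exact Subgroup.card_le_card_group _))) ⟨_, v₀, hv₀', rfl⟩
    exact ⟨v, hv, fun w hw => h _ ⟨w, hw, rfl⟩⟩
  set B := A ⊓ stab ρ v with hB
  have hvB : v ∈ fixS ρ B := mem_fixS.2 fun b hb => hb.2
  refine ⟨fixS ρ B, (Submodule.ne_bot_iff _).2 ⟨v, hvB, hv⟩, ?_, ?_⟩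
  · have h2 : 1 < Nat.card ↥(A ⊓ stab ρ v₀) := by
      rw [Subgroup.one_lt_card_iff_ne_bot, Subgroup.ne_bot_iff_exists_ne_one]
      exact ⟨⟨a, ha, mem_fix.1 hv₀⟩, fun h => h1 (congrArg Subtype.val h)⟩
    have h3 : B ≠ ⊥ := (Subgroup.one_lt_card_iff_ne_bot _).1 (h2.trans_le (hmax v₀ hv₀'))
    obtain ⟨⟨b, hb⟩, hb1⟩ := Subgroup.ne_bot_iff_exists_ne_one.1 h3
    exact ⟨b, fun h => hb1 (Subtype.ext h), fun w hw => mem_fixS.1 hw b hb⟩
  · have hU : ∀ U : Set.range (fun x : X => (fixS ρ B).map (ρ x)), ∃ C : Subgroup X, C ≤ A ∧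
        Nat.card C = Nat.card B ∧ (U : Submodule F V) = fixS ρ C := by
      rintro ⟨_, x, rfl⟩
      refine ⟨B.map (MulAut.conj x).toMonoidHom, ?_, Subgroup.card_map_of_injective
        (MulAut.conj x).injective, fixS_map ρ B x⟩
      rintro _ ⟨b, hb, rfl⟩
      exact Subgroup.Normal.conj_mem inferInstance b hb.1 x
    choose C hCA hC hUC using hU
    rw [iSupIndep_iff_finsetSum_eq_zero_imp_eq_zero]
    intro s
    induction s using Finset.induction_on with
    | empty => intro w _ _ i hi; simp at hi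
    | insert i₀ s hi₀ ih =>
      intro w hw hsum
      rw [Finset.sum_insert hi₀] at hsum
      have hs : ∀ j ∈ s, w j = 0 := by
        intro j hj
        by_contra hne
        have hwj : w j ∈ fixS ρ (C j) := hUC j ▸ hw j (Finset.mem_insert_of_mem hj)
        have hle : C j ≤ A ⊓ stab ρ (w j) := fun c hc => ⟨hCA j hc, mem_fixS.1 hwj c hc⟩
        have heq : C j = A ⊓ stab ρ (w j) :=
          Subgroup.eq_of_le_of_card_ge hle (by rw [hC]; exact hmax _ hne)
        have hle2 : C i₀ ≤ C j := by
          intro b hb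
          rw [heq]
          refine ⟨hCA _ hb, ?_⟩
          have hw0 : ρ b (w i₀) = w i₀ :=
            mem_fixS.1 (hUC i₀ ▸ hw i₀ (Finset.mem_insert_self _ _)) b hb
          have := ih (fun i => ρ b (w i) - w i) (fun i hi => by
            have hwi : w i ∈ fixS ρ (C i) := hUC i ▸ hw i (Finset.mem_insert_of_mem hi)
            rw [hUC i]
            refine Submodule.sub_mem _ (mem_fixS.2 fun c hc => ?_) hwi
            rw [← End.mul_apply, ← map_mul, hA c (hCA _ hc) b (hCA _ hb), map_mul, End.mul_apply,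
              mem_fixS.1 hwi c hc]) (by
            rw [Finset.sum_sub_distrib, ← map_sum, eq_neg_of_add_eq_zero_right hsum, map_neg, hw0, sub_self])
            j hj
          exact sub_eq_zero.1 this
        have h3 : C i₀ = C j := Subgroup.eq_of_le_of_card_ge hle2 (by rw [hC, hC])
        have h4 : i₀ = j := Subtype.ext (by rw [hUC, hUC, h3])
        exact hi₀ (h4 ▸ hj)
      intro j hj
      rcases Finset.mem_insert.1 hj with rfl | hj
      · rwa [Finset.sum_eq_zero hs, add_zero] at hsum
      · exact hs j hj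

end Cfsg.Lib.CharDeg.PrimFix
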