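import Cfsg.Agent.Lib.HH.Lift

/-!
# Non-abelian groups of order `p q` acting without fixed points: the group-theoretic part
-/

set_option autoImplicit false

namespace Cfsg.Lib.CharDeg.SPQ

open Subgroup Cfsg.Lib.BG Cfsg.Lib.PGroup Cfsg.Lib.HH
open scoped Cfsg.Lib.Transfer commutatorElement

variable {G : Type*} [Group G]

/-- `E` has order `p q` with normal subgroup `F` of order `q`, and `p ∣ q - 1`. -/
structure PQ (p q : ℕ) (F E : Subgroup G) : Prop where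
  pp : p.Prime
  qp : q.Prime
  dvd : p ∣ q - 1
  le : F ≤ E
  norm : E ≤ 𝐍(F)
  cardF : Nat.card F = q
  cardE : Nat.card E = p * q

variable [Finite G] {p q : ℕ} {F E Y Y' : Subgroup G}

theorem PQ.cases (h : PQ p q F E) (hY : Y ≤ E) (h1 : Y ≠ ⊥) (h2 : ¬ E ≤ Y) :
    Y = F ∨ (Nat.card Y = p ∧ F ⊔ Y = E) := by
  have hF : (Nat.card F).Prime := h.cardF ▸ h.qp
  by_cases e : F ≤ Y
  · left
    obtain ⟨c, hc⟩ := card_dvd e
    have h3 := card_dvd hY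
    rw [hc, h.cardE, h.cardF, mul_comm, Nat.mul_dvd_mul_iff_right h.qp.pos] at h3
    rcases (Nat.dvd_prime h.pp).1 h3 with rfl | rfl
    · exact (eq_of_le_of_card_le e (by rw [hc, mul_one])).symm
    · exact absurd (eq_of_le_of_card_le hY (by rw [hc, h.cardE, h.cardF, mul_comm])).ge h2
  · right
    have h3 := (SD.of_norm (hY.trans h.norm) (inf_eq_bot_of_prime hF e)).card
    have h4 := card_dvd (sup_le h.le hY)
    rw [← h3, h.cardE, h.cardF, mul_comm, Nat.mul_dvd_mul_iff_right h.qp.pos] at h4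
    have h5 := ((Nat.dvd_prime h.pp).1 h4).resolve_left (card_ne_one h1)
    exact ⟨h5, eq_of_le_of_card_le (sup_le h.le hY) (by rw [← h3, h5, h.cardE, h.cardF, mul_comm])⟩

theorem PQ.prime (h : PQ p q F E) (hY : Y ≤ E) (h1 : Y ≠ ⊥) (h2 : ¬ E ≤ Y) : (Nat.card Y).Prime := by
  rcases h.cases hY h1 h2 with rfl | ⟨h3, -⟩
  · exact h.cardF ▸ h.qp
  · exact h3 ▸ h.pp

theorem PQ.le_sup (h : PQ p q F E) (hY : Y ≤ E) (hY' : Y' ≤ E) (h1 : Y' ≠ ⊥) (h2 : ¬ Y ≤ Y') : E ≤ Y' ⊔ Y := by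
  by_contra e
  have := h.prime (sup_le hY' hY) (ne_bot_mono h1 le_sup_left) e
  exact h2 (le_sup_right.trans ((eq_bot_or_eq_of_prime this le_sup_left).resolve_left h1).ge)

theorem PQ.lt (h : PQ p q F E) : p < q := by
  have := h.qp.two_le
  have := Nat.le_of_dvd (by omega) h.dvd
  omega

theorem PQ.exists_compl (h : PQ p q F E) : ∃ H ≤ E, Nat.card H = p ∧ F ⊔ H = E := by
  obtain ⟨H, hH, h1⟩ := exists_card_eq_prime (A := E) h.pp (h.cardE ▸ dvd_mul_right p q)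
  refine ⟨H, hH, (h.cases hH (ne_bot_of_prime (h1 ▸ h.pp)) fun e => ?_).resolve_left fun e => ?_⟩
  · have := Nat.le_of_dvd h.pp.pos (h1 ▸ h.cardE ▸ card_dvd e)
    have := h.qp.two_le
    have := h.pp.pos
    nlinarith
  · exact h.lt.ne (by rw [← h1, e, h.cardF])

theorem PQ.eq_two (h : PQ p q F E) {n : ℕ} (e : q = 2 ^ n + 1) : p = 2 :=
  (Nat.prime_dvd_prime_iff_eq h.pp Nat.prime_two).1 (h.pp.dvd_of_dvd_pow (n := n) (by
    have := h.dvd; rwa [e, Nat.add_sub_cancel] at this))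

theorem norm_comm_sup (T Y : Subgroup G) : T ≤ 𝐍(⁅T, Y⁆ ⊔ Y) :=
  norm_of_comm_le (Core.commutator_sup_le (le_norm_of_le le_sup_left) (le_norm_of_le le_sup_right)
    ((comm_le_left (left_norm_comm T Y)).trans le_sup_left) ((commutator_comm Y T).le.trans le_sup_left))

/-- The minimal configuration. -/
structure Cfg (s t : ℕ) (E X S T : Subgroup G) : Prop where
  st : s ≠ t
  EX : E ≤ 𝐍(X)
  ES : E ≤ 𝐍(S)
  ET : E ≤ 𝐍(T)
  TS : T ≤ 𝐍(S)
  SX : S ≤ X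
  TX : T ≤ X
  cop : (Nat.card E).Coprime (Nat.card X)
  fpf : X ⊓ 𝐂(E) = ⊥
  pS : IsPGroup s S
  pT : IsPGroup t T
  minT : ∀ D < T, E ≤ 𝐍(D) → D ≤ 𝐂(S)
  minS : ∀ D < S, T ⊔ E ≤ 𝐍(D) → D ≤ 𝐂(T)
  nt : ¬ T ≤ 𝐂(S)

variable {s t : ℕ} [hs : Fact s.Prime] [ht : Fact t.Prime] {X S T : Subgroup G}

theorem Cfg.copTS (h : Cfg s t E X S T) : (Nat.card T).Coprime (Nat.card S) := coprime_pgroups h.pT h.pS h.st.symm

theorem Cfg.cop' (h : Cfg s t E X S T) (hY : Y ≤ E) : (Nat.card ↥(T ⊔ Y)).Coprime (Nat.card S) :=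
  (h.copTS.mul_left (coprime_mono h.cop hY h.SX)).coprime_dvd_left (Coprime.card_sup_dvd (hY.trans h.ET))

theorem Cfg.comm (h : Cfg s t E X S T) : ⁅S, T⁆ = S := by
  by_contra e
  exact h.nt (stable_factor_cent le_rfl (cent_symm (h.minS _ ((comm_le_left h.TS).lt_of_ne e)
    (sup_le (right_norm_comm _ _) (norm_comm h.ES h.ET)))) (coprime_mono h.copTS le_rfl (comm_le_left h.TS)))

omit hs ht [Finite G] in
theorem Cfg.ne_bot (h : Cfg s t E X S T) : S ≠ ⊥ := by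
  rintro rfl
  exact h.nt (cent_symm bot_le)

theorem Cfg.der (h : Cfg s t E X S T) : ⁅S, S⁆ ≤ 𝐂(T) := by
  refine h.minS _ ((der_le S).lt_of_ne fun e => h.ne_bot ?_) (norm_der (sup_le h.TS h.ES))
  haveI := pgroup_nil h.pS
  exact eq_bot_mono (nilRes_eq_bot_iff.2 this) (le_nilRes le_rfl e.ge)

theorem Cfg.comm_eq (h : Cfg s t E X S T) (hE : PQ p q F E) (hY : Y ≤ E) (h1 : Y ≠ ⊥) (h2 : ¬ E ≤ Y) :
    ⁅S, ⁅T, Y⁆ ⊔ Y⁆ = S := by
  by_contra hne
  set M := ⁅T, Y⁆ ⊔ Y with hM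
  have hsS := pgroup_sol h.pS
  have hsT := pgroup_sol h.pT
  have hMle : M ≤ T ⊔ Y := sup_le_sup_right (comm_le_left (hY.trans h.ET)) Y
  have hMS : M ≤ 𝐍(S) := hMle.trans (sup_le h.TS (hY.trans h.ES))
  have hNS : ⁅S, M⁆ ≤ S := comm_le_left hMS
  have hTM : T ≤ 𝐍(M) := norm_comm_sup T Y
  have hA : ¬ T ≤ ⁅T, Y⁆ := fun e => hne (le_antisymm hNS (h.comm.ge.trans (commutator_mono le_rfl
    (e.trans le_sup_left))))
  have hB : ¬ S ⊓ 𝐂(M) ≤ 𝐂(T) := fun e => hne (le_antisymm hNS (h.comm.ge.trans (comm_le_of_le_sup_cent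
    (coprime_cent_prod hMS (coprime_mono (h.cop' hY) hMle le_rfl) (Or.inr hsS)).ge
    (inf_le_left.trans (left_norm_comm _ _)) e (norm_comm h.TS hTM))))
  have hMY : 𝐂(M) ≤ 𝐂(Y) := cent_anti le_sup_right
  have hFE := hE.le
  have hcF : ∀ {D : Subgroup G}, D ≤ X → (Nat.card F).Coprime (Nat.card D) := fun hD => coprime_mono h.cop hFE hD
  have hcY : ∀ {D : Subgroup G}, D ≤ X → (Nat.card Y).Coprime (Nat.card D) := fun hD => coprime_mono h.cop hY hD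
  have hfp : ∀ {H D : Subgroup G}, F ⊔ H = E → D ≤ X → D ⊓ 𝐂(F) ⊓ 𝐂(H) = ⊥ := by
    intro H D e hD
    refine eq_bot_mono h.fpf ?_
    rw [← e, cent_sup, inf_assoc]
    exact inf_le_inf_right _ hD
  by_cases hTF : T ≤ 𝐂(F)
  · rcases hE.cases hY h1 h2 with rfl | ⟨-, h3⟩
    · obtain ⟨H, hH, h3, h4⟩ := hE.exists_compl
      exact hB ((inf_le_inf_left S hMY).trans (nil_cent_of_coprime (PLocal.isNilpotent_of_fpf_prime
        (hH.trans (norm_inf h.EX (norm_cent hE.norm))) (h3 ▸ hE.pp) (hfp h4 le_rfl)) (inf_le_inf_right _ h.SX)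
        (le_inf h.TX hTF) (coprime_mono h.copTS.symm inf_le_left le_rfl)))
    · refine hA (coprime_comm_eq_of_cent_bot (hY.trans h.ET) (hcY h.TX) (Or.inr hsT) ?_).ge
      rw [← hfp h3 h.TX, inf_eq_left.2 hTF]
  have hTF' : ⁅T, F⁆ = T := by
    by_contra e
    refine h.nt ((coprime_cent_prod (hFE.trans h.ET) (hcF h.TX) (Or.inr hsT)).ge.trans (sup_le ?_ ?_))
    · exact h.minT _ ((comm_le_left (hFE.trans h.ET)).lt_of_ne e) (norm_comm h.ET hE.norm)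
    · exact h.minT _ (inf_lt_left.2 hTF) (norm_inf h.ET (norm_cent hE.norm))
  rcases hE.cases hY h1 h2 with rfl | ⟨-, h3⟩
  · exact hA hTF'.ge
  set R := ⁅S, F⁆ with hR
  have hFS : F ≤ 𝐍(S) := hFE.trans h.ES
  have hER : E ≤ 𝐍(R) := norm_comm h.ES hE.norm
  have hSR : S ≤ 𝐍(R) := left_norm_comm _ _
  have h4 : S ⊓ 𝐂(Y) ≤ R := by
    have e1 : quo S R = quo (S ⊓ 𝐂(F)) R := by
      rw [← quo_sup_self (inf_le_left.trans hSR), hR, coprime_cent_prod hFS (hcF h.SX) (Or.inr hsS)]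
    rw [← quo_eq_bot_iff (inf_le_left.trans hSR), ← coprime_quo_cent (hY.trans h.ES) (hY.trans hER) hSR
      (hcY h.SX) (Or.inr hsS), e1, coprime_quo_cent (hY.trans (norm_inf h.ES (norm_cent hE.norm))) (hY.trans hER)
      (inf_le_left.trans hSR) (hcY (inf_le_left.trans h.SX)) (Or.inr (sol_of_le hsS inf_le_left)), hfp h3 h.SX]
    exact quo_eq_bot bot_le
  have h5 : S ≤ R := by
    set D := ⨅ g : T, (g : G) ⋆ R with hD
    have hDR : D ≤ R := (iInf_le _ 1).trans (Transfer.conj_one R).le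
    by_contra e
    refine hB (le_trans (le_iInf fun g => ?_) (h.minS D ((hDR.trans (comm_le_left hFS)).lt_of_ne
      fun e' => e (e'.ge.trans hDR)) (sup_le ?_ ?_)))
    · rw [← conj_eq_of_norm (norm_inf h.TS (norm_cent hTM) g.2)]
      exact map_mono ((inf_le_inf_left S hMY).trans h4)
    · refine le_norm_iff.2 fun x hx g hg => mem_iInf.2 fun y => ?_
      have := mem_iInf.1 hg (⟨x, hx⟩⁻¹ * y)
      rw [Transfer.mem_conj] at this ⊢
      simpa [mul_assoc] using this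
    · refine le_norm_iff.2 fun x hx g hg => mem_iInf.2 fun y => ?_
      have := mem_iInf.1 hg ⟨x⁻¹ * y * x, conj_mem_of_norm' (h.ET hx) y.2⟩
      rw [Transfer.mem_conj] at this ⊢
      have h6 := conj_mem_of_norm (hER hx) this
      simpa [mul_assoc] using h6
  set C := S ⊓ 𝐂(T) with hC
  have hCS : C ≤ S := inf_le_left
  have hSC : S ≤ 𝐍(C) := norm_of_comm_le ((commutator_mono hCS le_rfl).trans (le_inf (der_le S) h.der))
  have hTC : T ≤ 𝐍(C) := norm_of_cent (cent_symm inf_le_right)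
  have hFC : F ≤ 𝐍(C) := hFE.trans (norm_inf h.ES (norm_cent h.ET))
  have hab : IsMulCommutative (quo S C) := (quo_abelian_iff hSC).2 (le_inf (der_le S) h.der)
  have h6 : quo S C ⊓ 𝐂(quo F C) = ⊥ := by
    have := (coprime_abelian_cent_dprod (quo_norm hFS C) (coprime_quo (hcF h.SX) C) hab).inf
    rwa [← quo_comm hSC hFC, le_antisymm (comm_le_left hFS) h5, ← inf_assoc, inf_idem] at this
  have hq : Nat.card (quo F C) = q := by
    rw [card_quo_of_disjoint hFC (disjoint_of_coprime (hcF (hCS.trans h.SX)).symm), hE.cardF]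
  have h7 := Coprime.commutator_le_centralizer_of_prime (K := quo T C) (R := quo F C) (V := quo S C)
    (quo_norm (hFE.trans h.ET) C) (hq ▸ hE.qp) (coprime_quo (hcF h.TX) C) (fun n _ e P hP hP2 => by
      have e2 := hE.eq_two (hq ▸ e)
      rw [card_eq_one.1 (hP2.card_eq_or_dvd.resolve_right fun e3 => ?_)]
      · infer_instance
      · refine Nat.prime_two.ne_one (Nat.eq_one_of_dvd_coprimes h.cop (hE.cardE ▸ e2 ▸ dvd_mul_right _ _) ?_)
        exact e3.trans ((card_dvd hP).trans ((card_quo_dvd _ _).trans (card_dvd h.TX))))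
    (sup_le (quo_norm h.TS C) (quo_norm hFS C)) (by rw [← quo_sup hTC hFC]; exact coprime_quo (h.cop' hFE) C)
    (abelian_sol hab) h6
  rw [← quo_comm hTC hFC, hTF', quo_le_cent_iff hTC hSC, commutator_comm, h.comm] at h7
  exact h.nt (cent_symm (h7.trans inf_le_right))

/-- An element of order prime to `p` cannot commute with the exceptional group of order `p = d + 1`. -/
theorem extra_false {Q : Subgroup G} {d : ℕ} (hT : IsPGroup t T) (hY : (Nat.card Y).Prime) (hTQ : T ≤ 𝐍(Q))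
    (hYQ : Y ≤ 𝐍(Q)) (hYT : Y ≤ 𝐍(T)) (hcT : (Nat.card T).Coprime (Nat.card Q))
    (hcY : (Nat.card Y).Coprime (Nat.card Q)) (hcYT : (Nat.card Y).Coprime (Nat.card T))
    (hZ : (Nat.card ↥𝐙(Q)).Prime) (hQ : ⁅Q, Q⁆ ≤ 𝐂(Q)) (hTZ : T ≤ 𝐂(𝐙(Q))) (hQY : Q ⊓ 𝐂(Y) = 𝐙(Q))
    (hTY : ⁅T, Y⁆ ≤ 𝐂(Q)) (hn : ¬ T ≤ 𝐂(Q)) (hd : d ^ 2 = 𝐂(Y).relIndex Q) (hp : Nat.card Y = d + 1) : False := by
  have hsT := pgroup_sol hT
  set D := T ⊓ 𝐂(Q) with hD
  have hQD : Q ≤ 𝐍(D) := norm_of_cent (cent_symm inf_le_right)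
  have hTD : T ≤ 𝐍(D) := norm_inf (le_norm T) (norm_cent hTQ)
  have hYD : Y ≤ 𝐍(D) := norm_inf hYT (norm_cent hYQ)
  have hDQ : ∀ {B : Subgroup G}, B ≤ Q → D ⊓ B = ⊥ := fun hB => disjoint_of_coprime (coprime_mono hcT inf_le_left hB)
  have hZe : 𝐙(quo Q D) = quo 𝐙(Q) D := by
    refine le_antisymm ?_ (le_inf (quo_mono inf_le_left D) (quo_cent inf_le_right D))
    rintro _ ⟨⟨a, ha, rfl⟩, h⟩
    refine ⟨a, ⟨ha, mem_cent.2 fun b hb => commutatorElement_eq_one_iff_mul_comm.1 (mem_bot.1 ((hDQ le_rfl).le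
      ⟨?_, der_le Q (commutator_mem_commutator hb ha)⟩))⟩, rfl⟩
    have h2 : ⁅(⟨b, hQD hb⟩ : 𝐍(D)), a⁆ ∈ (qhom D).ker := by
      rw [MonoidHom.mem_ker, map_commutatorElement, commutatorElement_eq_one_iff_mul_comm]
      exact mem_cent.1 h _ ⟨_, hb, rfl⟩
    rwa [qhom_ker] at h2
  have hT1 : quo T D ≠ ⊥ := fun e => hn (((quo_eq_bot_iff hTD).1 e).trans inf_le_right)
  obtain ⟨T₁, hT₁, hp₁⟩ := exists_prime_le hT1
  have hc1 : ¬ T₁ ≤ 𝐂(quo Q D) := fun e => by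
    obtain ⟨_, hx, hx1⟩ := exists_ne_one (ne_bot_of_prime hp₁)
    obtain ⟨x, hxT, rfl⟩ := hT₁ hx
    refine hx1 (by
      rw [← MonoidHom.mem_ker, qhom_ker]
      refine ⟨hxT, mem_cent.2 fun b hb => commutatorElement_eq_one_iff_mul_comm.1 (mem_bot.1 ((hDQ le_rfl).le
        ⟨?_, comm_le_left hTQ (commutator_mem_commutator hb hxT)⟩))⟩
      have h2 : ⁅(⟨b, hQD hb⟩ : 𝐍(D)), x⁆ ∈ (qhom D).ker := by
        rw [MonoidHom.mem_ker, map_commutatorElement, commutatorElement_eq_one_iff_mul_comm]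
        exact mem_cent.1 (e hx) _ ⟨_, hb, rfl⟩
      rwa [qhom_ker] at h2)
  have hcard : Nat.card (quo Y D) = d + 1 := by
    rw [card_quo_of_disjoint hYD (disjoint_of_coprime (coprime_mono hcYT.symm inf_le_left le_rfl)), hp]
  have hYp : (Nat.card (quo Y D)).Prime := by rwa [hcard, ← hp]
  have hT₁Y : T₁ ≤ 𝐂(quo Y D) := hT₁.trans ((quo_le_cent_iff hTD hYD).2 (le_inf (comm_le_left hYT) hTY))
  have hQ' : ⁅quo Q D, quo Q D⁆ ≤ 𝐂(quo Q D) := by rw [← quo_comm hQD hQD]; exact quo_cent hQ D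
  have hT₁Q : T₁ ≤ 𝐍(quo Q D) := hT₁.trans (quo_norm hTQ D)
  have hc₁ : (Nat.card T₁).Coprime (Nat.card (quo Q D)) := coprime_mono (coprime_quo hcT D) hT₁ le_rfl
  have hQY' : quo Q D ⊓ 𝐂(quo Y D) = 𝐙(quo Q D) := by
    rw [coprime_quo_cent hYQ hYD hQD hcY (Or.inl (abelian_sol (abelian_of_cyclic (cyclic_of_prime hY)))), hQY, hZe]
  obtain ⟨h1, h2, h3⟩ := extra_split hT₁Q hc₁ (Or.inl (abelian_sol (abelian_of_cyclic (cyclic_of_prime hp₁)))) hQ'
    (hT₁.trans (hZe ▸ quo_cent hTZ D))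
  set Q' := quo Q D with hQ'def
  set Y' := quo Y D with hY'def
  set Q₁ := ⁅Q', T₁⁆ ⊔ 𝐙(Q') with hQ₁
  have hQ₁Q : Q₁ ≤ Q' := sup_le (comm_le_left hT₁Q) inf_le_left
  have hY'Q : Y' ≤ 𝐍(Q') := quo_norm hYQ D
  have hc₂ : (Nat.card T₁).Coprime (Nat.card Y') := coprime_mono (coprime_quo hcYT.symm D) hT₁ le_rfl
  have hDP : DP T₁ Y' (T₁ ⊔ Y') := ⟨hT₁Y, disjoint_of_coprime hc₂, rfl⟩
  have hab := hDP.abelian (abelian_of_cyclic (cyclic_of_prime hp₁)) (abelian_of_cyclic (cyclic_of_prime hYp))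
  have hZc : 𝐙(Q') ≤ 𝐂(T₁ ⊔ Y') := le_cent_sup (h2.ge.trans inf_le_right) (hQY'.ge.trans inf_le_right)
  obtain ⟨e, h4, h5⟩ := Coprime.exists_card_dvd_of_extraspecial (Q := Q₁) hab
    (ne_bot_mono (ne_bot_of_prime hp₁) le_sup_left) (norm_sup (norm_comm (sup_le hT₁Q hY'Q)
      (abelian_norm hab le_sup_left)) (norm_center (sup_le hT₁Q hY'Q)))
    (by rw [← hDP.card]; exact (hc₁.symm.mul_right (coprime_quo hcY.symm D)).coprime_dvd_left (card_dvd hQ₁Q))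
    (by rw [h1, hZe, card_quo_of_disjoint (inf_le_left.trans hQD) (hDQ inf_le_left)]; exact hZ)
    ((der_mono hQ₁Q).trans (hQ'.trans (cent_anti hQ₁Q))) (fun x hx hx1 => by
      rw [h1]
      refine le_antisymm ?_ (le_inf le_sup_right (hZc.trans (cent_le_cent1 hx)))
      obtain ⟨a, ha, b, hb, rfl⟩ := hDP.mem hx
      rcases eq_or_ne b 1 with rfl | hb1
      · rw [mul_one] at hx1 ⊢
        rw [cent1_eq_of_prime hp₁ ha hx1, h2]
      · have e1 : (a * b) ^ Nat.card T₁ = b ^ Nat.card T₁ := by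
          rw [Commute.mul_pow (mem_cent.1 (hT₁Y ha) b hb).symm, show a ^ Nat.card T₁ = 1 from
            congrArg Subtype.val (pow_card_eq_one' (x := (⟨a, ha⟩ : T₁))), one_mul]
        have e2 : b ^ Nat.card T₁ ≠ 1 := fun e2 => hb1 (orderOf_eq_one_iff.1 (Nat.eq_one_of_dvd_coprimes hc₂
          (orderOf_dvd_of_pow_eq_one e2) (orderOf_dvd_natCard Y' hb)))
        refine le_trans (inf_le_inf hQ₁Q (cent1_le_cent1_pow _ (Nat.card T₁))) ?_
        rw [e1, cent1_eq_of_prime hYp (pow_mem hb _) e2, hQY'])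
  rw [← inf_relIndex_left, h1, h3] at h4
  have h6 : e ^ 2 ∣ d ^ 2 := by
    have h7 : 𝐂(Y).relIndex Q = (𝐙(Q')).relIndex Q' := by
      rw [hZe, ← inf_relIndex_left, hQY]
      have e1 := BG.card_mul_relIndex (inf_le_left : 𝐙(Q) ≤ Q)
      have e2 := BG.card_mul_relIndex (quo_mono (inf_le_left : 𝐙(Q) ≤ Q) D)
      rw [card_quo_of_disjoint hQD (hDQ le_rfl), card_quo_of_disjoint (inf_le_left.trans hQD) (hDQ inf_le_left),
        ← e1] at e2
      exact (Nat.eq_of_mul_eq_mul_left Nat.card_pos e2).symm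
    rw [h4, hd, h7]
    exact relIndex_dvd_left (h2.ge.trans inf_le_right) Q'
  have h7 : e ≠ 1 := fun e1 => hc1 (cent_symm (relIndex_eq_one.1 (by rw [← h4, e1, one_pow])))
  have hd0 : 0 < d := by have := hY.two_le; omega
  have h8 : e ≤ d := Nat.le_of_dvd hd0 ((Nat.pow_dvd_pow_iff two_ne_zero).1 h6)
  have h9 : e ≠ 0 := by rintro rfl; simp at h6; omega
  rw [← hDP.card, hcard] at h5
  have := hp₁.two_le
  rcases h5 with h5 | h5
  · have := Nat.le_of_dvd (by omega) h5; nlinarith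
  · have := Nat.le_of_dvd (by omega) h5
    have : e - 1 ≤ d := by omega
    nlinarith

end Cfsg.Lib.CharDeg.SPQ
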