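import Cfsg.Agent.Lib.CharDeg.ShultA
import Cfsg.Agent.Lib.Perm.Zass2

/-!
# Non-abelian groups of order `p q` acting without fixed points (Shult)
-/

set_option autoImplicit false

namespace Cfsg.Lib.CharDeg.SPQ

open Subgroup Cfsg.Lib.BG Cfsg.Lib.PGroup Cfsg.Lib.HH
open scoped Cfsg.Lib.Transfer commutatorElement

universe u

section Grp

variable {G : Type*} [Group G]

theorem comm_sup_le {S A B N : Subgroup G} (hA : A ≤ 𝐍(N)) (hB : B ≤ 𝐍(N)) (h1 : ⁅S, A⁆ ≤ N) (h2 : ⁅S, B⁆ ≤ N) :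
    ⁅S, A ⊔ B⁆ ≤ N := commutator_le_of_le_commStab (sup_le (le_commStab hA h1) (le_commStab hB h2))

theorem cent_le_der [Finite G] {H U : Subgroup G} (hn : U ≤ 𝐍(H)) (hc : (Nat.card U).Coprime (Nat.card H))
    (h : H ≤ ⁅H, U⁆) : H ⊓ 𝐂(U) ≤ ⁅H, H⁆ := by
  have hH : H ≤ 𝐍(⁅H, H⁆) := norm_der (le_norm H)
  have hU : U ≤ 𝐍(⁅H, H⁆) := norm_der hn
  have hd := coprime_abelian_cent_dprod (quo_norm hn ⁅H, H⁆) (coprime_quo hc _) ((quo_abelian_iff hH).2 le_rfl)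
  refine (quo_eq_bot_iff (inf_le_left.trans hH)).1 (eq_bot_mono hd.inf ?_)
  rw [← quo_comm hH hU]
  exact le_inf (quo_mono (inf_le_left.trans h) _) (le_inf (quo_mono inf_le_left _) (quo_cent inf_le_right _))

theorem abelian_of_two [Finite G] {X Y : Subgroup G} (hY : Nat.card Y = 2) (hn : Y ≤ 𝐍(X)) (h : X ⊓ 𝐂(Y) = ⊥) :
    IsMulCommutative X := by
  have hp : (Nat.card Y).Prime := hY ▸ Nat.prime_two
  obtain ⟨x, hx, hx1⟩ := exists_ne_one (ne_bot_of_prime hp)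
  have h2 : x * x = 1 := by
    rw [← sq, ← hY]; exact congrArg Subtype.val (pow_card_eq_one' (x := (⟨x, hx⟩ : Y)))
  refine Perm.isMulCommutative_of_inverted (Perm.inv_of_fpf_involution h2 (hn hx) fun k hk e => ?_)
  exact mem_bot.1 (h.le ⟨hk, (cent1_eq_of_prime hp hx hx1).le (mem_cent1.2 e.symm)⟩)

theorem s3_trace {a x y : G} (r1 : y * y = y⁻¹) (r2 : x * y * x⁻¹ = y⁻¹) (c1 : Commute a (y * a * y⁻¹))
    (c2 : Commute a (y⁻¹ * a * y)) (c3 : Commute (y * a * y⁻¹) (y⁻¹ * a * y)) (c4 : Commute a x) :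
    x ∈ 𝐂[a * (y * a * y⁻¹) * (y⁻¹ * a * y)] ∧ y ∈ 𝐂[a * (y * a * y⁻¹) * (y⁻¹ * a * y)] := by
  have r3 : y⁻¹ * y⁻¹ = y := by rw [← mul_inv_rev, r1, inv_inv]
  have r4 : x * y⁻¹ * x⁻¹ = y := by rw [← conj_inv, r2, inv_inv]
  have r5 : x * a * x⁻¹ = a := by rw [← c4.eq, mul_inv_cancel_right]
  rw [mem_cent1, mem_cent1]
  constructor <;> rw [← mul_inv_eq_iff_eq_mul]
  · rw [show x * (a * (y * a * y⁻¹) * (y⁻¹ * a * y)) * x⁻¹ = (x * a * x⁻¹) * (((x * y * x⁻¹) * (x * a * x⁻¹) *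
      (x * y⁻¹ * x⁻¹)) * ((x * y⁻¹ * x⁻¹) * (x * a * x⁻¹) * (x * y * x⁻¹))) by group, r2, r4, r5, ← c3.eq,
      ← mul_assoc a]
  · rw [show y * (a * (y * a * y⁻¹) * (y⁻¹ * a * y)) * y⁻¹ = (y * a * y⁻¹) * (((y * y) * a * (y⁻¹ * y⁻¹)) * a) by
      group, r1, r3, ← c2.eq, ← mul_assoc _ a, ← c1.eq]

theorem der_le_of_s3 [Finite G] {F E X Y K : Subgroup G} (hE : PQ 2 3 F E) (hY : Nat.card Y = 2) (hFY : F ⊔ Y = E)
    (hna : ¬ Y ≤ 𝐂(F)) (hEX : E ≤ 𝐍(X)) (hc : (Nat.card E).Coprime (Nat.card X)) (hs : Group.IsSolvable X)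
    (hf : X ⊓ 𝐂(E) = ⊥) (hK : Nml K X) (h : ⁅X, Y⁆ ≤ K) : ⁅X, X⁆ ≤ K := by
  classical
  have hYE : Y ≤ E := hFY ▸ le_sup_right
  have hpY : (Nat.card Y).Prime := hY ▸ Nat.prime_two
  have hpF : (Nat.card F).Prime := hE.cardF ▸ Nat.prime_three
  obtain ⟨x, hx, hx1⟩ := exists_ne_one (ne_bot_of_prime hpY)
  obtain ⟨y, hy, hy1⟩ := exists_ne_one (ne_bot_of_prime hpF)
  have hy3 : y ^ 3 = 1 := by rw [← hE.cardF]; exact congrArg Subtype.val (pow_card_eq_one' (x := (⟨y, hy⟩ : F)))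
  have hyy : y * y = y⁻¹ := eq_inv_of_mul_eq_one_left (by rw [← hy3]; simp [pow_succ])
  have hxy : x * y * x⁻¹ = y⁻¹ := by
    have h1 := conj_mem_of_norm (hE.norm (hYE hx)) hy
    rw [← zpowers_eq_of_prime hpF hy hy1, mem_zpowers_iff_mem_range_orderOf, orderOf_eq_prime hy3 hy1] at h1
    obtain ⟨n, hn, e⟩ := Finset.mem_image.1 h1
    have := Finset.mem_range.1 hn
    interval_cases n
    · exact absurd (by simpa using e.symm) hy1
    · refine absurd ?_ hna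
      rw [← zpowers_eq_of_prime hpF hy hy1, ← zpowers_eq_of_prime hpY hx hx1, cent_zpowers, zpowers_le, mem_cent1]
      simpa [mul_inv_eq_iff_eq_mul] using e.symm
    · rw [← e, sq, hyy]
  have hyE : y ∈ E := hE.le hy
  have hgen : ∀ {L : Subgroup G}, x ∈ L → y ∈ L → E ≤ L := fun h1 h2 => by
    rw [← hFY, ← zpowers_eq_of_prime hpF hy hy1, ← zpowers_eq_of_prime hpY hx hx1]
    exact sup_le (zpowers_le.2 h2) (zpowers_le.2 h1)
  have hKc : ∀ {g : G}, g ∈ E → Nml (g ⋆ K) X := fun hg => conj_eq_of_norm (hEX hg) ▸ hK.conj _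
  have hxK : x ⋆ K = K := conj_eq_of_norm (norm_of_comm_le_of_le h hK.le hx)
  have e1 : x ⋆ (y ⋆ K) = y⁻¹ ⋆ K := by
    rw [Transfer.conj_conj, show x * y = y⁻¹ * x by rw [← hxy]; group, ← Transfer.conj_conj, hxK]
  have e2 : x ⋆ (y⁻¹ ⋆ K) = y ⋆ K := by
    rw [Transfer.conj_conj, show x * y⁻¹ = y * x by
      rw [← mul_inv_eq_iff_eq_mul, ← conj_inv, hxy, inv_inv], ← Transfer.conj_conj, hxK]
  have e3 : y ⋆ (y ⋆ K) = y⁻¹ ⋆ K := by rw [Transfer.conj_conj, hyy]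
  have e4 : y ⋆ (y⁻¹ ⋆ K) = K := by rw [Transfer.conj_conj, mul_inv_cancel, Transfer.conj_one]
  have hsup : ∀ {g : G}, g ∈ F → g ≠ 1 → X ≤ K ⊔ g ⋆ K := by
    intro g hg hg1
    have hgE := hE.le hg
    have hL := hK.sup (hKc hgE)
    have h1 : ⁅X, g ⋆ Y⁆ ≤ g ⋆ K := by
      have := map_mono (f := (MulAut.conj g).toMonoidHom) h
      rwa [map_commutator, conj_eq_of_norm (hEX hgE)] at this
    have h2 : ¬ g ⋆ Y ≤ Y := fun e => hna (by
      rw [← zpowers_eq_of_prime hpF hg hg1]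
      refine cent_of_norm_of_disjoint ?_ (zpowers_le.2 (norm_of_conj_eq (eq_of_le_of_card_le e
        (Transfer.card_conj g Y).ge))) ?_ <;> rw [zpowers_eq_of_prime hpF hg hg1]
      · exact hYE.trans hE.norm
      · exact disjoint_of_coprime (by rw [hY, hE.cardF]; norm_num))
    refine (coprime_comm_eq_of_cent_bot hEX hc (Or.inr hs) hf).ge.trans ((commutator_mono le_rfl
      (hE.le_sup (conj_le_of_mem hYE hgE) hYE (ne_bot_of_prime hpY) h2)).trans (comm_sup_le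
        (norm_of_comm_le_of_le (h.trans le_sup_left) hL.le) (norm_of_comm_le_of_le (h1.trans le_sup_right) hL.le)
        (h.trans le_sup_left) (h1.trans le_sup_right)))
  have h2 := hKc hyE
  have h3 := hKc (inv_mem hyE)
  suffices h4 : y ⋆ K ⊓ y⁻¹ ⋆ K ≤ K by
    refine (commutator_mono (hsup hy hy1) le_rfl).trans (Core.commutator_sup_le (le_norm K) (h2.le.trans hK.norm)
      (hK.comm_le le_rfl) ((commutator_mono le_rfl (hsup (inv_mem hy) (inv_ne_one.2 hy1))).trans (comm_sup_le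
        (le_norm K) (h3.le.trans hK.norm) (hK.comm_le' h2.le) ((le_inf (h2.comm_le h3.le) (h3.comm_le' h2.le)).trans h4))))
  intro d hd
  set N := K ⊓ (y ⋆ K ⊓ y⁻¹ ⋆ K) with hN
  have hNX : Nml N X := hK.inf (h2.inf h3)
  have hEN : E ≤ 𝐍(N) := hgen (norm_of_conj_eq (by
      rw [hN, Transfer.conj_inf, Transfer.conj_inf, hxK, e1, e2, inf_comm (y ⋆ K)])) (norm_of_conj_eq (by
      rw [hN, Transfer.conj_inf, Transfer.conj_inf, e3, e4, inf_comm (y⁻¹ ⋆ K), inf_left_comm]))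
  have hdX : d ∈ X := h2.le hd.1
  have hb : y * d * y⁻¹ ∈ K ⊓ y⁻¹ ⋆ K := ⟨e4 ▸ Transfer.conj_mem_conj.2 hd.2, e3 ▸ Transfer.conj_mem_conj.2 hd.1⟩
  have hc' : y⁻¹ * d * y ∈ K ⊓ y ⋆ K := ⟨Transfer.mem_conj.1 hd.1, Transfer.mem_conj.2 (by
    have := Transfer.mem_conj.1 hd.2
    rwa [inv_inv, show y * d * y⁻¹ = y⁻¹ * (y⁻¹ * d * y) * y by
      rw [← mul_assoc, ← mul_assoc, ← mul_inv_rev, hyy, inv_inv, mul_assoc _ y y, hyy]] at this)⟩
  have hπ : ∀ a b : 𝐍(N), ⁅(a : G), (b : G)⁆ ∈ N → Commute (qhom N a) (qhom N b) := fun a b e => by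
    rw [← commutatorElement_eq_one_iff_commute, ← map_commutatorElement, ← MonoidHom.mem_ker, qhom_ker]; exact e
  let a' : 𝐍(N) := ⟨d, hNX.norm hdX⟩
  let x' : 𝐍(N) := ⟨x, hEN (hYE hx)⟩
  let y' : 𝐍(N) := ⟨y, hEN hyE⟩
  have c1 : Commute (qhom N a') (qhom N (y' * a' * y'⁻¹)) := hπ _ _
    ⟨hK.comm_le' le_rfl (commutator_mem_commutator hdX hb.1), h2.comm_le le_rfl
      (commutator_mem_commutator hd.1 (hK.le hb.1)), h3.comm_le le_rfl (commutator_mem_commutator hd.2 (hK.le hb.1))⟩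
  have c2 : Commute (qhom N a') (qhom N (y'⁻¹ * a' * y')) := hπ _ _
    ⟨hK.comm_le' le_rfl (commutator_mem_commutator hdX hc'.1), h2.comm_le le_rfl
      (commutator_mem_commutator hd.1 (hK.le hc'.1)), h3.comm_le le_rfl (commutator_mem_commutator hd.2 (hK.le hc'.1))⟩
  have c3 : Commute (qhom N (y' * a' * y'⁻¹)) (qhom N (y'⁻¹ * a' * y')) := hπ _ _
    ⟨hK.comm_le' le_rfl (commutator_mem_commutator (hK.le hb.1) hc'.1), h2.comm_le' le_rfl
      (commutator_mem_commutator (hK.le hb.1) hc'.2), h3.comm_le le_rfl (commutator_mem_commutator hb.2 (hK.le hc'.1))⟩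
  have c4 : Commute (qhom N a') (qhom N x') := hπ _ _ ⟨h (commutator_mem_commutator hdX hx), by
    have : x ∈ 𝐍(y ⋆ K ⊓ y⁻¹ ⋆ K) := norm_of_conj_eq (by rw [Transfer.conj_inf, e1, e2, inf_comm])
    exact comm_le_left (zpowers_le.2 this) (commutator_mem_commutator hd (mem_zpowers x))⟩
  have r1 : qhom N y' * qhom N y' = (qhom N y')⁻¹ := by
    rw [← map_mul, ← map_inv]; exact congrArg _ (Subtype.ext hyy)
  have r2 : qhom N x' * qhom N y' * (qhom N x')⁻¹ = (qhom N y')⁻¹ := by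
    rw [← map_inv, ← map_inv, ← map_mul, ← map_mul]; exact congrArg _ (Subtype.ext hxy)
  simp only [map_mul, map_inv] at c1 c2 c3
  obtain ⟨h5, h6⟩ := s3_trace r1 r2 c1 c2 c3 c4
  have hw : qhom N (a' * (y' * a' * y'⁻¹) * (y'⁻¹ * a' * y')) ∈ quo X N ⊓ 𝐂(quo E N) := by
    refine ⟨⟨_, mul_mem (mul_mem hdX (hK.le hb.1)) (hK.le hc'.1), rfl⟩, le_cent1_iff.1 ?_⟩
    simp only [map_mul, map_inv]
    rw [← le_copre_iff hEN]
    exact hgen (mem_copre.2 ⟨_, h5⟩) (mem_copre.2 ⟨_, h6⟩)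
  rw [coprime_quo_cent hEX hEN hNX.norm hc (Or.inr hs), hf, quo_eq_bot bot_le, mem_bot, ← MonoidHom.mem_ker,
    qhom_ker] at hw
  exact (K.mul_mem_cancel_right hb.1).1 ((K.mul_mem_cancel_right hc'.1).1 hw.1)

end Grp

section Rep

variable {k Γ W : Type*} [Field k] [Group Γ] [AddCommGroup W] [Module k W] {ρ : Γ →* Module.End k W} [Finite Γ]
  [Finite W]

theorem Cfg.false {p q s t : ℕ} [hs : Fact s.Prime] [ht : Fact t.Prime] {F E X S T : Subgroup Γ}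
    (h : Cfg s t E X S T) (hE : PQ p q F E) (hρ : Function.Injective ρ) (hP : IsMulCommutative S ∨ Spec s T S)
    (hr : HasEnoughRootsOfUnity k (Monoid.exponent ↥𝐙(S))) (hSW : (Nat.card S).Coprime (Nat.card W))
    (hEW : (Nat.card E).Coprime (Nat.card W)) (h0 : fix ρ E = ⊥) : False := by
  have hZS : 𝐙(S) ≤ S := inf_le_left
  obtain ⟨μ, hμ⟩ := exists_wt (ρ := ρ) (abelian_center S) hr (Y := 𝐙(S)) (by
    rw [fixer_top_eq_bot hρ]; exact fun e => center_ne_bot_of_nil (pgroup_nil h.pS) h.ne_bot (le_bot_iff.1 e))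
  have hU0 := ne_bot_of_not_le_fixer hμ
  have hEZ : E ≤ 𝐍(𝐙(S)) := norm_center h.ES
  have hTZ : T ≤ 𝐍(𝐙(S)) := norm_center h.TS
  have hcE := cast_ne_zero_of_coprime hU0 hEW
  have hst := fun g (hg : g ∈ T) => stab_facts hμ hEZ (coprime_comm_eq_of_cent_bot hEZ
    (coprime_mono h.cop le_rfl (hZS.trans h.SX)) (Or.inr (abelian_sol (abelian_center S)))
    (eq_bot_mono h.fpf (inf_le_inf_right _ (hZS.trans h.SX)))) hcE h0 (hTZ hg)
  have hb := blk_wt (ρ := ρ) 𝐙(S) μ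
  have hZK := comm_stab_le_fixer (ρ := ρ) 𝐙(S) μ
  have h1 := hb.inf_fix_eq_bot hEZ hcE h0
  set U := wt ρ 𝐙(S) μ with hU
  set K := fixer ρ U with hK
  set L := stab 𝐙(S) μ with hL
  set Y := E ⊓ L with hY
  have hYE : Y ≤ E := inf_le_left
  have hYL : Y ≤ L := inf_le_right
  obtain ⟨hY1, hY2⟩ := hst 1 (one_mem T)
  rw [Transfer.conj_one] at hY1 hY2
  have hY3 : ¬ E ≤ Y := fun e => hY2 (e.trans hYL)
  have hYp := hE.prime hYE hY1 hY3
  have hM := h.comm_eq hE hYE hY1 hY3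
  have hYS : Y ≤ 𝐍(S) := hYE.trans h.ES
  have hYT : Y ≤ 𝐍(T) := hYE.trans h.ET
  have hcY : ∀ {D : Subgroup Γ}, D ≤ X → (Nat.card Y).Coprime (Nat.card D) := fun hD => coprime_mono h.cop hYE hD
  rcases hP with hP | hP
  · have hYg : ∀ g ∈ T, Y ≤ g ⋆ L := by
      intro g hg
      by_contra e
      obtain ⟨n, hn, h3⟩ := exists_le_conj_of_le_sup (coprime_mono h.cop le_rfl h.TX) (Or.inr (pgroup_sol h.pT)) hg
        (one_mem T) inf_le_right (hYL.trans (Transfer.conj_one L).ge) (inf_le_left.trans h.ET) hYT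
        (hE.le_sup hYE inf_le_left (hst g hg).1 fun e' => e (e'.trans inf_le_right))
      exact (hst n hn).2 h3
    refine hμ (hZS.trans (hM.ge.trans (le_trans ?_ hZK)))
    exact commutator_mono (le_inf le_rfl (abelian_cent hP)) (sup_le (comm_le_of_forall_le_conj hYg) hYL)
  have hSL : S ≤ L := (cent_symm (inf_le_right : 𝐙(S) ≤ _)).trans (cent_le_stab _ μ)
  have hTc : T ≤ 𝐂(𝐙(S)) := cent_symm (hP.cent.ge.trans inf_le_right)
  have hTL : T ≤ L := hTc.trans (cent_le_stab _ μ)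
  have hLK : L ≤ 𝐍(K) := hb.inv.norm_fixer
  have hTYT : ⁅T, Y⁆ ≤ T := comm_le_left hYT
  have hSY : ¬ ⁅S, Y⁆ ≤ K := fun e => hμ (hZS.trans (hM.ge.trans (comm_sup_le ((hTYT.trans hTL).trans hLK)
    (hYL.trans hLK) (comm_comm_le_of_comm_le e (hYL.trans hLK) (hTL.trans hLK) h.TS) e)))
  have hSYW : (Nat.card ↥(S ⊔ Y)).Coprime (Nat.card W) :=
    (hSW.mul_left (hEW.coprime_dvd_left (card_dvd hYE))).coprime_dvd_left (Coprime.card_sup_dvd hYS)
  have hs2 : s = 2 := by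
    by_contra e
    refine hSY (comm_le_fixer_of_prime hYS hYp (hcY h.SX) (fun n _ _ P hP hP2 => ?_) (hb.inv.mono (sup_le hSL hYL))
      hSYW h1)
    rw [card_eq_one.1 (hP2.card_eq_or_dvd.resolve_right fun e3 => e
      (pgroup_eq_of_dvd (pgroup_of_le h.pS hP) Nat.prime_two e3).symm)]
    infer_instance
  have hodd : Odd (Nat.card T) := Nat.not_even_iff_odd.1 fun e => h.st
    (hs2.trans (pgroup_eq_of_dvd h.pT Nat.prime_two e.two_dvd))
  have hZq : (K.relIndex 𝐙(S)).Prime := relIndex_fixer_wt hP.elab hμ ▸ hs.out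
  have hinv : Inv ρ (S ⊔ (T ⊔ Y)) U := hb.inv.mono (sup_le hSL (sup_le hTL hYL))
  have h2 : ⁅S, ⁅T, Y⁆⁆ ≤ K := lift_rep hZS hZq hP.der.le ((commutator_mono le_rfl hSL).trans hZK) (sup_le h.TS hYS)
    (h.cop' hYE).symm hYp hYT (hcY h.TX) hodd hinv hSYW h1
  obtain ⟨f, V, hf, hV, hVW, hn', hc', hfix⟩ := exists_hol hinv
  have hSS : S ≤ S ⊔ (T ⊔ Y) := le_sup_left
  have hTS : T ≤ S ⊔ (T ⊔ Y) := le_sup_left.trans le_sup_right
  have hYS' : Y ≤ S ⊔ (T ⊔ Y) := le_sup_right.trans le_sup_right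
  have hZS' := hZS.trans hSS
  have h3 : S ≤ S ⊓ K ⊔ ⁅S, Y⁆ := by
    have hle : S ⊓ K ⊔ ⁅S, Y⁆ ≤ S := sup_le inf_le_left (comm_le_left hYS)
    have e1 : ⁅S, ⁅T, Y⁆⁆ ≤ S ⊓ K ⊔ ⁅S, Y⁆ := (le_inf (comm_le_left (hTYT.trans h.TS)) h2).trans le_sup_left
    exact hM.ge.trans (comm_sup_le (norm_of_comm_le_of_le e1 hle) (norm_of_comm_le_of_le le_sup_right hle) e1
      le_sup_right)
  have h4 : im f S ≤ ⁅im f S, im f Y⁆ := by
    have := im_mono (f := f) h3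
    rwa [im_sup (inf_le_left.trans hSS) (comm_le_of_le hSS hYS'), (im_eq_bot_iff hf (inf_le_left.trans hSS)).2
      inf_le_right, bot_sup_eq, im_comm hSS hYS'] at this
  have hcY' := coprime_im (f := f) hYS' hSS (hcY h.SX)
  have h5 := cent_le_der (im_norm hYS) hcY' h4
  rw [← im_comm hSS hSS, hP.der] at h5
  have h6 : im f 𝐙(S) ≤ 𝐙(im f S) := le_inf (im_mono hZS) (im_cent inf_le_right)
  set R := S ⊓ PGroup.commStab K S with hR
  have hYY : ∀ y ∈ Y, y ≠ 1 → Y ≤ zpowers y := fun y hy hy1 => (zpowers_eq_of_prime hYp hy hy1).ge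
  have hYab := abelian_of_cyclic (cyclic_of_prime hYp)
  have h7 := comm_le_fixer_of_abelian (R := R) ((commutator_mono inf_le_left le_rfl).trans
    (PGroup.commutator_le_of_le_commStab inf_le_right)) hYab le_rfl hYY
    (norm_inf hYS (PGroup.le_normalizer_commStab (hYL.trans hLK) hYS)) (hcY (inf_le_left.trans h.SX))
    (hinv.mono (sup_le (inf_le_left.trans hSS) hYS')) (hSW.coprime_dvd_left (card_dvd inf_le_left)) h1
  have h8 : 𝐙(im f S) ≤ im f R := by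
    rintro _ ⟨⟨a, ha, rfl⟩, h⟩
    refine ⟨a, ⟨ha, hLK (hSL ha), fun b hb => ?_⟩, rfl⟩
    have h2 : ⁅a, (⟨b, hSS hb⟩ : ↥(S ⊔ (T ⊔ Y)))⁆ ∈ f.ker := by
      rw [MonoidHom.mem_ker, map_commutatorElement, commutatorElement_eq_one_iff_mul_comm]
      exact (mem_cent.1 h _ ⟨_, hb, rfl⟩).symm
    rwa [hf] at h2
  have h9 : 𝐙(im f S) ≤ 𝐂(im f Y) := h8.trans ((im_le_cent_iff hf (inf_le_left.trans hSS) hYS').2 h7)
  have h10 : 𝐙(im f S) = im f 𝐙(S) := le_antisymm ((le_inf inf_le_left h9).trans h5) h6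
  have h11 : im f S ⊓ 𝐂(im f Y) = 𝐙(im f S) := le_antisymm (h5.trans h6) (le_inf inf_le_left h9)
  have hZp : (Nat.card ↥𝐙(im f S)).Prime := by rwa [h10, card_im hf hZS']
  have hQ : ⁅im f S, im f S⁆ ≤ 𝐂(im f S) := by rw [← im_comm hSS hSS, hP.der]; exact h6.trans inf_le_right
  have hYQ : ¬ im f Y ≤ 𝐂(im f S) := fun e => hSY ((im_le_cent_iff hf hSS hYS').1 (cent_symm e))
  obtain ⟨d, -, h12, h13, -⟩ := extra_fpf (abelian_im hYab) le_rfl (le_zpowers_im hYY) (im_norm hYS) hcY'.symm hZp hQ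
    (cent_symm h9) hYQ (sup_le (hn' S) (hn' Y))
    (by rw [← im_sup hSS hYS']; exact (hSYW.coprime_dvd_left (card_im_dvd (sup_le hSS hYS'))).coprime_dvd_right hVW)
    (abelian_sol hV) (fun e => hμ (hc' _ hZS' (h10 ▸ e))) (hfix Y hYS' h1)
  refine extra_false (pgroup_im h.pT) ?_ (im_norm h.TS) (im_norm hYS) (im_norm hYT) (coprime_im hTS hSS h.copTS) hcY'
    (coprime_im hYS' hTS (hcY h.TX)) hZp hQ (h10 ▸ im_cent hTc) h11 ?_ (fun e => hμ (hZS.trans (h.comm.ge.trans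
      ((im_le_cent_iff hf hSS hTS).1 (cent_symm e))))) h12 h13
  · rcases (Nat.dvd_prime hYp).1 (card_im_dvd (f := f) hYS') with e | e
    · exact absurd ((card_eq_one.1 e).le.trans bot_le) hYQ
    · rwa [e]
  · rw [← im_comm hTS hYS']
    exact cent_symm ((im_le_cent_iff hf hSS (hTYT.trans hTS)).2 h2)

variable {l : ℕ} [hl : Fact l.Prime] {A : Type*} [Group A] {φ : A →* Γ} {X : Subgroup Γ}

theorem nil_of_pq {p q : ℕ} {F : Subgroup Γ} (hE : PQ p q F ((⊤ : Subgroup A).map φ)) (hρ : Function.Injective ρ)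
    (hX : FPF φ X) (h0 : 𝐎({l}, X) = ⊥) (hr : ∀ e, e ∣ Nat.card X → ¬ l ∣ e → HasEnoughRootsOfUnity k e)
    (hlA : ¬ l ∣ Nat.card A) (hW : ∃ m, Nat.card W = l ^ m) (hfix : fix ρ ((⊤ : Subgroup A).map φ) = ⊥) :
    Group.IsNilpotent X := by
  by_contra hn
  obtain ⟨m, hW⟩ := hW
  obtain ⟨s, t, S₀, T₀, hs, ht, hst, hsl, hS₀X, hT₀X, hS₀, hT₀, hES₀, hET₀, hTS₀, hnt⟩ := hX.exists_pair h0 hn
  haveI := Fact.mk hs
  haveI := Fact.mk ht
  set E := (⊤ : Subgroup A).map φ with hEdef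
  obtain ⟨T, ⟨h1, h2, h3⟩, hmin⟩ := wellFounded_lt.has_min {D : Subgroup Γ | D ≤ T₀ ∧ E ≤ 𝐍(D) ∧ ¬ D ≤ 𝐂(S₀)}
    ⟨T₀, le_rfl, hET₀, hnt⟩
  have hT := pgroup_of_le hT₀ h1
  obtain ⟨S, h4, h5, h6, h7, h8⟩ := exists_spec (A := T ⊔ E) (B := T) hS₀ (sup_le (h1.trans hTS₀) hES₀) le_sup_left
    (sup_le_norm_left h2) (coprime_pgroups hT hS₀ hst.symm) h3
  have hS := pgroup_of_le hS₀ h4
  have hSX := h4.trans hS₀X
  refine Cfg.false (ρ := ρ) (X := X) ⟨hst, hX.norm' ⊤, le_sup_right.trans h5, h2, le_sup_left.trans h5, hSX,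
    h1.trans hT₀X, hX.cop' ⊤ le_rfl, hX.fpf, hS, hT, fun D hD hn => ?_, h7, h6⟩ hE hρ h8 (hr _
      (Group.exponent_dvd_nat_card.trans (card_dvd (inf_le_left.trans hSX))) fun e => ?_)
    (hW ▸ coprime_of_pgroup hsl hS) (hW ▸ ((Nat.Prime.coprime_iff_not_dvd hl.out).2 fun e => hlA
      (e.trans ((card_map_dvd _ _).trans card_top.dvd))).symm.pow_right m) hfix
  · by_contra e
    exact hmin D ⟨hD.le.trans h1, hn, fun e' => e (e'.trans (cent_anti h4))⟩ hD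
  · exact hsl (pgroup_eq_of_dvd hS hl.out (e.trans (Group.exponent_dvd_nat_card.trans (card_dvd inf_le_left)))).symm

theorem abelian_of_s3 {F : Subgroup Γ} (hE : PQ 2 3 F ((⊤ : Subgroup A).map φ))
    (hna : ¬ (⊤ : Subgroup A).map φ ≤ 𝐂(F)) (hρ : Function.Injective ρ)
    (hX : FPF φ X) (h0 : 𝐎({l}, X) = ⊥) (hr : ∀ e, e ∣ Nat.card X → ¬ l ∣ e → HasEnoughRootsOfUnity k e)
    (hlA : ¬ l ∣ Nat.card A) (hW : ∃ m, Nat.card W = l ^ m) (hfix : fix ρ ((⊤ : Subgroup A).map φ) = ⊥) :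
    ⁅X, X⁆ = ⊥ := by
  have hn := nil_of_pq hE hρ hX h0 hr hlA hW hfix
  obtain ⟨m, hW⟩ := hW
  set E := (⊤ : Subgroup A).map φ with hEdef
  have hlX : ¬ l ∣ Nat.card X := fun e => by
    obtain ⟨P, hP, h1⟩ := exists_card_eq_prime hl.out e
    exact ne_bot_of_prime (h1 ▸ hl.out) (eq_bot_mono h0 (nil_le_pcore hn hP (by
      rw [PiGrp, h1]; exact PiNat.of_prime hl.out rfl)))
  have hXW : (Nat.card X).Coprime (Nat.card W) :=
    hW ▸ ((Nat.Prime.coprime_iff_not_dvd hl.out).2 hlX).symm.pow_right m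
  have hEW : (Nat.card E).Coprime (Nat.card W) := hW ▸ ((Nat.Prime.coprime_iff_not_dvd hl.out).2 fun e => hlA
      (e.trans ((card_map_dvd _ _).trans card_top.dvd))).symm.pow_right m
  by_contra hne
  have hZX : 𝐙(X) ≤ X := inf_le_left
  have hEX : E ≤ 𝐍(X) := hX.norm' ⊤
  have hcE : (Nat.card E).Coprime (Nat.card X) := hX.cop' ⊤ le_rfl
  obtain ⟨μ, hμ⟩ := exists_wt (ρ := ρ) (abelian_center X) (hr _ (Group.exponent_dvd_nat_card.trans (card_dvd hZX))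
    fun e => hlX (e.trans (Group.exponent_dvd_nat_card.trans (card_dvd hZX)))) (Y := ⁅X, X⁆ ⊓ 𝐂(X)) (by
    rw [fixer_top_eq_bot hρ]; exact fun e => nil_meet_center hn (der_le X) (norm_der (le_norm X)) hne (le_bot_iff.1 e))
  have hμ' : ¬ 𝐙(X) ≤ fixer ρ (wt ρ 𝐙(X) μ) := fun e => hμ ((inf_le_inf_right _ (der_le X)).trans e)
  have hEZ : E ≤ 𝐍(𝐙(X)) := norm_center hEX
  have hc := cast_ne_zero_of_coprime (ne_bot_of_not_le_fixer hμ) hEW
  obtain ⟨hY1, hY2⟩ := stab_facts hμ' hEZ (coprime_comm_eq_of_cent_bot hEZ (coprime_mono hcE le_rfl hZX)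
    (Or.inr (abelian_sol (abelian_center X))) (eq_bot_mono hX.fpf (inf_le_inf_right _ hZX))) hc hfix (one_mem _)
  rw [Transfer.conj_one] at hY1 hY2
  have hb := blk_wt (ρ := ρ) 𝐙(X) μ
  have h1 := hb.inf_fix_eq_bot hEZ hc hfix
  set K := fixer ρ (wt ρ 𝐙(X) μ) with hK
  set L := stab 𝐙(X) μ with hL
  set Y := E ⊓ L with hY
  have hYE : Y ≤ E := inf_le_left
  have hY3 : ¬ E ≤ Y := fun e => hY2 (e.trans inf_le_right)
  have hXL : X ≤ L := (cent_symm (inf_le_right : 𝐙(X) ≤ _)).trans (cent_le_stab _ μ)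
  have hYX := hYE.trans hEX
  have h2 : ⁅X, Y⁆ ≤ K := comm_le_fixer_of_prime hYX (hE.prime hYE hY1 hY3) (coprime_mono hcE hYE le_rfl)
    (fun n _ _ P hP hP2 => by
      rw [card_eq_one.1 (hP2.card_eq_or_dvd.resolve_right fun e3 => Nat.prime_two.ne_one
        (Nat.eq_one_of_dvd_coprimes hcE (hE.cardE ▸ dvd_mul_right _ _) (e3.trans (card_dvd hP))))]
      infer_instance) (hb.inv.mono (sup_le hXL inf_le_right))
    ((hXW.mul_left (hEW.coprime_dvd_left (card_dvd hYE))).coprime_dvd_left (Coprime.card_sup_dvd hYX)) h1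
  refine hμ (inf_le_left.trans ?_)
  rcases hE.cases hYE hY1 hY3 with e | ⟨e1, e2⟩
  · obtain ⟨H, hH, h3, h4⟩ := hE.exists_compl
    have h5 := abelian_of_two (X := X ⊓ 𝐂(F)) h3 (hH.trans (norm_inf hEX (norm_cent hE.norm)))
      (by rw [inf_assoc, ← cent_sup, h4]; exact hX.fpf)
    rw [e] at h2 hYX
    have h6 := coprime_cent_prod hYX (coprime_mono hcE hE.le le_rfl) (Or.inr hX.sol)
    refine (der_mono h6.ge).trans ((Coprime.commutator_sup_le_sup_commutator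
      (inf_le_left.trans (left_norm_comm _ _))).trans (sup_le h2 ((abelian_iff_der.1 h5).le.trans bot_le)))
  · refine (der_le_of_s3 hE e1 e2 (fun e => hna ?_) hEX hcE hX.sol hX.fpf (K := X ⊓ K)
      ⟨inf_le_left, norm_inf (le_norm X) (hXL.trans hb.inv.norm_fixer)⟩ (le_inf (comm_le_left hYX) h2)).trans
      inf_le_right
    rw [← e2]
    exact sup_le (abelian_cent (abelian_of_cyclic (cyclic_of_prime (hE.cardF ▸ Nat.prime_three)))) e

end Rep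

section Top

variable {A : Type*} [Group A] [Finite A] {p q : ℕ}

theorem exists_data (hp : p.Prime) (hq : q.Prime) (hlt : p < q) (hA : Nat.card A = p * q)
    (hna : ¬ IsMulCommutative A) : ∃ F H : Subgroup A, F.Normal ∧ Nat.card F = q ∧ Nat.card H = p ∧ F ⊔ H = ⊤ ∧
      ⁅F, H⁆ = F ∧ p ∣ q - 1 := by
  obtain ⟨F, -, hF⟩ := exists_card_eq_prime (A := (⊤ : Subgroup A)) hq (by rw [card_top, hA]; exact dvd_mul_left _ _)
  obtain ⟨H, -, hH⟩ := exists_card_eq_prime (A := (⊤ : Subgroup A)) hp (by rw [card_top, hA]; exact dvd_mul_right _ _)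
  have hi : F.index = p := by
    have := F.index_mul_card
    rw [hA, hF] at this
    exact Nat.eq_of_mul_eq_mul_right hq.pos this
  haveI : F.Normal := normal_of_index_eq_minFac_card (by
    rw [hi, hA]
    have h0 : (p * q).minFac.Prime := Nat.minFac_prime fun e => hp.ne_one (Nat.eq_one_of_mul_eq_one_right e)
    rcases h0.dvd_mul.1 (Nat.minFac_dvd _) with e | e
    · exact ((Nat.prime_dvd_prime_iff_eq h0 hp).1 e).symm
    · have h1 := (Nat.prime_dvd_prime_iff_eq h0 hq).1 e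
      have := Nat.minFac_le_of_dvd hp.two_le (dvd_mul_right p q)
      omega)
  have hHF : H ≤ 𝐍(F) := le_normalizer_of_normal
  have hc : (Nat.card F).Coprime (Nat.card H) := by rw [hF, hH]; exact (Nat.coprime_primes hq hp).2 hlt.ne'
  have hsup : F ⊔ H = ⊤ := eq_of_le_of_card_le le_top (by
    rw [← (SD.of_coprime hHF hc).card, card_top, hA, hF, hH, mul_comm])
  have hn : ¬ F ≤ 𝐂(H) := fun e => hna (by
    have := abelian_sup (abelian_of_cyclic (cyclic_of_prime (hF ▸ hq))) (abelian_of_cyclic (cyclic_of_prime (hH ▸ hp))) e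
    rw [hsup] at this
    exact ⟨⟨fun a b => congrArg Subtype.val (this.is_comm.comm ⟨a, mem_top a⟩ ⟨b, mem_top b⟩)⟩⟩)
  refine ⟨F, H, this, hF, hH, hsup, (eq_bot_or_eq_of_prime (hF ▸ hq) (comm_le_left hHF)).resolve_left
    fun e => hn (comm_eq_bot_iff.1 e), ?_⟩
  rw [← hF, ← hH]
  exact Frobenius.card_dvd_card_sub_one_of_fpf hHF (PLocal.fpf_of_card_prime (hH ▸ hp)
    (inf_eq_bot_of_prime (hF ▸ hq) hn))

theorem img_cases (hp : p.Prime) (hq : q.Prime) (hlt : p < q) (hA : Nat.card A = p * q)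
    (hna : ¬ IsMulCommutative A) {Γ : Type*} [Group Γ] [Finite Γ] (φ : A →* Γ) :
    (⊤ : Subgroup A).map φ = ⊥ ∨ Nat.card ((⊤ : Subgroup A).map φ) = p ∨
      ∃ F, PQ p q F ((⊤ : Subgroup A).map φ) ∧ ¬ (⊤ : Subgroup A).map φ ≤ 𝐂(F) := by
  obtain ⟨F, H, _, hF, hH, hsup, hc, hd⟩ := exists_data hp hq hlt hA hna
  have h1 : (⊤ : Subgroup A).map φ = F.map φ ⊔ H.map φ := by rw [← Subgroup.map_sup, hsup]
  have h2 : ⁅F.map φ, H.map φ⁆ = F.map φ := by rw [← map_commutator, hc]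
  have h3 := (Nat.dvd_prime hp).1 (hH ▸ card_map_dvd H φ)
  rcases (Nat.dvd_prime hq).1 (hF ▸ card_map_dvd F φ) with e | e
  · rw [h1, card_eq_one.1 e, bot_sup_eq]
    exact h3.imp card_eq_one.1 Or.inl
  have h4 : ¬ H.map φ ≤ 𝐂(F.map φ) := fun e' => ne_bot_of_prime (e ▸ hq) (h2.symm.trans (comm_eq_bot_iff'.2 e'))
  have h5 := h3.resolve_left fun e' => h4 ((card_eq_one.1 e').le.trans bot_le)
  have h6 : (⊤ : Subgroup A).map φ ≤ 𝐍(F.map φ) := map_norm φ le_normalizer_of_normal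
  refine Or.inr (Or.inr ⟨F.map φ, ⟨hp, hq, hd, map_mono le_top, h6, e, ?_⟩, fun e' => h4 ((map_mono le_top).trans e')⟩)
  rw [h1, ← (SD.of_coprime ((map_mono le_top).trans h6) (by
    rw [e, h5]; exact (Nat.coprime_primes hq hp).2 hlt.ne')).card, e, h5, mul_comm]

theorem eq_bot_of_img {Γ : Type*} [Group Γ] {φ : A →* Γ} {X : Subgroup Γ} (hX : FPF φ X)
    (h : (⊤ : Subgroup A).map φ = ⊥) : X = ⊥ :=
  eq_bot_mono hX.fpf (le_inf le_rfl (cent_symm (h.le.trans bot_le)))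

theorem res_two_eq_bot (hp : p.Prime) (hq : q.Prime) (hlt : p < q) (hA : Nat.card A = p * q)
    (hna : ¬ IsMulCommutative A) {G : Type u} [Group G] [Finite G] {φ : A →* G} {X : Subgroup G} (hX : FPF φ X) :
    res 2 X = ⊥ := by
  refine nilRes_eq_bot_iff.2 (nil_of_rep (fun _ _ X => nilRes X) (fun _ _ => nilRes_le) (fun _ _ _ _ _ => map_nilRes)
    ?_ G φ X hX)
  intro Γ _ _ φ X l _ k _ _ W _ _ _ ρ hρ hX h0 hr hl hW hfix
  rw [nilRes_eq_bot_iff]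
  rcases img_cases hp hq hlt hA hna φ with e | e | ⟨F, hE, -⟩
  · rw [eq_bot_of_img hX e]; infer_instance
  · exact PLocal.isNilpotent_of_fpf_prime (hX.norm' ⊤) (e ▸ hp) hX.fpf
  · exact nil_of_pq hE hρ hX h0 hr hl hW hfix

theorem der_nil (hA : Nat.card A = 2 * 3) (hna : ¬ IsMulCommutative A) {G : Type u} [Group G] [Finite G]
    {φ : A →* G} {X : Subgroup G} (hX : FPF φ X) : Group.IsNilpotent ↥⁅X, X⁆ := by
  refine nil_of_rep (fun _ _ X => ⁅X, X⁆) (fun _ _ => der_le) (fun _ _ _ _ _ f X => map_commutator X X f) ?_ G φ X hX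
  intro Γ _ _ φ X l _ k _ _ W _ _ _ ρ hρ hX h0 hr hl hW hfix
  rcases img_cases Nat.prime_two Nat.prime_three (by norm_num) hA hna φ with e | e | ⟨F, hE, h1⟩
  · rw [eq_bot_of_img hX e, commutator_bot_left]
  · exact abelian_iff_der.1 (abelian_of_two e (hX.norm' ⊤) hX.fpf)
  · exact abelian_of_s3 hE h1 hρ hX h0 hr hl hW hfix

end Top

end Cfsg.Lib.CharDeg.SPQ
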