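import Cfsg.Agent.Lib.CharDeg.Poisson

/-! The theta series of an even unimodular lattice of rank 24 is a modular form of weight 12. -/

set_option autoImplicit false

namespace Cfsg.Lib.CharDeg.Poisson

open Matrix Complex
open scoped Real

variable {n : ℕ}

/-- Real version of an integer matrix. -/
abbrev rl (M : Matrix (Fin n) (Fin n) ℤ) : Matrix (Fin n) (Fin n) ℝ := M.map (Int.cast : ℤ → ℝ)

theorem semidef_real (M : Matrix (Fin n) (Fin n) ℤ) (h : ∀ x : Fin n → ℤ, 0 ≤ x ⬝ᵥ M *ᵥ x)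
    (x : Fin n → ℝ) : 0 ≤ x ⬝ᵥ rl M *ᵥ x := by
  have hd : DenseRange (Pi.map fun (_ : Fin n) (q : ℚ) => (q : ℝ)) :=
    DenseRange.piMap fun _ => Rat.denseRange_cast
  refine hd.induction_on x (isClosed_le continuous_const (by
    simp only [dotProduct, mulVec]; fun_prop)) fun q => ?_
  obtain ⟨⟨d, hd⟩, hq⟩ := IsLocalization.exist_integer_multiples_of_finite (nonZeroDivisors ℤ) q
  choose y hy using hq
  have hd0 : (d : ℝ) ≠ 0 := by exact_mod_cast nonZeroDivisors.ne_zero hd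
  have hy' : ∀ i, ((q i : ℚ) : ℝ) = (y i : ℝ) / d := fun i => by
    have : ((y i : ℚ) : ℝ) = ((d • q i : ℚ) : ℝ) := congrArg _ (hy i)
    rw [eq_div_iff hd0, mul_comm]
    simpa using this.symm
  have e : (Pi.map (fun (_ : Fin n) (q : ℚ) => (q : ℝ)) q) ⬝ᵥ rl M *ᵥ
      (Pi.map (fun (_ : Fin n) (q : ℚ) => (q : ℝ)) q) = ((y ⬝ᵥ M *ᵥ y : ℤ) : ℝ) / d ^ 2 := by
    simp only [dotProduct, mulVec, Pi.map_apply, hy', map_apply]
    push_cast
    simp only [Finset.sum_div, Finset.mul_sum]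
    exact Finset.sum_congr rfl fun i _ => Finset.sum_congr rfl fun j _ => by field_simp
  rw [e]
  exact div_nonneg (by exact_mod_cast h y) (sq_nonneg _)

theorem pos_of_int (M N : Matrix (Fin n) (Fin n) ℤ) (hM : ∀ i j, M i j = M j i) (hMN : M * N = 1)
    (h : ∀ x : Fin n → ℤ, 0 ≤ x ⬝ᵥ M *ᵥ x) : ∃ ε : ℝ, 0 < ε ∧ Pos ε (rl M) := by
  obtain ⟨K, hK0, hK⟩ : ∃ K : ℝ, 0 < K ∧ ∀ i, (N i i : ℝ) ≤ K :=
    ⟨1 + ∑ i, |(N i i : ℝ)|, by positivity, fun i => by
      have := Finset.single_le_sum (f := fun i => |(N i i : ℝ)|) (fun _ _ => abs_nonneg _)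
        (Finset.mem_univ i)
      linarith [le_abs_self (N i i : ℝ)]⟩
  have hr : rl M * rl N = 1 := by
    have := congrArg (fun X => X.map (Int.castRingHom ℝ)) hMN
    simp only [Matrix.map_mul, Matrix.map_one _ (map_zero _) (map_one _)] at this
    exact this
  refine ⟨1 / ((n + 1) * K), by positivity, fun x => ?_⟩
  have h0 := semidef_real M h x
  have key : ∀ i, x i ^ 2 ≤ K * (x ⬝ᵥ rl M *ᵥ x) := fun i => by
    have h1 := semidef_real M h (x + (-(x i / K)) • (rl N *ᵥ Pi.single i 1))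
    rw [qf_add (fun i j => by simp [hM i j]), mulVec_smul, mulVec_mulVec, hr, one_mulVec] at h1
    simp only [smul_dotProduct, dotProduct_smul, smul_eq_mul, single_dotProduct, dotProduct_single,
      mulVec_single_one, Pi.smul_apply, col_apply, map_apply, one_mul, mul_one] at h1
    have h2 := mul_le_mul_of_nonneg_left (hK i) (sq_nonneg (x i / K))
    have h3 : x i ^ 2 = K * (2 * (x i / K * x i) - (x i / K) ^ 2 * K) := by field_simp; ring
    rw [h3]
    exact mul_le_mul_of_nonneg_left (by nlinarith) hK0.le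
  have := Finset.sum_le_sum fun i (_ : i ∈ Finset.univ) => key i
  rw [Finset.sum_const, Finset.card_univ, Fintype.card_fin, nsmul_eq_mul] at this
  rw [one_div, inv_mul_le_iff₀ (by positivity)]
  nlinarith [mul_nonneg hK0.le h0]

theorem Pos.mono {ε δ : ℝ} {A : Matrix (Fin n) (Fin n) ℝ} (h : Pos ε A) (hδ : δ ≤ ε) : Pos δ A :=
  fun x => (mul_le_mul_of_nonneg_right hδ (Finset.sum_nonneg fun _ _ => sq_nonneg _)).trans (h x)

/-- Term of the theta series. -/
noncomputable def term (B : Matrix (Fin n) (Fin n) ℤ) (z : ℂ) (x : Fin n → ℤ) : ℂ :=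
  cexp (π * I * z * ((x ⬝ᵥ B *ᵥ x : ℤ) : ℂ))

/-- The theta series. -/
noncomputable def th (B : Matrix (Fin n) (Fin n) ℤ) (z : ℂ) : ℂ := ∑' x, term B z x

theorem qf_int (B : Matrix (Fin n) (Fin n) ℤ) (x : Fin n → ℤ) :
    iv x ⬝ᵥ cx (rl B) *ᵥ iv x = ((x ⬝ᵥ B *ᵥ x : ℤ) : ℂ) := by
  simp [dotProduct, mulVec]

theorem T_eq (B : Matrix (Fin n) (Fin n) ℤ) (z : ℂ) (x : Fin n → ℤ) :
    T (rl B) (-I * z) 0 x = term B z x := by
  rw [T, term, qf_int, zero_dotProduct]; congr 1; ring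

theorem norm_term (B : Matrix (Fin n) (Fin n) ℤ) (z : ℂ) (x : Fin n → ℤ) :
    ‖term B z x‖ = Real.exp (-π * z.im * (x ⬝ᵥ B *ᵥ x : ℤ)) := by
  rw [term, Complex.norm_exp]
  generalize x ⬝ᵥ B *ᵥ x = m
  simp

/-- An even unimodular positive lattice given by Gram matrix and inverse. -/
structure Lat (B C : Matrix (Fin n) (Fin n) ℤ) : Prop where
  symm : ∀ i j, B i j = B j i
  symm' : ∀ i j, C i j = C j i
  inv : B * C = 1
  nonneg : ∀ x : Fin n → ℤ, 0 ≤ x ⬝ᵥ B *ᵥ x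
  even : ∀ x : Fin n → ℤ, (2 : ℤ) ∣ x ⬝ᵥ B *ᵥ x

variable {B C : Matrix (Fin n) (Fin n) ℤ}

theorem Lat.qf_inv (h : Lat B C) (y : Fin n → ℤ) :
    (C *ᵥ y) ⬝ᵥ B *ᵥ (C *ᵥ y) = y ⬝ᵥ C *ᵥ y := by
  rw [mulVec_mulVec, h.inv, one_mulVec, dotProduct_comm]

theorem Lat.pos (h : Lat B C) : ∃ ε : ℝ, 0 < ε ∧ Pos ε (rl B) ∧ Pos ε (rl C) := by
  obtain ⟨ε, h1, h2⟩ := pos_of_int B C h.symm h.inv h.nonneg
  obtain ⟨δ, h3, h4⟩ := pos_of_int C B h.symm' (mul_eq_one_comm.1 h.inv)
    fun y => h.qf_inv y ▸ h.nonneg _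
  exact ⟨min ε δ, lt_min h1 h3, h2.mono (min_le_left _ _), h4.mono (min_le_right _ _)⟩

theorem Lat.summ (h : Lat B C) {z : ℂ} (hz : 0 < z.im) : Summable fun x => ‖term B z x‖ := by
  obtain ⟨ε, h1, h2, -⟩ := h.pos
  simpa only [T_eq] using summT h1 h2 (t := -I * z) (by simpa using hz) 0

theorem Lat.norm_le (h : Lat B C) {z w : ℂ} (hzw : w.im ≤ z.im) (x : Fin n → ℤ) :
    ‖term B z x‖ ≤ ‖term B w x‖ := by
  rw [norm_term, norm_term, Real.exp_le_exp]
  have : (0 : ℝ) ≤ (x ⬝ᵥ B *ᵥ x : ℤ) := by exact_mod_cast h.nonneg x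
  nlinarith [mul_nonneg (mul_nonneg Real.pi_pos.le (sub_nonneg.2 hzw)) this]

theorem Lat.th_add_one (h : Lat B C) (z : ℂ) : th B (z + 1) = th B z := by
  refine tsum_congr fun x => ?_
  obtain ⟨k, hk⟩ := h.even x
  rw [term, term, hk, show π * I * (z + 1) * ((2 * k : ℤ) : ℂ) =
    π * I * z * ((2 * k : ℤ) : ℂ) + k * (2 * π * I) by push_cast; ring, Complex.exp_add,
    exp_int_mul_two_pi_mul_I, mul_one]

theorem Lat.th_I_ne (h : Lat B C) : th B I ≠ 0 := by
  have e : ∀ x, term B I x = ((‖term B I x‖ : ℝ) : ℂ) := fun x => by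
    rw [norm_term, term, ofReal_exp]
    congr 1
    simp only [I_im]
    push_cast
    linear_combination (π * ((x ⬝ᵥ B *ᵥ x : ℤ) : ℂ)) * I_mul_I
  rw [th, tsum_congr e, ← ofReal_tsum, ofReal_ne_zero]
  exact ((h.summ (z := I) (by simp)).tsum_pos (fun _ => norm_nonneg _) 0
    (by rw [norm_term]; exact Real.exp_pos _)).ne'

theorem Lat.th_inv {B C : Matrix (Fin 24) (Fin 24) ℤ} (h : Lat B C) {z : ℂ} (hz : 0 < z.im) :
    th B (-z⁻¹) = z ^ 12 * th B z := by
  obtain ⟨ε, h1, h2, h3⟩ := h.pos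
  have hr : rl B * rl C = 1 := by
    have := congrArg (fun X => X.map (Int.castRingHom ℝ)) h.inv
    simp only [Matrix.map_mul, Matrix.map_one _ (map_zero _) (map_one _)] at this
    exact this
  obtain ⟨κ, hκ⟩ := poisson 24 (rl B) (rl C) ε h1 (fun i j => by simp [h.symm i j])
    (fun i j => by simp [h.symm' i j]) hr h2 h3
  have key : ∀ z : ℂ, 0 < z.im → z ^ 12 * th B z = κ * th B (-z⁻¹) := fun z hz => by
    have hz0 : z ≠ 0 := fun e => by simp [e] at hz
    have ht0 : -I * z ≠ 0 := mul_ne_zero (neg_ne_zero.2 I_ne_zero) hz0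
    have := hκ (-I * z) (by simpa using hz) 0
    simp only [T_eq] at this
    let e : (Fin 24 → ℤ) ≃ (Fin 24 → ℤ) :=
      ⟨fun y => C *ᵥ y, fun y => B *ᵥ y, fun y => by
        simp only [mulVec_mulVec, h.inv, one_mulVec], fun y => by
        simp only [mulVec_mulVec, mul_eq_one_comm.1 h.inv, one_mulVec]⟩
    have e1 : ∑' y, U (rl C) (-I * z) 0 y = th B (-z⁻¹) := by
      rw [th, ← e.tsum_eq (term B (-z⁻¹))]
      refine tsum_congr fun y => ?_
      rw [U, term, smul_zero, add_zero, qf_int]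
      change _ = cexp (_ * (((C *ᵥ y) ⬝ᵥ B *ᵥ (C *ᵥ y) : ℤ) : ℂ))
      rw [h.qf_inv]
      congr 2
      field_simp
      linear_combination I_mul_I
    have e2 : ((-I * z) ^ (1 / 2 : ℂ)) ^ 24 = z ^ 12 := by
      have : ((-I * z) ^ (1 / 2 : ℂ)) ^ 2 = -I * z := by
        rw [one_div]; exact_mod_cast cpow_nat_inv_pow (-I * z) two_ne_zero
      rw [show 24 = 2 * 12 from rfl, pow_mul, this, mul_pow, show 12 = 4 * 3 from rfl, pow_mul]
      have : (-I) ^ 4 = 1 := by rw [neg_pow, I_pow_four]; norm_num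
      rw [this]; simp
    rw [e1, one_div, inv_pow, e2] at this
    rw [th, this]
    field_simp
  have k1 := key I (by simp)
  rw [inv_I, neg_neg, show 12 = 4 * 3 from rfl, pow_mul, I_pow_four, one_pow] at k1
  rw [key z hz, ← mul_right_cancel₀ h.th_I_ne k1, one_mul]

theorem Lat.diff (h : Lat B C) {z : ℂ} (hz : 0 < z.im) : DifferentiableAt ℂ (th B) z := by
  have ho : IsOpen {w : ℂ | z.im / 2 < w.im} := isOpen_lt continuous_const continuous_im
  have := differentiableOn_tsum_of_summable_norm (h.summ (z := ((z.im / 2 : ℝ) : ℂ) * I)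
    (by simpa using hz)) (U := {w : ℂ | z.im / 2 < w.im}) (F := fun x w => term B w x)
    (fun x => by unfold term; fun_prop) ho fun x w hw => h.norm_le (by simpa using le_of_lt hw) x
  exact this.differentiableAt (ho.mem_nhds (by change z.im / 2 < z.im; linarith))

theorem Lat.hasSum (h : Lat B C) {z : ℂ} (hz : 0 < z.im) :
    HasSum (fun m : ℕ => ({x : Fin n → ℤ | x ⬝ᵥ B *ᵥ x = 2 * m}.ncard : ℂ) •
      cexp (2 * π * I * z) ^ m) (th B z) := by
  have := (h.summ hz).of_norm.hasSum.tsum_fiberwise fun x => ((x ⬝ᵥ B *ᵥ x) / 2).toNat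
  refine (congrArg (fun f => HasSum f (th B z)) (funext fun m => ?_)).mpr this
  have e : (fun x : Fin n → ℤ => ((x ⬝ᵥ B *ᵥ x) / 2).toNat) ⁻¹' {m} =
      {x | x ⬝ᵥ B *ᵥ x = 2 * m} := by
    ext x
    have h1 := h.nonneg x
    have h2 := h.even x
    simp only [Set.mem_preimage, Set.mem_singleton_iff, Set.mem_setOf_eq]
    omega
  rw [e, tsum_congr (g := fun _ => cexp (2 * π * I * z) ^ m) fun x => by
    rw [term, x.2, ← Complex.exp_nat_mul]; congr 1; push_cast; ring, tsum_const, Nat.card_coe_set_eq]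
  simp

open UpperHalfPlane hiding I
open MatrixGroups ModularForm

/-- The theta series as a modular form. -/
noncomputable def thetaMF {B C : Matrix (Fin 24) (Fin 24) ℤ} (h : Lat B C) : ModularForm 𝒮ℒ 12 :=
  have hS : ((fun τ : ℍ => th B τ) ∣[(12 : ℤ)] ModularGroup.S) = fun τ : ℍ => th B τ := by
    ext z
    suffices th B (-(↑z)⁻¹) * ((z : ℂ) ^ 12)⁻¹ = th B z by
      rw [SL_slash_apply, UpperHalfPlane.modular_S_smul, ModularGroup.denom_S]
      simpa
    rw [h.th_inv z.2]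
    field_simp [z.ne_zero]
  have hT : ((fun τ : ℍ => th B τ) ∣[(12 : ℤ)] ModularGroup.T) = fun τ : ℍ => th B τ := by
    ext z
    rw [SL_slash_apply, modular_T_smul, ModularGroup.denom_apply]
    simp [ModularGroup.T, add_comm (1 : ℂ), h.th_add_one]
  { toFun := fun τ => th B τ
    slash_action_eq' := fun A hA => by
      obtain ⟨A, rfl⟩ := hA
      exact SlashInvariantForm.slash_action_generators_SL2Z hS hT A
    holo' := by
      rw [UpperHalfPlane.mdifferentiable_iff]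
      refine .congr (fun z hz => (h.diff hz).differentiableWithinAt) fun z hz => ?_
      simp [ofComplex_apply_of_im_pos hz]
    bdd_at_cusps' := fun hc => by
      rw [Subgroup.IsArithmetic.isCusp_iff_isCusp_SL2Z] at hc
      rw [OnePoint.isBoundedAt_iff_forall_SL2Z hc]
      intro γ _
      rw [SlashInvariantForm.slash_action_generators_SL2Z hS hT, isBoundedAtImInfty_iff]
      refine ⟨∑' x, ‖term B I x‖, 1, fun z hz => ?_⟩
      exact tsum_of_norm_bounded (h.summ (z := I) (by simp)).hasSum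
        fun x => h.norm_le (by simpa using hz) x }

theorem thetaMF_coeff {B C : Matrix (Fin 24) (Fin 24) ℤ} (h : Lat B C) (m : ℕ) :
    (qExpansion 1 (thetaMF h)).coeff m = ({x : Fin 24 → ℤ | x ⬝ᵥ B *ᵥ x = 2 * m}.ncard : ℂ) := by
  refine (ModularFormClass.qExpansion_coeff_unique
    (c := fun m => ({x : Fin 24 → ℤ | x ⬝ᵥ B *ᵥ x = 2 * m}.ncard : ℂ)) one_pos
    one_mem_strictPeriods_SL (fun τ => ?_) m).symm
  have := h.hasSum τ.2
  change HasSum _ (th B τ)
  simpa [Function.Periodic.qParam] using this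

end Cfsg.Lib.CharDeg.Poisson
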