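import Cfsg.Agent.Lib.CharDeg.TrWeak
import Cfsg.Agent.Lib.PU.GNExc

/-!
# A characteristic subgroup that is normal unless there is quadratic action
-/

set_option autoImplicit false

namespace Cfsg.Lib.CharDeg.TrBlk

open Subgroup Cfsg.Lib.BG Cfsg.Lib.Transfer Cfsg.Lib.Loc Cfsg.Lib.PLocal Cfsg.Lib.PU
open scoped commutatorElement MatrixGroups

universe u

section one

variable {G : Type*} [Group G] {p : ℕ} {S M D P : Subgroup G}

/-- A subgroup of `S` outside `O_p(G)` is quadratic on `O_p(G) / Z(O_p(G))`. -/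
def Nice (p : ℕ) (S : Subgroup G) : Prop :=
  ∃ D ≤ S, ¬ D ≤ pCore p G ∧ ⁅⁅pCore p G, D⁆, D⁆ ≤ 𝐂(pCore p G)

variable [Finite G] [hp : Fact p.Prime]

local notation "𝐐" => pCore p G
local notation "𝐕" => 𝐂(pCore p G)

theorem block (h : HypJ p S M) (hP : Nbr p S P) (hne : ¬ S ⊓ 𝐂(P) ≤ 𝐐) : Nice p S := by
  have h1 : 𝐐 ≤ 𝐕 ⊔ P ⊓ 𝐐 := by
    rw [← modular_left h.char le_normalizer_of_normal]
    exact le_inf (h.core_le.trans (hP.sup h.cdV fun e => hne ((le_inf (inf_le_right.trans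
      (cent_anti e)) inf_le_left).trans h.cent_inf.le))) le_rfl
  have h2 : ⁅P ⊓ 𝐐, S ⊓ 𝐂(P)⁆ = ⊥ := comm_eq_bot_iff'.2 (cent_mono le_rfl inf_le_right inf_le_left)
  have h5 : ⁅⁅𝐐, S ⊓ 𝐂(P)⁆, S ⊓ 𝐂(P)⁆ = ⊥ := comm_eq_bot_iff.2 (((commutator_mono h1 le_rfl).trans
    (comm_sup_le ((h.char.trans h.core_le).trans (norm_cent (le_norm S))) ((inf_le_right.trans
      h.core_le).trans (norm_cent (le_norm S))) ((commutator_mono le_rfl inf_le_left).trans h.quad')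
      (h2.le.trans bot_le))).trans (cent_anti inf_le_left))
  exact ⟨_, inf_le_left, hne, h5.le.trans bot_le⟩

theorem main (h : HypJ p S M) (hP : Nbr p S P) (hY : S ⊓ 𝐂(P) ≤ 𝐐) (hne : P ≠ 𝐐)
    (hD : Atom p P ⁅𝐕, S⁆ (⁅𝐕, S⁆ ⊓ center G) D) : D ≤ 𝐕 ⊔ S ⊓ 𝐂(P) ∨ Nice p S := by
  refine or_iff_not_imp_left.2 fun h1 => ?_
  by_cases h0 : D ≤ 𝐐
  swap
  · have hDS := hD.cd.1.trans hP.cd.1
    have hR : S ≤ 𝐍(⁅𝐕, S⁆) := right_norm_comm _ _
    have h3 : ⁅⁅𝐐, D⁆, D⁆ ≤ ⁅𝐕, S⁆ := (commutator_mono ((commutator_comm _ _).le.trans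
      ((commutator_mono le_rfl h.core_le).trans (le_sup_right.trans (ncl_eq_sup D S).ge)))
        hD.cd.1).trans (comm_ncl_le hP.norm hR (hDS.trans hR) hD.comm.le)
    exact ⟨D, hDS, h0, h3.trans (commutator_le_left _ _)⟩
  refine (h.not_comm_le ?_).elim
  have hV := h.V_le_nbr hP hY
  have hDS := hD.cd.up hP.cd hP.cent
  have h2 := hP.cd.inf h.cdQ
  have h3 := h.down h2 inf_le_right (le_inf hV h.char)
  have hR := h.R_le hP hY hD
  refine (hD.comm_le hR (h2.down' hP.cd inf_le_left (le_inf hP.cent hY)) fun e => h1 ?_).trans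
    (h.atom h3 (h.down (hDS.sup (h.up' h3.perp)) (sup_le h0 inf_le_left) ((HypJ.V_le_of_cd h.char
      h3.perp).trans le_sup_right)) ((commutator_mono le_rfl inf_le_left).trans
        (hD.comm.le.trans h.quad')) fun U hU hU' => or_iff_not_imp_left.2 fun e => ?_)
  · exact (le_inf hDS.1 e).trans ((hP.cd.perp_inf h.cdQ).le.trans (by rw [h.inf_V, sup_comm]))
  have h4 := (h.up' hU).sup hP.cd.perp
  exact (commutator_mono le_rfl inf_le_left).trans (hD.comm.le.trans ((hD.comm_le hR (h4.down'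
    hP.cd (sup_le (hU'.trans inf_le_left) hP.cent) le_sup_right) fun e' =>
      e (e'.trans (cent_anti le_sup_left))).trans (comm_le_of_le_sup le_rfl ((hU'.trans
        inf_le_left).trans (norm_of_comm_le (hD.comm.le.trans hR)))
          (inf_le_right.trans (cent_anti hD.cd.1)))))

theorem le_norm_cent (h : HypZ p S M) : M ≤ 𝐍(𝐂(S)) := by
  obtain ⟨-, -, F, _, _, n, hn, -, _⟩ := h.natSec le_rfl h.cent h.quad
  set π := (CS.toSec n).top
  have h1 : S.map π = upperUnipotentSL2 F := ((CS.toSec n).im_top S).symm.trans hn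
  have h2 : (⊤ : Subgroup G).map π = ⊤ := ((CS.toSec n).im_top ⊤).symm.trans (CS.toSec_top n)
  have h3 : π.ker ≤ M := by
    by_contra e
    refine CS.norm_upper_ne (F := F) (top_le_iff.1 (le_trans ?_ (le_norm _)))
    rw [← h2, ← h.sup_eq_top e, Subgroup.map_sup, h1, (Subgroup.map_eq_bot_iff _).2 le_rfl, bot_sup_eq]
  have h4 : M.map π ≤ 𝐍(upperUnipotentSL2 F) := by
    by_contra e
    have := comap_map_eq_self h3
    rw [CS.eq_top_of_not_le (h1.ge.trans (map_mono h.pmin.le)) e, comap_top] at this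
    exact h.pmin.lt.ne this.symm
  obtain ⟨s, hs, hs'⟩ := SetLike.not_le_iff_exists.1 h.not_le_core
  refine le_norm_iff.2 fun m hm z hz => h.ti hs hs' (Normal.conj_mem inferInstance _
    (h.cent_le hz) m) ?_
  obtain ⟨t, ht, e⟩ := h1.ge (conj_mem_of_norm' (h4 (mem_map_of_mem π hm))
    (h1.le (mem_map_of_mem π hs)))
  have h5 : n.ρ ⟨t⁻¹ * (m⁻¹ * s * m), trivial⟩ = 1 := by
    change π (t⁻¹ * (m⁻¹ * s * m)) = 1
    rw [map_mul, map_mul, map_mul, map_inv, map_inv, e, inv_mul_cancel]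
  have h6 := ((n.rho_eq_one_iff _).1 h5 z (h.cent_le hz)).2
  rw [coe_top, centralizer_univ] at h6
  have h7 : t * z = z * t := hz t ht
  have h8 := (inferInstance : (center G).Normal).conj_mem _ h6 (m * t)
  rwa [show m * t * ⁅t⁻¹ * (m⁻¹ * s * m), z⁆ * (m * t)⁻¹ =
    s * m * z * m⁻¹ * s⁻¹ * m * (t * z⁻¹ * t⁻¹) * m⁻¹ by simp only [commutatorElement_def]; group,
    show t * z⁻¹ * t⁻¹ = z⁻¹ by rw [mul_inv_eq_iff_eq_mul, mul_inv_eq_iff_eq_mul, mul_assoc, h7,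
      inv_mul_cancel_left], show s * m * z * m⁻¹ * s⁻¹ * m * z⁻¹ * m⁻¹ = ⁅s, m * z * m⁻¹⁆ by
        simp only [commutatorElement_def]; group] at h8

theorem Nice.le (hn : Nice p S) (h : HypZ p S M) (hp2 : p ≠ 2) :
    𝐐 ⊓ _root_.commutator G ≤ ⁅𝐍(𝐂(S)), 𝐍(𝐂(S))⁆ := by
  refine le_trans ?_ (commutator_mono (le_norm_cent h) (le_norm_cent h))
  obtain ⟨D, h1, h2, h3⟩ := hn
  obtain ⟨u, hu, hu'⟩ := SetLike.not_le_iff_exists.1 h2
  obtain ⟨T, rfl⟩ := sylIn_top_iff.1 h.sylIn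
  refine Core.chief_induction_up (P := fun Y => Y ≤ ⁅M, M⁆) (V := ⊥) inferInstance inferInstance
    bot_le bot_le fun U W hUW _ hU hW => ?_
  have := hUW.2.1
  have := hUW.2.2.1
  have hUQ := hU.trans inf_le_left
  refine le_commutator_of_engel T (fun H a b => h.pmin.uniq H a (lt_top_iff_ne_top.2 b))
    (hUQ.trans (h.core_le.trans h.pmin.le)) (hU.trans inf_le_right) hW (fun y hy => ?_) (h1 hu) hu'
    (iterCommutator_le_of_le (i := 2) le_normalizer_of_normal ?_ ?_)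
  · rw [← QuotientGroup.eq_one_iff, QuotientGroup.mk_pow]
    exact ((Core.isMinNormal_map_mk'_of_isChiefFactor hUW).isElementaryAbelian_of_isPGroup
      (((Core.pCore_isPGroup p G).to_le hUQ).map _)).2 _ ⟨y, hy, rfl⟩
  · have hz := zpowers_le.2 hu
    rcases chief_or hUW 𝐕 with e | e
    · exact le_trans (le_inf (PGroup.iterCommutator_le le_normalizer_of_normal 2)
        ((commutator_mono (commutator_mono hUQ hz) hz).trans h3)) e
    · refine (PGroup.iterCommutator_mono e le_rfl 2).trans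
        ((iterCommutator_sup_normal_le _ _ _ 2).trans (sup_le (le_trans ?_ bot_le) le_rfl))
      exact (commutator_mono (commutator_mono inf_le_right (hz.trans h1)) (hz.trans h1)).trans
        h.quad.quad.le
  · have := hp.out.two_le
    omega

end one

variable {S : Type u} [Group S] [Finite S] {p : ℕ} [hp : Fact p.Prime]

section two

variable {G G' : Type*} [Group G] [Finite G] [Group G'] [Finite G'] {τ : S →* G} {σ : S →* G'}
  {M : Subgroup G} {M' : Subgroup G'}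

omit [Finite S] in
theorem cent_le_comap (h : HypJ p ((⊤ : Subgroup S).map τ) M) (hτ : Function.Injective τ)
    (h0 : ¬ Nice p ((⊤ : Subgroup S).map τ)) {P : Subgroup S}
    (hP : Nbr p ⊤ P) : ⊤ ⊓ 𝐂(P) ≤ (pCore p G).comap τ :=
  map_le_iff_le_comap.1 (map_inf_centralizer' hτ ⊤ P ▸ by_contra fun e =>
    h0 (block h ((Nbr.map hτ).2 hP) e))

theorem normal_map_inf' (hτ : Function.Injective τ) (hσ : Function.Injective σ)
    (h : HypJ p ((⊤ : Subgroup S).map τ) M) (h' : HypJ p ((⊤ : Subgroup S).map σ) M')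
    (h0 : ¬ Nice p ((⊤ : Subgroup S).map τ))
    (h0' : ¬ Nice p ((⊤ : Subgroup S).map σ)) :
    (((pCore p G).comap τ ⊓ (pCore p G').comap σ).map τ).Normal := by
  have e := h.map_comap_core
  have e' := h'.map_comap_core
  have n := h.nbr_comap hτ
  have n' := h'.nbr_comap hσ
  have c := map_mono (f := τ) (cent_le_comap h hτ h0 n')
  have c' := map_mono (f := σ) (cent_le_comap h' hσ h0' n)
  generalize (pCore p G).comap τ = P at *
  generalize (pCore p G').comap σ = Q at *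
  by_cases hne : P = Q
  · rw [← hne, inf_idem, e]; infer_instance
  rw [map_inf_centralizer' hτ, e] at c
  rw [map_inf_centralizer' hσ, e'] at c'
  have hne' : P.map σ ≠ pCore p G' := fun k => hne (map_injective hσ (k.trans e'.symm))
  have eV : (⊤ ⊓ 𝐂(Q)).map σ = 𝐂(pCore p G') := by rw [map_inf_centralizer' hσ, e', h'.inf_V]
  have eR : Subgroup.map σ ⁅⊤ ⊓ 𝐂(Q), ⊤⁆ = ⁅𝐂(pCore p G'), (⊤ : Subgroup S).map σ⁆ := by
    rw [map_commutator, eV]
  have eZ : Subgroup.map σ (⁅⊤ ⊓ 𝐂(Q), ⊤⁆ ⊓ (center G').comap σ) =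
      ⁅𝐂(pCore p G'), (⊤ : Subgroup S).map σ⁆ ⊓ center G' := by
    rw [← eR]
    exact le_antisymm (le_inf (map_mono inf_le_left) (map_le_iff_le_comap.2 inf_le_right))
      (by rintro _ ⟨⟨x, hx, rfl⟩, hz⟩; exact mem_map_of_mem σ ⟨hx, hz⟩)
  have eD : (⊤ ⊓ 𝐂(Q) ⊔ ⊤ ⊓ 𝐂(P)).map σ =
      𝐂(pCore p G') ⊔ (⊤ : Subgroup S).map σ ⊓ 𝐂(P.map σ) := by
    rw [Subgroup.map_sup, eV, map_inf_centralizer' hσ]
  have a := h'.atom_sup ((Nbr.map hσ).2 n) c' hne'
  rw [← eZ, ← eR, ← eD, Atom.map hσ, ← Atom.map hτ, e] at a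
  have hR : Subgroup.map τ ⁅⊤ ⊓ 𝐂(Q), ⊤⁆ ≤ center G := by
    rw [map_commutator, map_inf_centralizer' hτ]
    exact h.comm_nbr_le ((Nbr.map hτ).2 n') c fun k => hne (map_injective hτ (e.trans k.symm))
  have hD : ((⊤ ⊓ 𝐂(Q) ⊔ ⊤ ⊓ 𝐂(P)).map τ).Normal := ⟨fun x hx g => by
    have a' := (Atom.map (f := (MulAut.conj g).toMonoidHom) (MulAut.conj g).injective).2 a
    have := PGroup.normal_of_le_center hR
    have := PGroup.normal_of_le_center ((map_mono inf_le_left).trans hR :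
      Subgroup.map τ (⁅⊤ ⊓ 𝐂(Q), ⊤⁆ ⊓ (center G').comap σ) ≤ center G)
    change Atom p (g ⋆ _) (g ⋆ _) (g ⋆ _) (g ⋆ _) at a'
    rw [conj_eq_self_of_normal, conj_eq_self_of_normal, conj_eq_self_of_normal] at a'
    have k := map_comap_eq_self (a'.cd.1.trans (h.core_le.trans (map_le_range τ ⊤)))
    rw [← k, ← e, Atom.map hτ, ← Atom.map hσ, eZ, eR] at a'
    have k' := (main h' ((Nbr.map hσ).2 n) c' hne' a').resolve_right h0'
    rw [← eD, map_le_map_iff_of_injective hσ] at k'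
    exact map_mono k' (k.ge (conj_mem_conj.2 hx))⟩
  rw [show P ⊓ Q = P ⊓ 𝐂(⊤ ⊓ 𝐂(Q) ⊔ ⊤ ⊓ 𝐂(P)) by
    rw [cent_sup, ← top_inf_eq 𝐂(⊤ ⊓ 𝐂(Q)), ← top_inf_eq 𝐂(⊤ ⊓ 𝐂(P)), n.cd.perp_perp,
      n'.cd.perp_perp, inf_comm Q, ← inf_assoc, inf_idem], map_inf_centralizer' hτ, e]
  infer_instance

end two

variable (p) in
/-- The `p`-cores of the groups over `S` without quadratic action. -/
def IsMemN (Q : Subgroup S) : Prop := ∃ (G : Type u) (_ : Group G) (_ : Finite G) (τ : S →* G)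
  (M : Subgroup G), Function.Injective τ ∧ HypJ p ((⊤ : Subgroup S).map τ) M ∧
    ¬ Nice p ((⊤ : Subgroup S).map τ) ∧ Q = (pCore p G).comap τ

theorem exists_family' (hS : CDIn (⊤ : Subgroup S) ⊤) : ∃ S₂ : Subgroup S, S₂.Characteristic ∧
    CLIn ⊤ S₂ ∧ ∀ (G : Type u) [Group G] [Finite G] (τ : S →* G) (M : Subgroup G),
      Function.Injective τ → HypJ p ((⊤ : Subgroup S).map τ) M →
        ¬ Nice p ((⊤ : Subgroup S).map τ) →
          (S₂.map τ).Normal := by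
  have hn : ∀ Q : Subgroup S, IsMemN p Q → Nbr p ⊤ Q := by
    rintro _ ⟨G, _, _, τ, M, hτ, h, -, rfl⟩
    exact h.nbr_comap hτ
  have hcd := CDIn.iInf (f := fun Q : {Q : Subgroup S // IsMemN p Q} => Q.1) hS fun Q => (hn _ Q.2).cd
  refine ⟨⊤ ⊓ ⨅ Q : {Q : Subgroup S // IsMemN p Q}, Q.1, characteristic_iff_le_comap.2 fun φ x hx =>
    ⟨trivial, mem_iInf.2 ?_⟩, clIn_iff.2 ⟨hcd, le_inf le_top (le_iInf fun Q =>
      (inf_le_inf_left _ (cent_anti (le_inf le_top (le_iInf ?_)))).trans (hn _ Q.2).cd.perp_perp.le)⟩,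
    fun G _ _ τ M hτ h h0 => ⟨?_⟩⟩
  · rintro ⟨_, G, _, _, τ, M, hτ, h, h0, rfl⟩
    have e : (⊤ : Subgroup S).map (τ.comp φ.toMonoidHom) = (⊤ : Subgroup S).map τ := by
      rw [← map_map, map_top_of_surjective _ φ.surjective]
    exact mem_iInf.1 hx.2 ⟨_, G, inferInstance, inferInstance, τ.comp φ.toMonoidHom, M,
      hτ.comp φ.injective, e ▸ h, e ▸ h0, rfl⟩
  · rintro ⟨_, G, _, _, τ, M, hτ, h, h0, rfl⟩
    exact cent_le_comap h hτ h0 (hn _ Q.2)
  · rintro _ ⟨s, hs, rfl⟩ g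
    have key : ∀ Q : Subgroup S, IsMemN p Q → g * τ s * g⁻¹ ∈ ((pCore p G).comap τ ⊓ Q).map τ := fun Q hQ => by
      have h1 := mem_iInf.1 hs.2 ⟨Q, hQ⟩
      obtain ⟨G', _, _, σ, M', hσ, h', h0', rfl⟩ := hQ
      exact (normal_map_inf' hτ hσ h h' h0 h0').conj_mem _ (mem_map_of_mem τ ⟨mem_iInf.1 hs.2
        ⟨_, G, inferInstance, inferInstance, τ, M, hτ, h, h0, rfl⟩, h1⟩) g
    obtain ⟨t, -, e⟩ := key _ ⟨G, inferInstance, inferInstance, τ, M, hτ, h, h0, rfl⟩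
    exact ⟨t, ⟨trivial, mem_iInf.2 fun Q =>
      (mem_inf.1 ((mem_map_iff_mem hτ).1 (e ▸ key _ Q.2))).2⟩, e⟩

theorem exists_char [Nontrivial S] (hS : IsPGroup p S) (hJ : 𝐂(zjA S) = ⊤) :
    ∃ N : Subgroup S, N ≠ ⊥ ∧ N.Characteristic ∧ ∀ (G : Type u) [Group G] [Finite G] (τ : S →* G)
      (M : Subgroup G), Function.Injective τ → HypZ p ((⊤ : Subgroup S).map τ) M →
        ¬ Nice p ((⊤ : Subgroup S).map τ) → (N.map τ).Normal := by
  by_cases h : frattiniOfMinimalCLJoin p S = ⊥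
  swap
  · refine ⟨_, h, characteristic_iff_map_eq.2 map_phiCL, fun G _ _ τ M hτ k _ => ?_⟩
    have := k.normal_phiJoin
    rwa [← map_frattiniOfMinimalCLJoin, ← map_phiCL (topEquiv.symm.trans
      (equivMapOfInjective ⊤ τ hτ)), map_map] at this
  obtain ⟨Q, hQ, e⟩ := exists_mz p S
  have h1 := (le_iSup (fun Q : {Q : Subgroup S // IsMinimalCentrallyLarge Q ∧
    Nat.card ↥(omegaOneCenter p Q) = maxOmegaCenterOfMinimalCL p S} =>
    (frattini ↥Q.1).map Q.1.subtype) ⟨Q, hQ, e⟩).trans h.le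
  rw [PGroup.map_subtype_frattini_le_iff (hS.to_subgroup Q), le_bot_iff] at h1
  obtain ⟨h4, h5, h6⟩ := thompson_eq_top hJ hQ h1.1
  have hcd := (clIn_iff.1 (clIn_top.2 h5)).1
  obtain ⟨S₂, h2, h7, h8⟩ := exists_family' (p := p) hcd
  refine ⟨S₂, h7.ne_bot, h2, fun G _ _ τ M hτ k => h8 G τ M hτ ⟨k, (CDIn.map hτ).2 hcd, ?_, ?_⟩⟩
  · rw [← map_inf_centralizer' hτ]
    rintro _ ⟨z, hz, rfl⟩
    rw [← map_pow, mem_bot.1 (h1.2 z ((clIn_iff.1 (clIn_top.2 hQ.1)).1.center_le hz)), map_one]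
  · by_contra! e'
    refine k.not_le_core (h4 ▸ map_le_iff_le_comap.2 (sSup_le fun A hA => map_le_iff_le_comap.1
      (e' _ ((CDIn.map hτ).2 (clIn_iff.1 (clIn_top.2 (h6 A hA))).1) ?_)))
    rw [← map_cent_eq hτ, centralizer_eq_of_mem_maxAbelian hA]

end Cfsg.Lib.CharDeg.TrBlk
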