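import Cfsg.Agent.Lib.CharDeg.TrNice

/-!
# Two characteristic subgroups whose normalizers control transfer, `p` odd
-/

set_option autoImplicit false

namespace Cfsg.Lib.CharDeg.TrBlk

open Subgroup Cfsg.Lib.BG Cfsg.Lib.Transfer Cfsg.Lib.Loc Cfsg.Lib.PLocal Cfsg.Lib.PU
open Cfsg.Lib.CS
open scoped commutatorElement

universe u

section amb

variable {G Y : Type*} [Group G] [Group Y] {p : ℕ} {S M M' L T : Subgroup G} {ι : Y →* G}

theorem norm_le_norm_map (hι : Function.Injective ι) (N : Subgroup Y) [N.Characteristic] :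
    𝐍((⊤ : Subgroup Y).map ι) ≤ 𝐍(N.map ι) := by
  have := char_map hι (le_top : N ≤ ⊤) (characteristic_subgroupOf rfl)
  have h := Core.normalizer_le_normalizer_map_subtype ((N.map ι).subgroupOf ((⊤ : Subgroup Y).map ι))
  rwa [map_subgroupOf_eq_of_le (map_mono le_top)] at h

theorem hyp_pull {T₀ : Subgroup L} (e : T₀.map L.subtype = T) (c : IsChP p L) (r : Rk0 p T M' L) :
    PU.Hyp p T₀ (M'.comap L.subtype) := by
  have r' : Rk0 p T₀ (M'.comap L.subtype) ⊤ := Rk0.of_map L.subtype_injective (by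
    rwa [e, Core.map_subtype_top])
  refine ⟨r'.pmin, isChP_top.1 ((isChP_map_iff L.subtype_injective).1 (by
    rwa [Core.map_subtype_top])), fun x hx h1 h2 g => r'.spe x hx (core_top (p := p) (G := L) ▸ h1) h2 g
      (mem_top g)⟩

theorem not_center {T₀ : Subgroup L} (e : T₀.map L.subtype = T) (h1 : omegaOneCenter p S ≤ T)
    (h2 : T ≤ S) (h3 : 𝐂(omegaOneCenter p S) ≤ M) (h4 : ¬ L ≤ M) : ¬ T₀ ⊓ 𝐂(T₀) ≤ center L := by
  refine fun h => h4 fun l hl => h3 fun z hz => ?_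
  have h5 : z ∈ (T₀ ⊓ 𝐂(T₀)).map L.subtype := by
    rw [map_inf_centralizer' L.subtype_injective, e]
    exact ⟨h1 hz, cent_anti h2 (oz_le_centralizer S hz)⟩
  obtain ⟨t, ht, rfl⟩ := h5
  exact (congrArg Subtype.val (mem_center_iff.1 (h ht) ⟨l, hl⟩)).symm

theorem oz_le_baum {e : ℕ} (h1 : omegaOneCenter p S ≤ T) (h2 : T ≤ S) :
    omegaOneCenter p S ≤ baum e T :=
  le_inf h1 (cent_mono (oz_le_centralizer S) le_rfl ((zj_le T).trans h2))

variable [Finite G] [hp : Fact p.Prime]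

theorem exists_sub (hp2 : p ≠ 2) (h : MC p S M) (hZ : ¬ (S ⊓ 𝐂(S)).Normal)
    (hT : ¬ (baum 0 (baum p S)).Normal) : 𝐂(omegaOneCenter p S) ≤ M ∧ ∃ L M', ¬ L ≤ M ∧ IsChP p L ∧
      Rk0 p (baum 0 (baum p S)) M' L ∧ pCore p G ≤ 𝐍(L) := by
  have hS : SylIn p S ⊤ := ⟨le_top, h.pmin.pgroup, h.pmin.syl⟩
  have nB : S ≤ 𝐍(baum p S) := (le_norm S).trans (normalizer_le_baum S)
  have hB : 𝐍(baum p S) ≤ M := h.pmin.uniq _ nB (lt_top_iff_ne_top.2 fun e =>
    hT (Core.normal_of_top_le_normalizer (e.ge.trans (normalizer_le_baum _))))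
  have sw := sw_of hp2 h.chp h.pmin (fun e => hZ (PGroup.normal_of_le_center e)) hB
  refine ⟨sw.cz, ?_⟩
  obtain ⟨L, c, ⟨M₁, r⟩, hL⟩ := sw.good_of_pMin h.pmin
  have hP : pCore p G ≤ S := core_top (p := p) (G := G) ▸ sw.core_le
  have n1 : pCore p G ≤ 𝐍(L) := by
    rw [← r.pmin.res_sup]
    exact norm_sup (le_norm_of_wc (baum_wc hS) (res_res L) (rk_comm r) (Core.pCore_isPGroup p G)
      le_normalizer_of_normal le_normalizer_of_normal) (hP.trans nB)
  have e : ((baum p S).subgroupOf L).map L.subtype = baum p S := map_subgroupOf_eq_of_le r.le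
  have e' : (baum 0 ((baum p S).subgroupOf L)).map L.subtype = baum 0 (baum p S) := by
    rw [map_baum L.subtype_injective, e]
  have hBM : baum p S ≤ M := inf_le_left.trans h.pmin.le
  rcases baum_step (e := 0) (hyp_pull e c r) (by
    rw [omegaCenter_zero]
    exact not_center e (oz_le_baum (oz_le S) le_rfl) inf_le_left sw.cz hL) with k | ⟨k1, k2, k3⟩
  · refine (hT (Core.normal_of_top_le_normalizer ((h.pmin.sup_eq_of_not_le le_top hL).ge.trans
      (sup_le ?_ (nB.trans (normalizer_le_baum _)))))).elim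
    have := map_norm L.subtype (le_normalizer_of_normal : ⊤ ≤ 𝐍(baum 0 ((baum p S).subgroupOf L)))
    rwa [Core.map_subtype_top, e'] at this
  refine ⟨_, _, fun k => hL ?_, (isChP_map_iff L.subtype_injective).2 k1,
    e' ▸ k2.map L.subtype_injective, ?_⟩
  · rw [← Core.map_subtype_top L, ← k3, Subgroup.map_sup, e]
    exact sup_le k hBM
  · rw [← ncl_top, map_ncl, e', Core.map_subtype_top]
    exact norm_ncl_of_norm (hP.trans (nB.trans (normalizer_le_baum _))) n1

theorem not_nice (hp2 : p ≠ 2) (h : MC p S M) (hz : 𝐂(omegaOneCenter p S) ≤ M)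
    (h1 : omegaOneCenter p S ≤ T) (h2 : T ≤ S) (h3 : S ≤ 𝐍(T)) (hL : ¬ L ≤ M) (r : Rk0 p T M' L)
    (n1 : pCore p G ≤ 𝐍(L)) {T₀ M₀ : Subgroup L} (e : T₀.map L.subtype = T) (k : HypZ p T₀ M₀) :
    ¬ Nice p T₀ := fun hn => by
  have a1 : 𝐍(T ⊓ 𝐂(T)) ≤ M := h.pmin.uniq _ (norm_inf h3 (norm_cent h3)) (lt_top_iff_ne_top.2
    fun e => hL ((r.le_of_res_le (r.res_le (norm_cent (le_top.trans e.ge)) le_rfl r.not_le_core
      (cent_symm inf_le_right)) (cent_symm inf_le_right)).trans ((cent_anti (le_inf h1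
        ((oz_le_centralizer S).trans (cent_anti h2)))).trans hz)))
  have a2 : (𝐂(T₀)).map L.subtype = T ⊓ 𝐂(T) := by
    rw [← e, ← map_inf_centralizer' L.subtype_injective,
      inf_eq_right.2 (k.cent_le.trans (k.char.trans k.core_le))]
  have a3 : (𝐍(𝐂(T₀))).map L.subtype ≤ M := (map_norm L.subtype le_rfl).trans (a2 ▸ a1)
  have a4 := map_mono (f := L.subtype) (hn.le k hp2)
  rw [map_inf _ _ _ L.subtype_injective, map_subtype_commutator, map_commutator] at a4
  have a5 : pResidualOf p L ≤ L := res_le p L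
  have a6 : ⁅pCore p G, pResidualOf p L⁆ ≤ L :=
    (comm_le_right (n1.trans (normalizer_le_normalizer_res p L))).trans a5
  refine hL (r.le_of_res_le (h.key _ (le_trans (le_inf ?_ ?_) (a4.trans (commutator_mono a3 a3))))
    (h2.trans h.pmin.le))
  · exact (le_inf (commutator_le_left _ _) a6).trans (core_top (p := p) (G := G) ▸ core_inf_le le_top)
  · rw [← commutator_res_res (Core.pCore_isPGroup p G) le_normalizer_of_normal]
    exact commutator_mono a6 a5

end amb

/-- The functor. -/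
def KF (p : ℕ) (Q : Type u) [Group Q] : Subgroup Q := sSup {N | ∀ (X : Type u) [Group X] [Finite X]
  (τ : Q →* X) (M : Subgroup X), Function.Injective τ → MC p ((⊤ : Subgroup Q).map τ) M →
    ¬ ((⊤ : Subgroup Q).map τ ⊓ 𝐂((⊤ : Subgroup Q).map τ)).Normal → (N.map τ).Normal}

theorem KF_normal {p : ℕ} {Q X : Type u} [Group Q] [Group X] [Finite X] {τ : Q →* X}
    {M : Subgroup X} (hτ : Function.Injective τ) (h : MC p ((⊤ : Subgroup Q).map τ) M)
    (hZ : ¬ ((⊤ : Subgroup Q).map τ ⊓ 𝐂((⊤ : Subgroup Q).map τ)).Normal) :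
    ((KF p Q).map τ).Normal := by
  refine Core.normal_of_top_le_normalizer fun g _ => mem_normalizer_of_conj_le ?_
  rw [conj_le_iff_le_inv_conj, map_le_iff_le_comap]
  refine sSup_le fun N hN => ?_
  have := hN X τ M hτ h hZ
  rw [← map_le_iff_le_comap, ← conj_le_iff_le_inv_conj, conj_eq_self_of_normal]
  exact map_mono (le_sSup hN)

theorem map_KF_le {p : ℕ} {Q R : Type u} [Group Q] [Group R] (φ : Q ≃* R) :
    (KF p Q).map φ.toMonoidHom ≤ KF p R := by
  rw [map_le_iff_le_comap]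
  refine sSup_le fun N hN => map_le_iff_le_comap.1 (le_sSup fun X _ _ τ M hτ h hZ => ?_)
  have e : (⊤ : Subgroup Q).map (τ.comp φ.toMonoidHom) = (⊤ : Subgroup R).map τ := by
    rw [← map_map, map_top_of_surjective _ φ.surjective]
  rw [map_map]
  exact hN X _ M (hτ.comp φ.injective) (e ▸ h) (e ▸ hZ)

variable {p : ℕ} [hp : Fact p.Prime]

theorem KF_ne_bot (hp2 : p ≠ 2) {Q : Type u} [Group Q] [Finite Q] [Nontrivial Q]
    (hQ : IsPGroup p Q) : KF p Q ≠ ⊥ := by
  set T := baum 0 (baum p (⊤ : Subgroup Q)) with hT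
  have t1 : T ≤ baum p ⊤ := inf_le_left
  have t2 : omegaOneCenter p ⊤ ≤ T := oz_le_baum (oz_le_baum le_top le_rfl) le_top
  have : Nontrivial T := (Subgroup.nontrivial_iff_ne_bot _).2
    (ne_bot_mono (oz_ne_bot (hQ.to_subgroup ⊤) top_ne_bot) t2)
  have hJ : 𝐂(zjA T) = ⊤ := by
    refine eq_top_iff.2 (cent_of_map T.subtype_injective ?_)
    rw [map_zjA T.subtype_injective, Core.map_subtype_top, zj,
      centerThompsonOf_eq_of_le (thompson_le_baum _) t1]
    exact inf_le_right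
  obtain ⟨N, h1, h2, h3⟩ := exists_char (p := p) (hQ.to_subgroup T) hJ
  refine ne_bot_mono (fun e => h1 ((map_eq_bot_iff_of_injective _ T.subtype_injective).1 e))
    (le_sSup fun X _ _ τ M hτ h hZ => ?_)
  set S := (⊤ : Subgroup Q).map τ
  have hι : Function.Injective (τ.comp T.subtype) := hτ.comp T.subtype_injective
  have e : (⊤ : Subgroup T).map (τ.comp T.subtype) = baum 0 (baum p S) := by
    rw [← map_map, Core.map_subtype_top, map_baum hτ, map_baum hτ]
  have n0 := norm_le_norm_map hι N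
  rw [e] at n0
  rw [map_map]
  by_cases hn : (baum 0 (baum p S)).Normal
  · exact Core.normal_of_top_le_normalizer (le_normalizer_of_normal.trans n0)
  obtain ⟨hz, L, M', hL, c, r, n1⟩ := exists_sub hp2 h hZ hn
  have nS : S ≤ 𝐍(baum 0 (baum p S)) :=
    (le_norm S).trans ((normalizer_le_baum S).trans (normalizer_le_baum _))
  let σ : T →* L := (τ.comp T.subtype).codRestrict L fun t => r.le (e.le (mem_map_of_mem _ (mem_top t)))
  have hσ : Function.Injective σ := fun a b k => hι (congrArg Subtype.val k)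
  have e1 : ∀ U : Subgroup T, (U.map σ).map L.subtype = U.map (τ.comp T.subtype) := fun U => by
    rw [map_map]; rfl
  have e2 := (e1 ⊤).trans e
  have s1 : omegaOneCenter p S ≤ baum 0 (baum p S) :=
    oz_le_baum (oz_le_baum (oz_le S) le_rfl) inf_le_left
  have s2 : baum 0 (baum p S) ≤ S := inf_le_left.trans inf_le_left
  have k : HypZ p ((⊤ : Subgroup T).map σ) (M'.comap L.subtype) := by
    refine (hyp_pull e2 c r).hypZ (not_center e2 s1 s2 hz hL) ?_
    rw [centerThompsonAOf_eq, ← omegaOne_zero (centerThompsonOf 0 _), ← zj, ← map_zjA hσ]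
    exact map_cent σ hJ.ge
  have := h3 L σ _ hσ k (not_nice hp2 h hz s1 s2 nS hL r n1 e2 k)
  have n2 := map_norm L.subtype (le_normalizer_of_normal : ⊤ ≤ 𝐍(N.map σ))
  rw [Core.map_subtype_top, e1] at n2
  exact Core.normal_of_top_le_normalizer ((h.pmin.sup_eq_of_not_le le_top hL).ge.trans
    (sup_le n2 (nS.trans n0)))

theorem isChar_KF (hp2 : p ≠ 2) : IsCharPFunctor.{u} p (KF p) := by
  refine ⟨fun Q _ _ hQ _ => KF_ne_bot hp2 hQ, fun Q R _ _ _ _ φ => le_antisymm (map_KF_le φ) ?_⟩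
  intro x hx
  exact ⟨φ.symm x, map_KF_le φ.symm ⟨x, hx, rfl⟩, φ.apply_symm_apply x⟩

theorem isChar_center : IsCharPFunctor.{u} p fun Q _ => center Q := by
  refine ⟨fun Q _ _ hQ _ => by simpa using inf_center_ne_bot hQ top_ne_bot, fun Q R _ _ _ _ φ => ?_⟩
  rw [map_center_eq φ.injective, map_top_of_surjective _ φ.surjective, top_inf_eq, coe_top,
    centralizer_univ]

theorem inf_le_sup (hp2 : p ≠ 2) {G : Type u} [Group G] [Finite G] (S : Sylow p G) :
    (S : Subgroup G) ⊓ _root_.commutator G ≤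
      (S : Subgroup G) ⊓ ⁅𝐂((S : Subgroup G) ⊓ 𝐂((S : Subgroup G))),
        𝐂((S : Subgroup G) ⊓ 𝐂((S : Subgroup G)))⁆ ⊔
        (S : Subgroup G) ⊓ ⁅𝐍((KF p S).map (S : Subgroup G).subtype), 𝐍((KF p S).map (S : Subgroup G).subtype)⁆ := by
  have h𝓦 : ∀ W ∈ ({fun (Q : Type u) [Group Q] => center Q, KF p} :
      Set (∀ (Q : Type u) [Group Q], Subgroup Q)),
      IsCharPFunctor.{u} p W := by
    rintro _ (rfl | rfl)
    exacts [isChar_center, isChar_KF hp2]
  have h := (familyControlsTransferIn_top_iff h𝓦 S).1 (controls_of h𝓦 ⟨_, Or.inr rfl⟩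
    (fun X _ _ T M h => by
      by_cases hZ : (T ⊓ 𝐂(T)).Normal
      · refine ⟨_, Or.inl rfl, ?_⟩
        change ((center T).map T.subtype).Normal
        rwa [Core.map_subtype_center]
      · exact ⟨_, Or.inr rfl, KF_normal T.subtype_injective ((Core.map_subtype_top T).symm ▸ h)
          ((Core.map_subtype_top T).symm ▸ hZ)⟩) G)
  rw [trSub_ind_top] at h
  refine h.trans (iSup₂_le ?_)
  rintro _ (rfl | rfl)
  swap
  · exact le_sup_right
  change (S : Subgroup G) ⊓ ⁅𝐍((center S).map (S : Subgroup G).subtype),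
    𝐍((center S).map (S : Subgroup G).subtype)⁆ ≤ _
  rw [Core.map_subtype_center]
  set Z := (S : Subgroup G) ⊓ 𝐂((S : Subgroup G))
  have h1 : (S : Subgroup G) ≤ 𝐂(Z) := cent_symm inf_le_right
  have h2 : (S : Subgroup G) ≤ 𝐍(Z) := h1.trans (cent_le_norm Z)
  have : (KF p S).Characteristic :=
    characteristic_iff_map_eq.2 fun φ => (isChar_KF hp2).2 _ _ S.2 φ
  have h3 := Core.normalizer_le_normalizer_map_subtype (KF p S)
  refine (inf_commutator_le_iff h2 S.2 (sylow_not_dvd_relIndex S h2)).2 fun x hx g hg hy => ?_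
  obtain ⟨n, hn, h4⟩ := frattini_argument h1 S.2 (sylow_not_dvd_relIndex S h1)
    (norm_cent le_rfl) hg
  have h5 := conj_mem_of_norm h4 hx
  rw [show x⁻¹ * (g * x * g⁻¹) = (x⁻¹ * (n * g * x * (n * g)⁻¹)) *
    ((n * g * x * (n * g)⁻¹)⁻¹ * (g * x * g⁻¹)) by group]
  refine mul_mem (mem_sup_right (mem_inf.2 ⟨mul_mem (inv_mem hx) h5, ?_⟩))
    (mem_sup_left (mem_inf.2 ⟨mul_mem (inv_mem h5) hy, ?_⟩))
  · rw [show x⁻¹ * (n * g * x * (n * g)⁻¹) = ⁅x⁻¹, n * g⁆ by rw [commutatorElement_def]; group]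
    exact commutator_mem_commutator (h3 (le_norm _ (inv_mem hx))) (h3 h4)
  · rw [show (n * g * x * (n * g)⁻¹)⁻¹ * (g * x * g⁻¹) = ⁅(n * g * x * (n * g)⁻¹)⁻¹, n⁻¹⁆ by
      rw [commutatorElement_def]; group]
    exact commutator_mem_commutator (h1 (inv_mem h5)) (inv_mem hn)

end Cfsg.Lib.CharDeg.TrBlk
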