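import Cfsg.Agent.Lib.Char.Burnside

/-!
# Unitary representations, spectral projections and Blichfeldt's `60°` theorem
-/

set_option autoImplicit false

namespace Cfsg.Lib.CharDeg

open Cfsg.Lib.Char Matrix Finset
open scoped ComplexOrder MatrixOrder ComplexConjugate

variable {G : Type*} [Group G] [Finite G] {χ : G → ℂ}

/-- Every complex representation of a finite group is equivalent to a unitary one. -/
theorem exists_unitary_of_rep {n : ℕ} (ρ : Representation ℂ G (Fin n → ℂ)) :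
    ∃ (U : G →* Matrix (Fin n) (Fin n) ℂ) (S T : Matrix (Fin n) (Fin n) ℂ), S * T = 1 ∧ T * S = 1 ∧
      (∀ g, (U g)ᴴ = U g⁻¹) ∧ ∀ g, U g = S * LinearMap.toMatrix' (ρ g) * T := by
  classical
  haveI := Fintype.ofFinite G
  let R : G →* Matrix (Fin n) (Fin n) ℂ :=
    (LinearMap.toMatrixAlgEquiv' (R := ℂ) (n := Fin n)).toMulEquiv.toMonoidHom.comp ρ
  have hH : (∑ g, (R g)ᴴ * R g).PosDef := posDef_sum univ_nonempty fun g _ =>
    PosDef.conjTranspose_mul_self _ (mulVec_injective_iff_isUnit.2 ((Group.isUnit g).map R))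
  obtain ⟨S, hS, e⟩ := CStarAlgebra.isStrictlyPositive_iff_eq_star_mul_self.1 hH.isStrictlyPositive
  obtain ⟨T, st, ts⟩ := isUnit_iff_exists.1 hS
  rw [star_eq_conjTranspose] at e
  have inv : ∀ g, (R g)ᴴ * (Sᴴ * S) * R g = Sᴴ * S := by
    intro g
    rw [← e, mul_sum, sum_mul, ← Equiv.sum_comp (Equiv.mulRight g) fun x => (R x)ᴴ * R x]
    refine sum_congr rfl fun x _ => ?_
    simp [map_mul, mul_assoc]
  let U : G →* Matrix (Fin n) (Fin n) ℂ :=
    { toFun := fun g => S * R g * T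
      map_one' := by rw [map_one, mul_one, st]
      map_mul' := fun g h => by
        calc _ = S * (R g * (T * S) * R h) * T := by rw [ts, mul_one, map_mul]
          _ = _ := by simp only [mul_assoc] }
  refine ⟨U, S, T, st, ts, fun g => ?_, fun g => rfl⟩
  have h1 : Tᴴ * Sᴴ = 1 := by rw [← conjTranspose_mul, st, conjTranspose_one]
  have h2 : (U g)ᴴ * U g = 1 := by
    change (S * R g * T)ᴴ * (S * R g * T) = 1
    rw [conjTranspose_mul, conjTranspose_mul]
    calc _ = Tᴴ * ((R g)ᴴ * (Sᴴ * S) * R g) * T := by simp only [mul_assoc]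
      _ = 1 := by rw [inv, ← mul_assoc, h1, one_mul, st]
  rw [← mul_one (_ᴴ), ← map_one U, ← mul_inv_cancel g, map_mul, ← mul_assoc, h2, one_mul]

theorem exists_unitary (h : IsIrrCharacter G χ) :
    ∃ (n : ℕ) (U : G →* Matrix (Fin n) (Fin n) ℂ), (∀ g, (U g)ᴴ = U g⁻¹) ∧ (∀ g, (U g).trace = χ g) ∧
      ∀ M, M * M = M → M ≠ 0 → (∀ g, M * U g = U g * M) → M = 1 := by
  obtain ⟨n, ρ, hρ, rfl⟩ := h
  obtain ⟨U, S, T, st, ts, h1, h2⟩ := exists_unitary_of_rep ρ
  refine ⟨n, U, h1, fun g => ?_, fun M m1 m2 m3 => ?_⟩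
  · rw [h2, trace_mul_comm, ← mul_assoc, ts, one_mul, Representation.character,
      LinearMap.trace_eq_matrix_trace ℂ (Pi.basisFun ℂ _)]
    simp
  · obtain ⟨N, hN⟩ : ∃ N, N = T * M * S := ⟨_, rfl⟩
    have hM : M = S * N * T := by
      calc M = (S * T) * M * (S * T) := by rw [st, one_mul, mul_one]
        _ = _ := by simp only [hN, mul_assoc]
    have n1 : N * N = N := by
      rw [hN]
      calc _ = T * (M * (S * T) * M) * S := by simp only [mul_assoc]
        _ = _ := by rw [st, mul_one, m1]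
    have n3 : ∀ g, N * LinearMap.toMatrix' (ρ g) = LinearMap.toMatrix' (ρ g) * N := by
      intro g
      have := congrArg (fun X => T * X * S) (m3 g)
      simp only [h2, mul_assoc, ts, mul_one, ← mul_assoc T S, one_mul] at this
      simpa only [hN, mul_assoc] using this
    let W : Subrepresentation ρ := ⟨LinearMap.range (toLin' N), by
      rintro g _ ⟨v, rfl⟩
      refine ⟨ρ g v, ?_⟩
      have := congrArg (fun X => toLin' X v) (n3 g)
      simpa [toLin'_mul] using this⟩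
    rcases eq_bot_or_eq_top W with h | h
    · have : LinearMap.range (toLin' N) = ⊥ := congrArg Subrepresentation.toSubmodule h
      rw [LinearMap.range_eq_bot, map_eq_zero_iff _ toLin'.injective] at this
      exact absurd (by rw [hM, this]; simp) m2
    · have : LinearMap.range (toLin' N) = ⊤ := congrArg Subrepresentation.toSubmodule h
      have h3 : N = 1 := toLin'.injective (LinearMap.ext fun v => by
        obtain ⟨w, rfl⟩ := LinearMap.range_eq_top.1 this v
        have := congrArg (fun X => toLin' X w) n1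
        simpa [toLin'_mul] using this)
      rw [hM, h3, mul_one, st]

section Matrix

variable {m : Type*} [Fintype m] [DecidableEq m] {X Y Z P Q : Matrix m m ℂ} {n : ℕ} {μ ν ζ : ℂ}

/-- The square of the Hilbert–Schmidt norm. -/
noncomputable def hs (Y : Matrix m m ℂ) : ℝ := (Yᴴ * Y).trace.re

omit [DecidableEq m] in
theorem hs_coe (Y : Matrix m m ℂ) : (hs Y : ℂ) = (Yᴴ * Y).trace :=
  Complex.ext rfl (by
    simpa using ((Complex.nonneg_iff.1 (posSemidef_conjTranspose_mul_self Y).trace_nonneg).2))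

omit [DecidableEq m] in
theorem hs_nonneg (Y : Matrix m m ℂ) : 0 ≤ hs Y :=
  (Complex.nonneg_iff.1 (posSemidef_conjTranspose_mul_self Y).trace_nonneg).1

omit [DecidableEq m] in
theorem hs_eq_zero : hs Y = 0 ↔ Y = 0 := by
  rw [← trace_conjTranspose_mul_self_eq_zero_iff, ← hs_coe, Complex.ofReal_eq_zero]

omit [DecidableEq m] in
theorem hs_pos (h : Y ≠ 0) : 0 < hs Y := (hs_nonneg Y).lt_of_ne' fun e => h (hs_eq_zero.1 e)

theorem hs_proj_add (h1 : Pᴴ = P) (h2 : P * P = P) (Y : Matrix m m ℂ) :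
    hs (P * Y) + hs ((1 - P) * Y) = hs Y := by
  rw [← Complex.ofReal_inj, Complex.ofReal_add, hs_coe, hs_coe, hs_coe, ← trace_add]
  congr 1
  simp only [conjTranspose_mul, conjTranspose_sub, h1, mul_sub, sub_mul, one_mul,
    mul_assoc, ← mul_assoc P P, h2]
  abel

omit [DecidableEq m] in
theorem hs_proj (h1 : Pᴴ = P) (h2 : P * P = P) : (hs P : ℂ) = P.trace := by rw [hs_coe, h1, h2]

theorem hs_proj_proj (h1 : Pᴴ = P) (h2 : P * P = P) (h3 : Qᴴ = Q) (h4 : Q * Q = Q) :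
    (hs ((1 - P) * Q) : ℂ) = Q.trace - (P * Q).trace := by
  rw [hs_coe, conjTranspose_mul, conjTranspose_sub, conjTranspose_one, h1, h3, trace_mul_comm,
    mul_assoc, ← mul_assoc Q, h4, trace_mul_comm, mul_assoc, trace_mul_comm, ← trace_sub]
  congr 1
  simp only [mul_sub, sub_mul, one_mul, mul_one, h2, sub_self, sub_zero]

/-- The spectral projection of a matrix of finite order. -/
noncomputable def spec (n : ℕ) (X : Matrix m m ℂ) (μ : ℂ) : Matrix m m ℂ :=
  (n : ℂ)⁻¹ • ∑ k ∈ range n, μ⁻¹ ^ k • X ^ k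

theorem mul_spec (hX : X ^ n = 1) (hμ : μ ^ n = 1) (h0 : n ≠ 0) : X * spec n X μ = μ • spec n X μ := by
  have m0 : μ ≠ 0 := by rintro rfl; simp [h0] at hμ
  have h1 := (sum_range_succ (fun k => μ⁻¹ ^ k • X ^ k) n).symm.trans
    (sum_range_succ' (fun k => μ⁻¹ ^ k • X ^ k) n)
  rw [inv_pow μ n, hμ, hX, pow_zero, pow_zero, inv_one, add_left_inj] at h1
  rw [spec, mul_smul_comm, smul_comm μ]
  congr 1
  conv_rhs => rw [h1]
  rw [mul_sum, smul_sum]
  refine sum_congr rfl fun k _ => ?_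
  rw [mul_smul_comm, ← pow_succ', smul_smul, pow_succ' μ⁻¹, mul_inv_cancel_left₀ m0]

theorem pow_mul_spec (hX : X ^ n = 1) (hμ : μ ^ n = 1) (h0 : n ≠ 0) (k : ℕ) :
    X ^ k * spec n X μ = μ ^ k • spec n X μ := by
  induction k with
  | zero => simp
  | succ k ih => rw [pow_succ, mul_assoc, mul_spec hX hμ h0, mul_smul_comm, ih, smul_smul, pow_succ']

theorem commute_spec (h : Commute Y X) : Commute Y (spec n X μ) :=
  (Commute.sum_right _ _ _ fun k _ => (h.pow_right k).smul_right _).smul_right _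

theorem sum_spec (hζ : IsPrimitiveRoot ζ n) (h0 : n ≠ 0) : ∑ i ∈ range n, spec n X (ζ ^ i) = 1 := by
  simp only [spec]
  rw [← smul_sum, sum_comm, sum_eq_single 0 (fun k hk k0 => ?_) (by simp [h0])]
  · simp [← Nat.cast_smul_eq_nsmul ℂ, smul_smul, h0]
  · have h6 : ζ⁻¹ ^ k ≠ 1 := hζ.inv.pow_ne_one_of_pos_of_lt k0 (mem_range.1 hk)
    rw [← sum_smul, sum_congr rfl (g := fun i => (ζ⁻¹ ^ k) ^ i) fun i _ => by
      rw [← inv_pow, ← pow_mul, ← pow_mul, mul_comm], geom_sum_eq h6, ← pow_mul, mul_comm k, pow_mul,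
      hζ.inv.pow_eq_one]
    simp

theorem spec_orth (hU : Xᴴ * X = 1) (hX : X ^ n = 1) (hμ : μ ^ n = 1) (hν : ν ^ n = 1) (h0 : n ≠ 0)
    (h : μ ≠ ν) : (spec n X μ)ᴴ * spec n X ν = 0 := by
  have h1 : (X * spec n X μ)ᴴ * (X * spec n X ν) = (spec n X μ)ᴴ * spec n X ν := by
    rw [conjTranspose_mul, mul_assoc, ← mul_assoc Xᴴ, hU, one_mul]
  rw [mul_spec hX hμ h0, mul_spec hX hν h0, conjTranspose_smul, smul_mul_smul_comm, ← sub_eq_zero] at h1
  have h2 : (star μ * ν - 1) • ((spec n X μ)ᴴ * spec n X ν) = 0 := by rw [sub_smul, one_smul, h1]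
  refine (smul_eq_zero.1 h2).resolve_left fun e => h ?_
  have h3 : μ * star μ = 1 := by
    rw [Complex.star_def, Complex.mul_conj, Complex.normSq_eq_norm_sq,
      Complex.norm_eq_one_of_pow_eq_one hμ h0]; simp
  linear_combination -μ * e + ν * h3

theorem spec_herm (hζ : IsPrimitiveRoot ζ n) (hU : Xᴴ * X = 1) (hX : X ^ n = 1) (h0 : n ≠ 0) {i : ℕ}
    (hi : i < n) : (spec n X (ζ ^ i))ᴴ = spec n X (ζ ^ i) ∧
      spec n X (ζ ^ i) * spec n X (ζ ^ i) = spec n X (ζ ^ i) := by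
  have p1 : ∀ j : ℕ, (ζ ^ j) ^ n = 1 := fun j => by rw [← pow_mul, mul_comm, pow_mul, hζ.pow_eq_one, one_pow]
  have h1 : (spec n X (ζ ^ i))ᴴ = (spec n X (ζ ^ i))ᴴ * spec n X (ζ ^ i) := by
    conv_lhs => rw [← mul_one (_ᴴ), ← sum_spec (X := X) hζ h0, mul_sum]
    exact sum_eq_single i (fun j hj ji => spec_orth hU hX (p1 i) (p1 j) h0 fun e =>
      ji (hζ.pow_inj (mem_range.1 hj) hi e.symm)) (fun h => absurd (mem_range.2 hi) h)
  have h2 : (spec n X (ζ ^ i))ᴴ = spec n X (ζ ^ i) := by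
    have := congrArg conjTranspose h1
    rw [conjTranspose_mul, conjTranspose_conjTranspose, ← h1] at this
    exact this.symm
  exact ⟨h2, by rw [h2] at h1; exact h1.symm⟩

theorem hs_sum_spec (hζ : IsPrimitiveRoot ζ n) (hU : Xᴴ * X = 1) (hX : X ^ n = 1) (h0 : n ≠ 0)
    (c : ℕ → ℂ) (Y : Matrix m m ℂ) : hs (∑ i ∈ range n, c i • (spec n X (ζ ^ i) * Y)) =
      ∑ i ∈ range n, ‖c i‖ ^ 2 * hs (spec n X (ζ ^ i) * Y) := by
  have p1 : ∀ j : ℕ, (ζ ^ j) ^ n = 1 := fun j => by rw [← pow_mul, mul_comm, pow_mul, hζ.pow_eq_one, one_pow]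
  rw [← Complex.ofReal_inj, hs_coe, conjTranspose_sum, sum_mul, trace_sum, Complex.ofReal_sum]
  refine sum_congr rfl fun i hi => ?_
  rw [mul_sum, sum_eq_single i (fun j hj ji => ?_) (fun h => absurd hi h)]
  · rw [conjTranspose_smul, smul_mul_smul_comm, trace_smul, Complex.ofReal_mul, hs_coe, Complex.star_def,
      Complex.conj_mul', smul_eq_mul]
    simp
  · rw [conjTranspose_smul, smul_mul_smul_comm, conjTranspose_mul, mul_assoc, ← mul_assoc _ _ Y,
      spec_orth hU hX (p1 i) (p1 j) h0 fun e => ji (hζ.pow_inj (mem_range.1 hj) (mem_range.1 hi) e.symm)]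
    simp

theorem trace_spec {ι : Type*} [Fintype ι] {w lam : ι → ℂ} (hl : ∀ j, lam j ^ n = 1) (hμ : μ ^ n = 1)
    (h0 : n ≠ 0) (h : ∀ k : ℕ, (X ^ k).trace = ∑ j, w j * lam j ^ k) :
    (spec n X μ).trace = ∑ j with lam j = μ, w j := by
  classical
  have m0 : μ ≠ 0 := by rintro rfl; simp [h0] at hμ
  simp only [spec, trace_smul, trace_sum, h, smul_eq_mul, mul_sum]
  rw [sum_comm, sum_filter]
  refine sum_congr rfl fun j _ => ?_
  rw [sum_congr rfl (g := fun k => (n : ℂ)⁻¹ * w j * (μ⁻¹ * lam j) ^ k) fun k _ => by ring, ← mul_sum]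
  split_ifs with e
  · simp [e, m0]
    field_simp
  · rw [geom_sum_eq (fun e' => e (by rw [inv_mul_eq_one₀ m0] at e'; exact e'.symm)), mul_pow, inv_pow,
      hμ, hl]
    simp

theorem commute_of_contract {c : ℂ} (hU : Xᴴ * X = 1) (hc : ‖c‖ = 1)
    (h : ∀ Y : Matrix m m ℂ, Y ≠ 0 → hs ((X - c • 1) * Y) < hs Y) (h1 : Pᴴ = P) (h2 : P * P = P)
    (h3 : Commute P (X * P * Xᴴ)) : Commute X P := by
  set Q := X * P * Xᴴ with hQ
  have q1 : Qᴴ = Q := by simp [hQ, h1, mul_assoc]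
  have q2 : Q * Q = Q := by
    calc _ = X * (P * (Xᴴ * X) * P) * Xᴴ := by simp only [hQ, mul_assoc]
      _ = _ := by rw [hU, mul_one, h2]
  have q3 : X * P = Q * X := by rw [hQ, mul_assoc, hU, mul_one]
  have y0 : (1 - Q) * P = 0 := by
    by_contra y0
    have y1 := h _ y0
    set Y := (1 - Q) * P with hY
    have y2 : Yᴴ * (X * Y) = 0 := by
      have a1 : Y = P * (1 - Q) := by rw [hY, sub_mul, mul_sub, one_mul, mul_one, h3.eq]
      have a2 : Yᴴ = P * (1 - Q) := by rw [hY, conjTranspose_mul, conjTranspose_sub, conjTranspose_one, q1, h1]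
      rw [a2]
      conv_lhs => rw [a1, ← mul_assoc X, q3]
      calc _ = P * ((1 - Q) * Q) * X * (1 - Q) := by simp only [mul_assoc]
        _ = 0 := by rw [sub_mul, one_mul, q2, sub_self]; simp
    have y3 : (X * Y)ᴴ * Y = 0 := by
      have := congrArg conjTranspose y2
      rwa [conjTranspose_mul, conjTranspose_conjTranspose, conjTranspose_zero] at this
    have y4 : (X * Y)ᴴ * (X * Y) = Yᴴ * Y := by
      rw [conjTranspose_mul, mul_assoc, ← mul_assoc Xᴴ, hU, one_mul]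
    have y5 : hs ((X - c • 1) * Y) = 2 * hs Y := by
      rw [← Complex.ofReal_inj, Complex.ofReal_mul, hs_coe, hs_coe, sub_mul, smul_mul_assoc, one_mul,
        conjTranspose_sub, conjTranspose_smul, sub_mul, mul_sub, mul_sub, y4, mul_smul_comm, y3,
        smul_mul_assoc, y2, smul_mul_smul_comm, Complex.star_def, Complex.conj_mul', hc]
      simp [two_mul]
    have := hs_nonneg Y
    linarith
  have y1 : (1 - P) * Q = 0 := by
    rw [← hs_eq_zero, ← Complex.ofReal_eq_zero, hs_proj_proj h1 h2 q1 q2, h3.eq]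
    rw [sub_mul, one_mul, sub_eq_zero] at y0
    rw [← y0, hQ, trace_mul_comm, ← mul_assoc, hU, one_mul, sub_self]
  rw [sub_mul, one_mul, sub_eq_zero] at y0 y1
  rw [Commute, SemiconjBy, q3, y1, h3.eq, ← y0]

end Matrix

/-- The abstract form of Blichfeldt's theorem. -/
theorem commute_conj_of_contract {m : Type*} [Fintype m] [DecidableEq m] (U : G →* Matrix m m ℂ)
    (hU : ∀ g, (U g)ᴴ = U g⁻¹) {τ : G} {c : ℂ} (hc : ‖c‖ = 1) {P : Matrix m m ℂ} (h1 : Pᴴ = P)
    (h2 : P * P = P) (h3 : U τ * P = c • P) (h4 : ∀ M, Commute M (U τ) → Commute M P)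
    (h : ∀ Y : Matrix m m ℂ, Y ≠ 0 → hs ((U τ - c • 1) * Y) < hs Y) (g : G) :
    Commute (U τ) (U g * P * U g⁻¹) := by
  classical
  haveI := Fintype.ofFinite G
  let π : G → Matrix m m ℂ := fun g => U g * P * U g⁻¹
  have u1 : ∀ g, U g⁻¹ * U g = 1 := fun g => by rw [← map_mul, inv_mul_cancel, map_one]
  have u2 : ∀ g, U g * U g⁻¹ = 1 := fun g => by rw [← map_mul, mul_inv_cancel, map_one]
  have p1 : ∀ g, (π g)ᴴ = π g := fun g => by simp [π, hU, h1, mul_assoc]
  have p3 : ∀ g x, π (g * x) = U g * π x * U g⁻¹ := fun g x => by simp [π, mul_assoc]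
  have p2 : ∀ g, π g * π g = π g := fun g => by
    calc _ = U g * (P * (U g⁻¹ * U g) * P) * U g⁻¹ := by simp only [π, mul_assoc]
      _ = _ := by rw [u1, mul_one, h2]
  have p4 : ∀ g x, Commute P (π (g⁻¹ * x)) → Commute (π g) (π x) := fun g x e => by
    have : π x = U g * π (g⁻¹ * x) * U g⁻¹ := by rw [← p3, mul_inv_cancel_left]
    rw [this]
    calc _ = U g * (P * (U g⁻¹ * U g) * π (g⁻¹ * x)) * U g⁻¹ := by simp only [π, mul_assoc]
      _ = U g * (π (g⁻¹ * x) * (U g⁻¹ * U g) * P) * U g⁻¹ := by rw [u1, mul_one, mul_one, e.eq]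
      _ = _ := by simp only [π, mul_assoc]
  have p5 : ∀ g, Commute P (π (g⁻¹ * (τ * g))) → Commute (U τ) (π g) := fun g e =>
    commute_of_contract (by rw [hU, u1]) hc h (p1 g) (p2 g) (by
      rw [hU, ← p3]; exact p4 _ _ e)
  refine p5 g ?_
  by_contra hn
  obtain ⟨x, hx, hmin⟩ := exists_min_image (univ.filter fun x => ¬ Commute P (π x))
    (fun x => hs ((1 - P) * π x)) ⟨_, mem_filter.2 ⟨mem_univ _, hn⟩⟩
  rw [mem_filter] at hx
  refine hx.2 (h4 _ (p5 x ?_).symm).symm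
  by_contra hn'
  refine (hmin _ (mem_filter.2 ⟨mem_univ _, hn'⟩)).not_gt ?_
  have y0 : (1 - P) * π x ≠ 0 := fun y0 => hx.2 (by
    rw [sub_mul, one_mul, sub_eq_zero] at y0
    have := congrArg conjTranspose y0
    rw [p1, conjTranspose_mul P, p1, h1] at this
    exact y0.symm.trans this)
  refine lt_of_le_of_lt ?_ (h _ y0)
  have e1 : (U τ - c • 1) * ((1 - P) * π x) = (U τ - c • 1) * π x := by
    rw [← mul_assoc, mul_sub (U τ - c • 1), mul_one, sub_mul (U τ), h3]; simp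
  have e2 : (1 - π x) * ((U τ - c • 1) * π x) = (1 - π x) * (U τ * π x) := by
    rw [sub_mul (U τ), mul_sub, smul_mul_assoc, one_mul, mul_smul_comm, sub_mul 1 (π x) (π x), p2]
    simp
  have e3 : hs ((1 - P) * π (x⁻¹ * (τ * x))) = hs ((1 - π x) * (U τ * π x)) := by
    rw [← Complex.ofReal_inj, hs_proj_proj h1 h2 (p1 _) (p2 _), hs_coe]
    have a1 : ((1 - π x) * (U τ * π x))ᴴ * ((1 - π x) * (U τ * π x)) =
        π x * (U τ⁻¹ * U τ) * π x - π x * (U τ⁻¹ * π x * U τ) * π x := by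
      simp only [conjTranspose_mul, conjTranspose_sub, p1, hU, mul_sub, sub_mul,
        one_mul, mul_assoc, ← mul_assoc (π x) (π x), p2, sub_self, sub_zero]
    rw [a1, u1, mul_one, p2, trace_sub, trace_mul_comm _ (π x), ← mul_assoc (π x), p2]
    have a2 : ∀ g M, (U g * M * U g⁻¹).trace = M.trace := fun g M => by
      rw [trace_mul_comm, ← mul_assoc, u1, one_mul]
    congr 1
    · simp only [π, a2]
    · rw [p3, p3, inv_inv, ← mul_assoc P, trace_mul_comm]
      calc _ = (π x * U τ * π x * U τ⁻¹).trace := by simp only [π, mul_assoc]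
        _ = _ := by rw [trace_mul_comm, trace_mul_comm (π x)]; simp only [mul_assoc]
  rw [e1, e3, ← e2, ← hs_proj_add (p1 x) (p2 x) ((U τ - c • 1) * π x)]
  exact le_add_of_nonneg_left (hs_nonneg _)

/-- **Blichfeldt's theorem** for simple groups: a non-trivial element has no eigenvalue such that
all the other eigenvalues are at distance less than one from it. -/
theorem eq_one_of_arc [IsSimpleGroup G] (hG : ¬ IsMulCommutative G) (h : IsIrrCharacter G χ)
    (h1 : χ ≠ fun _ => 1) {τ : G} {ι : Type*} [Fintype ι] {w : ι → ℕ} {lam : ι → ℂ} {n : ℕ} (h0 : n ≠ 0)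
    (hτ : τ ^ n = 1) (hl : ∀ j, lam j ^ n = 1) (hw : ∀ k : ℕ, χ (τ ^ k) = ∑ j, w j * lam j ^ k) {i : ι}
    (hi : w i ≠ 0) (ha : ∀ j, w j ≠ 0 → ‖lam j - lam i‖ < 1) : τ = 1 := by
  classical
  obtain ⟨d, U, u1, u2, u3⟩ := exists_unitary h
  have : NeZero n := ⟨h0⟩
  have hζ := Complex.isPrimitiveRoot_exp n h0
  generalize Complex.exp (2 * Real.pi * Complex.I / n) = ζ at hζ
  have p1 : ∀ j : ℕ, (ζ ^ j) ^ n = 1 := fun j => by rw [← pow_mul, mul_comm, pow_mul, hζ.pow_eq_one, one_pow]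
  have x1 : (U τ)ᴴ * U τ = 1 := by rw [u1, ← map_mul, inv_mul_cancel, map_one]
  have x2 : U τ ^ n = 1 := by rw [← map_pow, hτ, map_one]
  have tr : ∀ μ : ℂ, μ ^ n = 1 → (spec n (U τ) μ).trace = ∑ j with lam j = μ, (w j : ℂ) := fun μ hμ =>
    trace_spec hl hμ h0 fun k => by rw [← map_pow, u2, hw]
  obtain ⟨a, a1, a2⟩ := hζ.eq_pow_of_pow_eq_one (hl i)
  obtain ⟨q1, q2⟩ := spec_herm hζ x1 x2 h0 a1
  rw [a2] at q1 q2
  set P := spec n (U τ) (lam i)
  have q0 : P ≠ 0 := fun e => by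
    have := tr _ (hl i)
    rw [show spec n (U τ) (lam i) = 0 from e, trace_zero, eq_comm, ← Nat.cast_sum, Nat.cast_eq_zero,
      sum_eq_zero_iff] at this
    exact hi (this i (by simp))
  have key := commute_conj_of_contract U u1 (τ := τ) (Complex.norm_eq_one_of_pow_eq_one (hl i) h0) q1 q2
    (mul_spec x2 (hl i) h0) (fun M => commute_spec) (fun Y y0 => by
      have e1 : ∑ k ∈ range n, (1 : ℂ) • (spec n (U τ) (ζ ^ k) * Y) = Y := by
        simp only [one_smul]; rw [← sum_mul, sum_spec hζ h0, one_mul]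
      have e2 : ∑ k ∈ range n, (ζ ^ k - lam i) • (spec n (U τ) (ζ ^ k) * Y) = (U τ - lam i • 1) * Y := by
        conv_rhs => rw [← e1, mul_sum]
        refine sum_congr rfl fun k _ => ?_
        rw [one_smul, sub_mul, ← mul_assoc, mul_spec x2 (p1 k) h0, sub_smul]; simp
      have e3 : ∀ k ∈ range n, spec n (U τ) (ζ ^ k) * Y ≠ 0 → ‖ζ ^ k - lam i‖ ^ 2 < ‖(1 : ℂ)‖ ^ 2 := by
        intro k hk hne
        obtain ⟨r1, r2⟩ := spec_herm hζ x1 x2 h0 (mem_range.1 hk)
        have : ∑ j with lam j = ζ ^ k, w j ≠ 0 := fun e => hne (by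
          have : spec n (U τ) (ζ ^ k) = 0 := hs_eq_zero.1 (Complex.ofReal_eq_zero.1 (by
            rw [hs_proj r1 r2, tr _ (p1 k), ← Nat.cast_sum, e, Nat.cast_zero]))
          rw [this, zero_mul])
        obtain ⟨j, j1, j2⟩ := exists_ne_zero_of_sum_ne_zero this
        rw [← (mem_filter.1 j1).2, norm_one]
        exact pow_lt_pow_left₀ (ha j j2) (norm_nonneg _) two_ne_zero
      rw [← e2]
      conv_rhs => rw [← e1]
      rw [hs_sum_spec hζ x1 x2 h0, hs_sum_spec hζ x1 x2 h0]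
      obtain ⟨k, k1, k2⟩ := exists_ne_zero_of_sum_ne_zero (e1.trans_ne y0)
      rw [one_smul] at k2
      refine sum_lt_sum (fun k hk => ?_) ⟨k, k1, mul_lt_mul_of_pos_right (e3 k k1 k2) (hs_pos k2)⟩
      by_cases e : spec n (U τ) (ζ ^ k) * Y = 0
      · rw [hs_eq_zero.2 e]; simp
      · exact mul_le_mul_of_nonneg_right (e3 k hk e).le (hs_nonneg _))
  let K : Subgroup G :=
    { carrier := {g | ∀ x, Commute (U g) (U x * P * U x⁻¹)}
      mul_mem' := fun {a b} ha hb x => by rw [map_mul]; exact (ha x).mul_left (hb x)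
      one_mem' := fun x => by rw [map_one]; exact Commute.one_left _
      inv_mem' := fun {a} ha x => by
        have := (ha x).eq
        calc _ = U a⁻¹ * (U x * P * U x⁻¹ * U a) * U a⁻¹ := by
              rw [mul_assoc (U a⁻¹), mul_assoc _ (U a), ← map_mul, mul_inv_cancel, map_one, mul_one]
          _ = _ := by rw [← this, ← mul_assoc, ← map_mul, inv_mul_cancel, map_one, one_mul] }
  have hK : K.Normal := ⟨fun a ha g x => by
    have := (ha (g⁻¹ * x)).eq
    have e : U x * P * U x⁻¹ = U g * (U (g⁻¹ * x) * P * U (g⁻¹ * x)⁻¹) * U g⁻¹ := by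
      rw [← mul_assoc, ← mul_assoc, ← map_mul, mul_assoc _ (U _), ← map_mul]; simp
    have u : U g⁻¹ * U g = 1 := by rw [← map_mul, inv_mul_cancel, map_one]
    rw [e, map_mul, map_mul]
    calc _ = U g * (U a * (U g⁻¹ * U g) * (U (g⁻¹ * x) * P * U (g⁻¹ * x)⁻¹)) * U g⁻¹ := by
          simp only [mul_assoc]
      _ = U g * ((U (g⁻¹ * x) * P * U (g⁻¹ * x)⁻¹) * (U g⁻¹ * U g) * U a) * U g⁻¹ := by
          rw [u, mul_one, mul_one, this]
      _ = _ := by simp only [mul_assoc]⟩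
  rcases hK.eq_bot_or_eq_top with e | e
  · exact Subgroup.mem_bot.1 (e ▸ (key : τ ∈ K))
  have P1 : P = 1 := u3 P q2 q0 fun g => by
    have := (e ▸ Subgroup.mem_top g : g ∈ K) 1
    simpa using this.eq.symm
  have x3 : U τ = lam i • 1 := by
    have := mul_spec x2 (hl i) h0
    rwa [show spec n (U τ) (lam i) = 1 from P1, mul_one] at this
  have inj : U.ker = ⊥ := (MonoidHom.normal_ker U).eq_bot_or_eq_top.resolve_right fun e' => h1
    (h.eq_one_of_forall_apply_eq fun g => by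
      rw [← u2, ← u2, MonoidHom.mem_ker.1 (e' ▸ Subgroup.mem_top g : g ∈ U.ker), map_one])
  have hc : τ ∈ Subgroup.center G := Subgroup.mem_center_iff.2 fun g =>
    (MonoidHom.ker_eq_bot_iff U).1 inj (by rw [map_mul, map_mul, x3]; simp)
  rcases (inferInstance : (Subgroup.center G).Normal).eq_bot_or_eq_top with e' | e'
  · exact Subgroup.mem_bot.1 (e' ▸ hc)
  · exact absurd ⟨⟨fun a b => (Subgroup.mem_center_iff.1 (e' ▸ Subgroup.mem_top b) a)⟩⟩ hG

end Cfsg.Lib.CharDeg
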